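import Mathlib
import Cfsg.Agent.Mult.LT

/-! Splitting over a group with a central series and commuting operators. -/

set_option autoImplicit false
set_option linter.unusedSectionVars false

namespace Cfsg.Agent.Mult
open Subgroup Cfsg.Agent.H2.Schur Function
open scoped commutatorElement

variable {E G : Type*} [Group E] [Group G] {π : E →* G}

/-- `h` acts without fixed points on `A / A'` -/
def FP (h : G) (A A' : Subgroup G) : Prop := ∀ u ∈ A, ⁅h, u⁆ ∈ A' → u ∈ A'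

theorem comm_mem_of {h u : G} {A : Subgroup G} (hA : ∀ u ∈ A, h * u * h⁻¹ ∈ A) (hu : u ∈ A) : ⁅h, u⁆ ∈ A :=
  mul_mem (hA u hu) (inv_mem hu)

theorem conj_mem_of_comm {a u : G} {A : Subgroup G} (h : ⁅a, u⁆ ∈ A) (hu : u ∈ A) : a * u * a⁻¹ ∈ A := by
  simpa [commutatorElement_def] using mul_mem h hu

theorem FP.surj [Finite G] {h : G} {A A' : Subgroup G} (hf : FP h A A') (hA : ∀ u ∈ A, h * u * h⁻¹ ∈ A)
    (hA' : ∀ u ∈ A', h * u * h⁻¹ ∈ A') (hc : ∀ a ∈ A, ∀ b ∈ A, ⁅a, b⁆ ∈ A') {b : G} (hb : b ∈ A) :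
    ∃ a ∈ A, b⁻¹ * ⁅h, a⁆ ∈ A' := by
  have k : ∀ a b : A, (⁅h, a.1⁆)⁻¹ * ⁅h, b.1⁆ ∈ A' ↔ a.1⁻¹ * b.1 ∈ A' := fun a b => by
    have h1 := mul_mem (inv_mem a.2) b.2
    rw [show (⁅h, a.1⁆)⁻¹ * ⁅h, b.1⁆ = ⁅a.1, ⁅h, a.1⁻¹ * b.1⁆⁆ * ⁅h, a.1⁻¹ * b.1⁆ by
      simp only [commutatorElement_def]; group, A'.mul_mem_cancel_left (hc _ a.2 _ (comm_mem_of hA h1))]
    exact ⟨hf _ h1, comm_mem_of hA'⟩
  let f : A ⧸ A'.subgroupOf A → A ⧸ A'.subgroupOf A := Quotient.map' (fun a => ⟨_, comm_mem_of hA a.2⟩)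
    fun a b e => QuotientGroup.leftRel_apply.2 ((k a b).2 (QuotientGroup.leftRel_apply.1 e :))
  obtain ⟨a, ha⟩ := Finite.surjective_of_injective (f := f) (fun a b => Quotient.inductionOn₂' a b fun a b e =>
    QuotientGroup.eq.2 ((k a b).1 ((QuotientGroup.eq (s := A'.subgroupOf A)).1 e :))) (QuotientGroup.mk ⟨b, hb⟩)
  obtain ⟨a, rfl⟩ := QuotientGroup.mk_surjective a
  exact ⟨a, a.2, ((QuotientGroup.eq (s := A'.subgroupOf A)).1 ha.symm :)⟩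

/-- an invariant pairing of two sections -/
structure SP (π : E →* G) (Hs : Set G) (A A' B B' : Subgroup G) (β : G → G → E) : Prop where
  l : ∀ a ∈ A, ∀ a' ∈ A, ∀ b ∈ B, β (a * a') b = β a b * β a' b
  r : ∀ a ∈ A, ∀ b ∈ B, ∀ b' ∈ B, β a (b * b') = β a b * β a b'
  l0 : ∀ a ∈ A', ∀ b ∈ B, β a b = 1
  r0 : ∀ a ∈ A, ∀ b ∈ B', β a b = 1
  cm : ∀ a b, CM π a b → β a b = 1
  inv : ∀ h ∈ Hs, ∀ a ∈ A, ∀ b ∈ B, β (h * a * h⁻¹) (h * b * h⁻¹) = β a b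

theorem exists_step [Finite G] (hπ : CExt π) {A A' : Subgroup G} {M : Subgroup E} (hM : ∀ m ∈ M, π m = 1 → m = 1)
    (hA : M.map π = A') (hle : A' ≤ A) (hc : ∀ x y, π x ∈ A → π y ∈ A → ⁅x, y⁆ ∈ M) {h : E} (hf : FP (π h) A A')
    (h1 : ∀ u ∈ A, π h * u * (π h)⁻¹ ∈ A) (h2 : ∀ m ∈ M, h * m * h⁻¹ ∈ M) :
    ∃ N : Subgroup E, (∀ m ∈ N, π m = 1 → m = 1) ∧ N.map π = A ∧ M ≤ N ∧ ∀ x, Commute (π x) (π h) →
      (∀ u ∈ A, π x * u * (π x)⁻¹ ∈ A) → (∀ m ∈ M, x * m * x⁻¹ ∈ M) → ∀ m ∈ N, x * m * x⁻¹ ∈ N := by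
  have hM' : ∀ m ∈ M, π m ∈ A := fun m hm => hle (hA.le ⟨m, hm, rfl⟩)
  have k1 : ∀ x, π x ∈ A → ∀ m ∈ M, x * m * x⁻¹ ∈ M := fun x hx m hm => conj_mem_of_comm (hc x m hx (hM' m hm)) hm
  have k2 : ∀ a, π a ∈ A → π ⁅h, a⁆ ∈ A := fun a ha => by simpa using comm_mem_of h1 ha
  let N : Subgroup E :=
    { carrier := {m | π m ∈ A ∧ ∃ a, π a ∈ A ∧ m⁻¹ * ⁅h, a⁆ ∈ M}
      one_mem' := ⟨by simp, 1, by simp, by simp⟩
      mul_mem' := fun {m m'} ⟨h3, a, h4, h5⟩ ⟨h3', a', h4', h5'⟩ => ⟨by simpa using mul_mem h3 h3', a * a',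
        by simpa using mul_mem h4 h4', by
          convert mul_mem (mul_mem (k1 m'⁻¹ (by simpa using h3') _ h5) h5')
            (hc (⁅h, a'⁆)⁻¹ a (by rw [map_inv]; exact inv_mem (k2 a' h4')) h4) using 1
          simp only [commutatorElement_def]; group⟩
      inv_mem' := fun {m} ⟨h3, a, h4, h5⟩ => ⟨by simpa using h3, a⁻¹, by simpa using h4, by
        convert mul_mem (k1 _ (k2 a h4) _ (inv_mem h5)) (hc _ a⁻¹ (k2 a h4) (by simpa using h4)) using 1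
        simp only [commutatorElement_def]; group⟩ }
  have hMN : M ≤ N := fun m hm => ⟨hM' m hm, 1, by simp, by simpa using hm⟩
  refine ⟨N, fun z ⟨_, a, h4, h5⟩ hz => ?_, le_antisymm (by rintro _ ⟨m, hm, rfl⟩; exact hm.1) fun b hb => ?_, hMN,
    fun x hx h3 h4 m ⟨h5, a, h6, h7⟩ => ⟨by simpa using h3 _ h5, x * a * x⁻¹, by simpa using h3 _ h6, ?_⟩⟩
  · obtain ⟨m, hm, e⟩ := hA.ge (hf _ h4 (by simpa [hz] using hA.le ⟨_, h5, rfl⟩))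
    rw [← comm_eq_of_map_eq hπ.cent rfl e, M.mul_mem_cancel_right (comm_mem_of h2 hm)] at h5
    exact hM z (inv_mem_iff.1 h5) hz
  · obtain ⟨a, ha, e⟩ := hf.surj h1 (fun u hu => by
      obtain ⟨m, hm, rfl⟩ := hA.ge hu
      exact hA.le ⟨_, h2 m hm, by simp⟩) (fun a ha b hb => by
      obtain ⟨a, rfl⟩ := hπ.surj a
      obtain ⟨b, rfl⟩ := hπ.surj b
      exact hA.le ⟨_, hc a b ha hb, by simp⟩) hb
    obtain ⟨a, rfl⟩ := hπ.surj a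
    obtain ⟨m, hm, e⟩ := hA.ge e
    exact ⟨_, mul_mem (show ⁅h, a⁆ ∈ N from ⟨k2 a ha, a, ha, by rw [inv_mul_cancel]; exact one_mem _⟩)
      (hMN (inv_mem hm)), by rw [map_mul, map_inv, e, map_commutatorElement]; group⟩
  · rw [comm_eq_of_map_eq hπ.cent (a := h) (a' := x * h * x⁻¹) (by simp [hx.eq]) rfl, ← conjugate_commutatorElement]
    simpa [mul_assoc] using h4 _ h7

theorem sp_of_filt [Finite E] [Finite G] (hπ : CExt π) (U : ℕ → Subgroup G) {N : ℕ} (hN : U N = ⊥)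
    (anti : ∀ k, U (k + 1) ≤ U k) (cm : ∀ k, ∀ a ∈ U 0, ∀ b ∈ U k, ⁅a, b⁆ ∈ U (k + 1)) {Hs : Set G}
    (hc : ∀ h ∈ Hs, ∀ h' ∈ Hs, Commute h h') (hn : ∀ h ∈ Hs, ∀ k, ∀ u ∈ U k, h * u * h⁻¹ ∈ U k)
    (fix : ∀ k < N, ∃ h ∈ Hs, FP h (U k) (U (k + 1)))
    (pair : ∀ j k, j ≤ k → k < N → ∀ β : G → G → E, SP π Hs (U j) (U (j + 1)) (U k) (U (k + 1)) β →
      ∀ a ∈ U j, ∀ b ∈ U k, β a b = 1) :
    ∃ M : Subgroup E, (∀ m ∈ M, π m = 1 → m = 1) ∧ M.map π = U 0 ∧ ∀ x, π x ∈ U 0 → ∀ m ∈ M, x * m * x⁻¹ ∈ M := by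
  have an : ∀ k, U k ≤ U 0 := fun k => antitone_nat_of_succ_le anti k.zero_le
  suffices ∀ k ≤ N, ∃ M : Subgroup E, (∀ m ∈ M, π m = 1 → m = 1) ∧ M.map π = U k ∧
      ∀ x, π x ∈ U 0 ∨ π x ∈ Hs → ∀ m ∈ M, x * m * x⁻¹ ∈ M by
    obtain ⟨M, h1, h2, h3⟩ := this 0 N.zero_le
    exact ⟨M, h1, h2, fun x hx => h3 x (.inl hx)⟩
  intro k hk
  induction hk using Nat.decreasingInduction with
  | self => exact ⟨⊥, by simp, by simp [hN], by simp⟩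
  | of_succ k hk ih =>
  obtain ⟨M, h1, h2, h3⟩ := ih
  obtain ⟨β, hβ⟩ := exists_pairing hπ.cent h1
  have h4 : ∀ x, π x ∈ U 0 ∨ π x ∈ Hs → x ∈ normalizer (M : Set E) := fun x hx => mem_normalizer_fintype (h3 x hx)
  choose s hs using hπ.surj
  have h5 : ∀ {x y}, π x ∈ U 0 → π y ∈ U k → π ⁅x, y⁆ ∈ M.map π := fun hx hy => by simpa [h2] using cm k _ hx _ hy
  have h5' : ∀ {a b}, a ∈ U 0 → b ∈ U k → π ⁅s a, s b⁆ ∈ M.map π := fun ha hb => h5 (hs _ ▸ ha) (hs _ ▸ hb)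
  have h6 : ∀ j ≤ k + 1, ∀ a ∈ U j, ∀ b ∈ U k, β (s a) (s b) = 1 := fun j hj => by
    induction hj using Nat.decreasingInduction with
    | self =>
      intro a ha b hb
      obtain ⟨m, hm, rfl⟩ := h2.ge ha
      rw [hβ.congr (hs _) rfl]
      exact hβ.one (by simpa using inv_mem (comm_mem_of (h3 (s b) (.inl (hs _ ▸ an k hb))) hm))
    | of_succ j hj ih =>
      refine pair j k (by omega) hk _ ⟨fun a ha a' ha' b hb => ?_, fun a ha b hb b' hb' => ?_, ih,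
        fun a ha b hb => ?_, fun a b h => hβ.one (by simp [(h (hs a) (hs b)).commutator_eq]), fun h hh a ha b hb => ?_⟩
      · rw [← hβ.left (h4 _ (.inl (hs _ ▸ an j ha))) (h5' (an j ha) hb) (h5' (an j ha') hb)]
        exact hβ.congr (by simp [hs]) rfl
      · rw [← hβ.right (h4 _ (.inl (hs _ ▸ an k hb))) (h5' (an j ha) hb) (h5' (an j ha) hb')]
        exact hβ.congr rfl (by simp [hs])
      · obtain ⟨m, hm, rfl⟩ := h2.ge hb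
        rw [hβ.congr rfl (hs _)]
        exact hβ.one (comm_mem_of (h3 _ (.inl (hs _ ▸ an j ha))) hm)
      · rw [← hβ.conj (h4 (s h) (.inr (hs _ ▸ hh))) (h5' (an j ha) hb)]
        exact hβ.congr (by simp [hs]) (by simp [hs])
  have h7 : ∀ x y, π x ∈ U 0 → π y ∈ U k → ⁅x, y⁆ ∈ M := fun x y hx hy =>
    hβ.mem (h5 hx hy) ((hβ.congr (hs _).symm (hs _).symm).trans (h6 0 (by omega) _ hx _ hy))
  obtain ⟨h, hh, hf⟩ := fix k hk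
  obtain ⟨h, rfl⟩ := hπ.surj h
  obtain ⟨M', k1, k2, k3, k4⟩ := exists_step hπ h1 h2 (anti k) (fun x y hx => h7 x y (an k hx)) hf (hn _ hh k)
    (h3 h (.inr hh))
  exact ⟨M', k1, k2, fun x hx m hm => hx.elim
    (fun hx => conj_mem_of_comm (k3 (h7 x m hx (k2.le ⟨m, hm, rfl⟩))) hm)
    fun hx => k4 x (hc _ hx _ hh) (hn _ hx k) (h3 x (.inr hx)) m hm⟩

variable {Hs : Set G} {A A' B B' : Subgroup G} {β : G → G → E} (h : SP π Hs A A' B B' β)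
include h

theorem SP.flip : SP π Hs B B' A A' fun b a => β a b :=
  ⟨fun b hb b' hb' a ha => h.r a ha b hb b' hb', fun b hb a ha a' ha' => h.l a ha a' ha' b hb,
    fun b hb a ha => h.r0 a ha b hb, fun b hb a ha => h.l0 a ha b hb, fun _ _ e => h.cm _ _ e.symm,
    fun g hg b hb a ha => h.inv g hg a ha b hb⟩

theorem SP.congr_l (hA : A' ≤ A) {a a' b : G} (ha : a ∈ A) (e : a⁻¹ * a' ∈ A') (hb : b ∈ B) : β a' b = β a b := by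
  simpa [h.l0 _ e b hb] using h.l a ha _ (hA e) b hb

theorem SP.congr (hA : A' ≤ A) (hB : B' ≤ B) {a a' b b' : G} (ha : a ∈ A) (e : a⁻¹ * a' ∈ A') (hb : b ∈ B)
    (e' : b⁻¹ * b' ∈ B') : β a' b' = β a b :=
  (h.congr_l hA ha e (by simpa using mul_mem hb (hB e'))).trans (h.flip.congr_l hB hb e' ha)

/-- an operator that is trivial on one section and without fixed points on the other -/
theorem SP.of_fp [Finite G] (hA : A' ≤ A) (hB : B' ≤ B) {g : G} (hg : g ∈ Hs) (h1 : ∀ a ∈ A, a⁻¹ * (g * a * g⁻¹) ∈ A')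
    (h2 : FP g B B') (h3 : ∀ u ∈ B, g * u * g⁻¹ ∈ B) (h4 : ∀ u ∈ B', g * u * g⁻¹ ∈ B')
    (h5 : ∀ a ∈ B, ∀ b ∈ B, ⁅a, b⁆ ∈ B') : ∀ a ∈ A, ∀ b ∈ B, β a b = 1 := fun a ha b hb => by
  obtain ⟨c, hc, e⟩ := h2.surj h3 h4 h5 hb
  have k := h.r a ha _ (comm_mem_of h3 hc) c hc
  rw [h.flip.congr_l hB hb e ha, commutatorElement_def, inv_mul_cancel_right,
    ← h.congr_l hA ha (h1 a ha) (h3 c hc), h.inv g hg a ha c hc] at k
  simpa using k.symm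

/-- coordinates on which an operator acts by scalars that are not Galois conjugate -/
theorem SP.of_coord {F : Type*} [Field F] [Finite F] (p : ℕ) [Fact p.Prime] [CharP F p] (hA : A' ≤ A) (hB : B' ≤ B)
    {κ μ : G → F} (k1 : ∀ a ∈ A, ∀ a' ∈ A, κ (a * a') = κ a + κ a') (k2 : ∀ a ∈ A, κ a = 0 → a ∈ A')
    (m1 : ∀ a ∈ B, ∀ a' ∈ B, μ (a * a') = μ a + μ a') (m2 : ∀ a ∈ B, μ a = 0 → a ∈ B') {g : G} (hg : g ∈ Hs)
    {c d : F} (k3 : ∀ a ∈ A, g * a * g⁻¹ ∈ A ∧ κ (g * a * g⁻¹) = c * κ a)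
    (m3 : ∀ a ∈ B, g * a * g⁻¹ ∈ B ∧ μ (g * a * g⁻¹) = d * μ a) (hd : d ≠ 0) (hn : ∀ i : ℕ, c ^ p ^ i * d ≠ 1) :
    ∀ a ∈ A, ∀ b ∈ B, β a b = 1 := by
  have key : ∀ {A A' : Subgroup G} {κ : G → F}, (∀ a ∈ A, ∀ a' ∈ A, κ (a * a') = κ a + κ a') →
      (∀ a ∈ A, κ a = 0 → a ∈ A') → ∃ (X : AddSubgroup F) (x : F → G), (∀ a ∈ A, κ a ∈ X) ∧
        (∀ t ∈ X, x t ∈ A ∧ κ (x t) = t) ∧ ∀ a ∈ A, ∀ a' ∈ A, κ a = κ a' → a⁻¹ * a' ∈ A' := fun {A A' κ} k1 k2 => by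
    have e1 : κ 1 = 0 := by simpa using k1 1 (one_mem _) 1 (one_mem _)
    have e2 : ∀ a ∈ A, κ a⁻¹ = -κ a := fun a ha => by
      rw [eq_neg_iff_add_eq_zero, ← k1 _ (inv_mem ha) _ ha, inv_mul_cancel, e1]
    let X : AddSubgroup F :=
      { carrier := {t | ∃ a ∈ A, κ a = t}
        zero_mem' := ⟨1, one_mem _, e1⟩
        add_mem' := by rintro _ _ ⟨a, ha, rfl⟩ ⟨b, hb, rfl⟩; exact ⟨_, mul_mem ha hb, k1 a ha b hb⟩
        neg_mem' := by rintro _ ⟨a, ha, rfl⟩; exact ⟨_, inv_mem ha, e2 a ha⟩ }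
    choose! x hx using fun t (ht : t ∈ X) => (ht : ∃ a ∈ A, κ a = t)
    exact ⟨X, x, fun a ha => ⟨a, ha, rfl⟩, hx, fun a ha a' ha' e => k2 _ (mul_mem (inv_mem ha) ha')
      (by rw [k1 _ (inv_mem ha) _ ha', e2 a ha, e, neg_add_cancel])⟩
  obtain ⟨X, x, x1, x2, x3⟩ := key k1 k2
  obtain ⟨Y, y, y1, y2, y3⟩ := key m1 m2
  have e : ∀ a ∈ A, ∀ b ∈ B, β (x (κ a)) (y (μ b)) = β a b := fun a ha b hb =>
    h.congr hA hB ha (x3 a ha _ (x2 _ (x1 a ha)).1 (x2 _ (x1 a ha)).2.symm) hb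
      (y3 b hb _ (y2 _ (y1 b hb)).1 (y2 _ (y1 b hb)).2.symm)
  intro a ha b hb
  rw [← e a ha b hb]
  refine BiOn.of_not_conj (A := X) (B := Y) (f := fun t u => β (x t) (y u)) ⟨fun t ht t' ht' u hu => ?_,
    fun t ht u hu u' hu' => ?_⟩ p hd (fun t ht => ?_) (fun t ht => ?_) (fun t ht u hu => ?_) hn (x1 a ha) (y1 b hb)
  · rw [← h.l _ (x2 t ht).1 _ (x2 t' ht').1 _ (y2 u hu).1, ← e _ (mul_mem (x2 t ht).1 (x2 t' ht').1) _ (y2 u hu).1,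
      k1 _ (x2 t ht).1 _ (x2 t' ht').1, (x2 t ht).2, (x2 t' ht').2, (y2 u hu).2]
  · rw [← h.r _ (x2 t ht).1 _ (y2 u hu).1 _ (y2 u' hu').1, ← e _ (x2 t ht).1 _ (mul_mem (y2 u hu).1 (y2 u' hu').1),
      m1 _ (y2 u hu).1 _ (y2 u' hu').1, (x2 t ht).2, (y2 u' hu').2, (y2 u hu).2]
  · simpa [(k3 _ (x2 t ht).1).2, (x2 t ht).2] using x1 _ (k3 _ (x2 t ht).1).1
  · simpa [(m3 _ (y2 t ht).1).2, (y2 t ht).2] using y1 _ (m3 _ (y2 t ht).1).1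
  · rw [← h.inv g hg _ (x2 t ht).1 _ (y2 u hu).1, ← e _ (k3 _ (x2 t ht).1).1 _ (m3 _ (y2 u hu).1).1,
      (k3 _ (x2 t ht).1).2, (m3 _ (y2 u hu).1).2, (x2 t ht).2, (y2 u hu).2]

omit h in
theorem fp_of_coord {F : Type*} [Field F] {κ : G → F} (k1 : ∀ a ∈ A, ∀ a' ∈ A, κ (a * a') = κ a + κ a')
    (k2 : ∀ a ∈ A, κ a = 0 ↔ a ∈ A') {g : G} {c : F} (k3 : ∀ a ∈ A, g * a * g⁻¹ ∈ A ∧ κ (g * a * g⁻¹) = c * κ a)
    (hc : c ≠ 1) : FP g A A' := fun u hu e => by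
  have h1 := comm_mem_of (fun a ha => (k3 a ha).1) hu
  have h2 := k1 _ h1 u hu
  rw [(k2 _ h1).2 e, commutatorElement_def, inv_mul_cancel_right, (k3 u hu).2] at h2
  exact (k2 u hu).1 ((mul_eq_zero.1 (show (c - 1) * κ u = 0 by linear_combination h2)).resolve_left (sub_ne_zero.2 hc))

omit h in
theorem exists_gen (F : Type*) [Field F] [Finite F] :
    ∃ a : Fˣ, ∀ x : ℤ, a ^ x = 1 ↔ ((Nat.card F : ℤ) - 1) ∣ x := by
  obtain ⟨a, ha⟩ := IsCyclic.exists_ofOrder_eq_natCard (α := Fˣ)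
  refine ⟨a, fun x => ?_⟩
  rw [← orderOf_dvd_iff_zpow_eq_one, ha, Nat.card_units, Nat.cast_sub Nat.card_pos, Nat.cast_one]

omit h in
/-- it suffices to test the exponents below the order of the field -/
theorem nc_of {F : Type*} [Field F] [Finite F] {p : ℕ} [Fact p.Prime] [CharP F p] {c d : F}
    (hn : ∀ i : ℕ, p * p ^ i ≤ Nat.card F → c ^ p ^ i * d ≠ 1) (i : ℕ) : c ^ p ^ i * d ≠ 1 := by
  have := Fintype.ofFinite F
  obtain ⟨n, hp, e⟩ := FiniteField.card F p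
  have h1 : ∀ k, c ^ p ^ ((n : ℕ) * k) = c := fun k => by rw [pow_mul, ← e, FiniteField.pow_card_pow]
  rw [← Nat.div_add_mod i n, pow_add, pow_mul, h1]
  refine hn _ ?_
  rw [Nat.card_eq_fintype_card, e, ← pow_succ']
  exact Nat.pow_le_pow_right hp.pos (Nat.mod_lt i n.pos)

omit h in
theorem exists_nc {F : Type*} [Field F] [Finite F] (p : ℕ) [hp : Fact p.Prime] [CharP F p] (h : 5 ≤ Nat.card F) :
    ∃ a : Fˣ, ∀ i : ℕ, (a : F) ^ p ^ i * a ≠ 1 := by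
  obtain ⟨a, ha⟩ := exists_gen F
  refine ⟨a, nc_of fun i hi e => ?_⟩
  have h1 := Int.le_of_dvd (by positivity) ((ha ((p ^ i + 1 : ℕ) : ℤ)).1 (Units.ext (by rw [zpow_natCast]; simpa [pow_succ] using e)))
  have := hp.out.two_le
  have : 2 * p ^ i ≤ p * p ^ i := Nat.mul_le_mul_right _ this
  generalize p ^ i = x at *
  omega

end Cfsg.Agent.Mult
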