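import Mathlib
import Cfsg.Agent.Mult.Fil
import Cfsg.Agent.Mult.SU5
import Cfsg.Agent.Ree.Hall

/-! The multiplier of the small Ree groups. -/

set_option autoImplicit false
set_option linter.unusedSectionVars false

namespace Cfsg.Agent.Mult
open Subgroup Cfsg.Agent.H2.Schur Function
open scoped commutatorElement

universe u

theorem Sp.comm {E G : Type*} [Group E] [Group G] {π : E →* G} (hπ : CExt π) {U : Subgroup G} (h : Sp π U) :
    ∀ z ∈ ⁅U.comap π, U.comap π⁆, π z = 1 → z = 1 := by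
  obtain ⟨M, h1, rfl⟩ := h
  refine fun z hz => h1 z (commutator_comap_le hπ ?_ hz)
  rintro _ ⟨a, ha, rfl⟩ _ ⟨b, hb, rfl⟩
  rw [cp_of]
  exact mul_mem (mul_mem (mul_mem ha hb) (inv_mem ha)) (inv_mem hb)

theorem not_dvd_of_cm {G : Type u} [Group G] [Finite G] {r : ℕ} (hr : r.Prime) (U : Subgroup G) (hU : ¬ r ∣ U.index)
    (h : ∀ (E : Type u) [Group E] [Finite E] (π : E →* G), CExt π → ∀ a ∈ U, ∀ b ∈ U, CM π a b) :
    ¬ r ∣ Nat.card (Mult G) := not_dvd_mult' hr U hU fun E _ _ π hπ _ _ hz _ =>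
  mem_bot.1 (commutator_comap_le hπ (fun a ha b hb => mem_bot.2 ((cp_one hπ).2 (h E π hπ a ha b hb))) hz)

theorem not_dvd_of_cyc {G : Type u} [Group G] [Finite G] {r : ℕ} [hr : Fact r.Prime] (P : Sylow r G)
    (h : IsCyclic P) : ¬ r ∣ Nat.card (Mult G) := not_dvd_of_cm hr.out P P.not_dvd_index fun _ _ _ _ hπ a ha b hb => by
  obtain ⟨g, hg⟩ := h.exists_monoid_generator
  obtain ⟨k, hk⟩ := hg ⟨a, ha⟩
  obtain ⟨l, hl⟩ := hg ⟨b, hb⟩
  obtain rfl : (g : G) ^ k = a := congrArg Subtype.val hk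
  obtain rfl : (g : G) ^ l = b := congrArg Subtype.val hl
  exact ((((CM.refl hπ _).pow hπ k).symm).pow hπ l)

theorem has_one_of_primes {G : Type u} [Group G] [Finite G] (h : ∀ r : ℕ, r.Prime → ¬ r ∣ Nat.card (Mult G)) :
    HasCyclicSchurMultiplier G 1 :=
  has_of_card_mult_one (Nat.dvd_one.2 (Nat.eq_one_iff_not_exists_prime_dvd.2 h))

namespace ReeM
open Cfsg.Agent.Ree

variable {G : Type u} {Ω F : Type*} [Group G] [MulAction G Ω] [Field F] [Fintype F] {m : ℕ} (Z : Model G Ω F m)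
include Z

theorem two : ¬ 2 ∣ Nat.card (Mult G) := by
  have := Z.finite
  refine not_dvd_of_cm Nat.prime_two Z.P Z.two_not_dvd_index_P fun E _ _ π hπ a ha b hb => ?_
  have hi := Z.V_le_P Z.i_mem_V
  have ht := Z.V_le_P Z.t_mem_V
  have h1 : ∀ x ∈ Z.P, CM π Z.i ⁅Z.φ (Chev.slU 1), x⁆ := fun x hx =>
    CM.comm hπ (Z.φ_comm_i _).symm (Z.P_comm hi hx)
  have h2 : CM π Z.i Z.t := by
    simpa [commutatorElement_def, Z.φ_U_conj.2] using h1 _ Z.j_mem_P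
  have h3 : CM π Z.i Z.j := by
    simpa [commutatorElement_def, Z.φ_U_conj.1] using (h1 _ ht).mul hπ h2
  have h4 : ∀ x ∈ Z.V, CM π Z.i x := fun x hx => by
    rcases Z.mem_V.1 hx with rfl | rfl | rfl | rfl
    exacts [.one hπ _, .refl hπ _, h2, h2.mul hπ (.refl hπ _)]
  have h5 : ∀ x ∈ Z.P, CM π Z.i x := fun x hx => by
    rcases Z.mem_P_iff.1 hx with h | h
    exacts [h4 x h, by simpa using (h4 _ h).mul hπ h3.inv]
  by_cases e : a = 1
  · exact e ▸ (CM.one hπ b).symm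
  obtain ⟨g, hg, rfl⟩ := Z.exists_NP ha e
  simpa [mul_assoc] using (h5 _ (Z.conj_mem_P (inv_mem hg) hb)).conj hπ g

/-- the upper central series of `U` -/
def UU (k : ℕ) : Subgroup G where
  carrier := {g | ∃ x y z, g = Z.S x y z ∧ (1 ≤ k → x = 0) ∧ (2 ≤ k → y = 0) ∧ (3 ≤ k → z = 0)}
  one_mem' := ⟨0, 0, 0, Z.S_zero.symm, by simp⟩
  mul_mem' := by
    rintro _ _ ⟨x, y, z, rfl, h1, h2, h3⟩ ⟨x', y', z', rfl, h1', h2', h3'⟩
    exact ⟨_, _, _, Z.S_mul .., fun h => by simp [h1 h, h1' h], fun h => by simp [h1 (by omega), h2 h, h2' h],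
      fun h => by simp [h1 (by omega), h2 (by omega), h3 h, h3' h]⟩
  inv_mem' := by
    rintro _ ⟨x, y, z, rfl, h1, h2, h3⟩
    exact ⟨_, _, _, Z.S_inv .., fun h => by simp [h1 h], fun h => by simp [h1 (by omega), h2 h],
      fun h => by simp [h1 (by omega), h3 h]⟩

theorem S_mem_UU {k : ℕ} {x y z : F} : Z.S x y z ∈ UU Z k ↔ (1 ≤ k → x = 0) ∧ (2 ≤ k → y = 0) ∧ (3 ≤ k → z = 0) :=
  ⟨fun ⟨_, _, _, e, h⟩ => by obtain ⟨rfl, rfl, rfl⟩ := Z.S_inj e; exact h, fun h => ⟨x, y, z, rfl, h⟩⟩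

theorem three (hm : 1 ≤ m) : ¬ 3 ∣ Nat.card (Mult G) := by
  have := Z.finite
  have := Z.charP
  have : Fact (Nat.Prime 3) := ⟨Nat.prime_three⟩
  refine not_dvd_mult' Nat.prime_three Z.U Z.three_not_dvd_index fun E _ _ π hπ _ => Sp.comm hπ ?_
  obtain ⟨c, hc⟩ := (show Injective fun v : F × F × F => Z.S v.1 v.2.1 v.2.2 from fun v w e => by
    obtain ⟨h1, h2, h3⟩ := Z.S_inj e; exact Prod.ext h1 (Prod.ext h2 h3)).hasLeftInverse
  replace hc : ∀ x y z, c (Z.S x y z) = (x, y, z) := fun x y z => hc (x, y, z)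
  let κ : ℕ → G → F := fun k g => if k = 0 then (c g).1 else if k = 1 then (c g).2.1 else (c g).2.2
  let χ : ℕ → Fˣ → F := fun k a => if k = 0 then a else if k = 1 then a * Z.σ a else a ^ 2 * Z.σ a
  have k1 : ∀ k < 3, ∀ a ∈ UU Z k, ∀ b ∈ UU Z k, κ k (a * b) = κ k a + κ k b := by
    rintro k hk _ ⟨x, y, z, rfl, h1, h2, -⟩ _ ⟨x', y', z', rfl, h1', h2', -⟩
    interval_cases k <;> simp_all [κ, Z.S_mul]
  have k2 : ∀ k < 3, ∀ a ∈ UU Z k, κ k a = 0 ↔ a ∈ UU Z (k + 1) := by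
    rintro k hk _ ⟨x, y, z, rfl, h1, h2, -⟩
    interval_cases k <;> simp_all [κ, S_mem_UU]
  have k3 : ∀ k, ∀ g : Fˣ, ∀ a ∈ UU Z k, Z.M g * a * (Z.M g)⁻¹ ∈ UU Z k ∧
      κ k (Z.M g * a * (Z.M g)⁻¹) = χ k g * κ k a := by
    rintro k g _ ⟨x, y, z, rfl, h1, h2, h3⟩
    rw [Z.M_S, S_mem_UU]
    refine ⟨⟨fun h => by simp [h1 h], fun h => by simp [h2 h], fun h => by simp [h3 h]⟩, ?_⟩
    simp only [κ, χ, hc]; split_ifs <;> rfl
  have an : ∀ k, UU Z (k + 1) ≤ UU Z k := fun k _ ⟨x, y, z, e, h1, h2, h3⟩ =>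
    ⟨x, y, z, e, fun h => h1 (by omega), fun h => h2 (by omega), fun h => h3 (by omega)⟩
  obtain ⟨a, ha⟩ := exists_gen F
  have hq := Z.le_q hm
  rw [Nat.card_eq_fintype_card] at ha
  have ha' : ∀ x : ℕ, 0 < x → x + 1 < Fintype.card F → (a : F) ^ x ≠ 1 := fun x h1 h2 e => by
    have := Int.le_of_dvd (by omega) ((ha x).1 (Units.ext (by simpa using e)))
    omega
  have s0 : Z.σ a ≠ 0 := by simp
  have e1 : χ 1 (Units.map Z.σ.toMonoidHom a / a) = a ^ 2 := by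
    simp [χ, Z.σσ]; field_simp
  have e2 : χ 2 (a ^ 2 / Units.map Z.σ.toMonoidHom a) = a := by
    simp [χ, Z.σσ]; field_simp
  have n1 : (-1 : F) ≠ 1 := fun e => Z.two_ne (by linear_combination -e)
  refine (sp_of_filt hπ (UU Z) (N := 3) (Hs := Z.H) (eq_bot_iff.2 (by
      rintro _ ⟨x, y, z, rfl, h1, h2, h3⟩; simp [h1, h2, h3, Z.S_zero])) an (by
      rintro k _ ⟨x, y, z, rfl, -⟩ _ ⟨x', y', z', rfl, h1, h2, h3⟩
      simp only [commutatorElement_def, Z.S_inv, Z.S_mul, S_mem_UU]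
      refine ⟨fun _ => by ring, fun h => by simp [h1 (by omega)]; ring, fun h => ?_⟩
      simp [h1 (by omega), h2 (by omega)]
      linear_combination Z.σ x * x ^ 2 * Z.three)
    (by rintro _ ⟨g, rfl⟩ _ ⟨g', rfl⟩; exact Z.M_comm g g')
    (by rintro _ ⟨g, rfl⟩ k u hu; exact (k3 k g u hu).1) (fun k hk => ?_) fun j k hjk hk β hβ => ?_).imp
    fun M h => ⟨h.1, h.2.1.trans (Subgroup.ext fun g => ⟨fun ⟨x, y, z, e, _⟩ => ⟨x, y, z, e⟩,
      fun ⟨x, y, z, e⟩ => ⟨x, y, z, e, by simp⟩⟩)⟩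
  · suffices ∃ g, χ k g ≠ 1 from this.elim fun g hg => ⟨_, Z.M_mem g, fp_of_coord (k1 k hk) (k2 k hk) (k3 k g) hg⟩
    interval_cases k
    exacts [⟨-1, by simpa [χ] using n1⟩, ⟨_, e1 ▸ ha' 2 (by omega) (by omega)⟩, ⟨-1, by simpa [χ] using n1⟩]
  · suffices ∃ g, ∀ i, 3 * 3 ^ i ≤ Nat.card F → χ j g ^ 3 ^ i * χ k g ≠ 1 from this.elim fun g hg =>
      hβ.of_coord 3 (an j) (an k) (k1 j (by omega)) (fun a ha => (k2 j (by omega) a ha).1) (k1 k hk)
        (fun a ha => (k2 k hk a ha).1) (Z.M_mem g) (k3 j g) (k3 k g) (by simp only [χ]; split_ifs <;> simp) (nc_of hg)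
    rw [Nat.card_eq_fintype_card]
    have o3 : ∀ i, (-1 : F) ^ 3 ^ i = -1 := fun i => Odd.neg_one_pow (Odd.pow (by decide))
    have h9 : 3 * 3 ^ (m + 1) ≤ Fintype.card F := by
      rw [Z.card_F, ← pow_succ']; exact Nat.pow_le_pow_right (by omega) (by omega)
    interval_cases k <;> interval_cases j
    · exact ⟨a, fun i hi => by simpa [χ, pow_succ] using ha' (3 ^ i + 1) (by omega) (by omega)⟩
    · exact ⟨-1, fun i _ => by simpa [χ, o3] using n1⟩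
    · exact ⟨_, fun i hi => by rw [e1, ← pow_mul, ← pow_add]; exact ha' _ (by omega) (by omega)⟩
    · exact ⟨a, fun i hi => by
        simpa [χ, pow_add, Z.σ_apply, mul_assoc] using ha' (3 ^ i + (2 + 3 ^ (m + 1))) (by omega) (by omega)⟩
    · exact ⟨-1, fun i _ => by simpa [χ] using n1⟩
    · exact ⟨_, fun i hi => by rw [e2, ← pow_succ]; exact ha' _ (by omega) (by omega)⟩

theorem has_one (hm : 1 ≤ m) : HasCyclicSchurMultiplier G 1 := by
  have := Z.finite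
  refine has_one_of_primes fun r hr => ?_
  by_cases h2 : r = 2
  · exact h2 ▸ two Z
  by_cases h3 : r = 3
  · exact h3 ▸ three Z hm
  have := Fact.mk hr
  have P : Sylow r G := default
  exact not_dvd_of_cyc P (Z.isCyclic_of_isPGroup hm hr h2 h3 P.isPGroup')

end ReeM

end Cfsg.Agent.Mult
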