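import Mathlib
import Cfsg.Agent.Mult.PK
import Cfsg.Agent.Pres.RG1
import Cfsg.Agent.Chev.Tw4

/-! Central extensions of twisted groups with kernel prime to the characteristic. -/

set_option autoImplicit false
set_option linter.unusedSectionVars false

namespace Cfsg.Agent.Mult
open Subgroup Function Cfsg.Lie Cfsg.Agent.Chev Cfsg.Agent.BN StSys Tw
open scoped commutatorElement

variable {D : ChevalleyDatum} [g : Good2 D] {F : Type*} [Field F] {G : Type*} [Group G] {S : StSys D F G}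
  {σ : Sym D} {T : Tw S σ} {A : Type} {O : Orb σ A} {p : ℕ}

theorem pe_XS [Finite F] (hp : p.Prime) [CharP F p] {c : Ix D → ℤ} {R : Set (Rt D)} (hU : Uni c R) {a : G}
    (ha : a ∈ S.XS R) : PE p a := by
  have := Fintype.ofFinite F
  obtain ⟨n, -, e⟩ := FiniteField.card F p
  obtain ⟨k, hk⟩ := IsPGroup.of_card (p := p) (G := S.XS R) (n := n * R.ncard)
    (by rw [S.card_XS hU, Nat.card_eq_fintype_card, e, pow_mul]) ⟨a, ha⟩
  exact ⟨k, congrArg Subtype.val hk⟩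

/-- relative roots -/
structure Ph (O : Orb σ A) where
  w : O.fold.C
  a : A

instance : MulAction O.fold.C (Ph O) where
  smul w b := ⟨w * b.w, b.a⟩
  one_smul b := by change Ph.mk _ _ = _; rw [one_mul]
  mul_smul u v b := by change Ph.mk _ _ = Ph.mk (u * (v * _)) _; rw [mul_assoc]; rfl

/-- the roots over a relative root -/
def RS (b : Ph O) : Set (Rt D) := {r | (b.w⁻¹ : W D) • r ∈ {r | Pos r ∧ PhiK (O.J b.a) r}}

/-- positive relative roots -/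
def Ph.pos (b : Ph O) : Prop := ∀ i ∈ O.J b.a, Pos ((b.w : W D) • sim i)

theorem mem_RS_smul {w : O.fold.C} {b : Ph O} {r : Rt D} : (w : W D) • r ∈ RS (w • b) ↔ r ∈ RS b := by
  change ((w : W D) * b.w)⁻¹ • (w : W D) • r ∈ {r | Pos r ∧ PhiK (O.J b.a) r} ↔ _
  rw [mul_inv_rev, mul_smul, inv_smul_smul]; rfl

theorem RS_pos {b : Ph O} (h : b.pos) {r : Rt D} (hr : r ∈ RS b) : Pos r := by
  simpa using pos_smul_of_forall h hr.1 hr.2

theorem RS_neg {b : Ph O} (h : ¬ b.pos) {r : Rt D} (hr : r ∈ RS b) : ¬ Pos r := by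
  simpa using not_pos_smul_of_forall ((O.fold.pos_or b.w.2 b.a).resolve_left h) hr.1 hr.2

theorem sim_mem_RS {b : Ph O} {i : Ix D} (h : i ∈ O.J b.a) : (b.w : W D) • sim i ∈ RS b := by
  simpa [RS, pos_sim] using h

theorem uni_RS (b : Ph O) : ∃ c, Uni c (RS b) := ⟨_, (uni_phiK_pos _).smul _⟩

theorem RS_one (a : A) : S.XS (RS (O := O) ⟨1, a⟩) = S.Xp (O.J a) := by simp [RS, Xp]

theorem RS_s (a : A) : S.XS (RS (O := O) ⟨O.fold.s a, a⟩) = S.Xm (O.J a) := by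
  rw [Xm]; congr 1; ext r
  change Pos ((w0 _)⁻¹ • r) ∧ PhiK _ ((w0 _)⁻¹ • r) ↔ _
  rw [w0_inv, O.fold_J, phiK_smul (w0_mem _)]
  exact and_congr_left fun h => pos_w0_iff h

theorem Uw_gen (h : IsTw T O T.Fx) {w : W D} (hw : w ∈ O.fold.C) :
    ∀ L : Subgroup G, (∀ b : Ph O, (∀ r ∈ RS b, r ∈ invs w) → T.Fx ⊓ S.XS (RS b) ≤ L) → T.Fx ⊓ S.Uw w ≤ L := by
  induction hw using O.ind with
  | h1 => simp [Uw]
  | hs a w hw hp ih =>
    intro L hL y hy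
    have key := invs_mul_of (w := w) (u := w0 (O.J a)) fun r hr => pos_smul_of_forall hp
      (by simpa using (mem_invs.mp hr).2)
      (phiK_ng.mpr ((phiK_smul (w0_mem _)).mpr (phiK_of_mem_invs (w0_mem _) hr)))
    obtain ⟨u, hu, v, hv, rfl⟩ := (IsTw.Uw_split hw hp).2.2.2 y hy
    refine mul_mem (hL ⟨1, a⟩ (fun r hr => (key r).2 (.inl (mem_invs_w0.2 (by simpa [RS] using hr))))
      (RS_one (S := S) a ▸ hu)) ?_
    simpa [mul_assoc] using ih (L.comap (MulAut.conj (h.nJ a)⁻¹).toMonoidHom) (fun b hb y hy =>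
      hL ((O.fold.s a)⁻¹ • b) (fun r hr => (key r).2 (.inr (hb _ (by
        simpa [O.fold_J] using (mem_RS_smul (w := O.fold.s a)).2 hr))))
        ⟨by simpa using h.conj_Fx' (h.nJ_mem a) hy.1,
          (h.mono_nJ a).inv.conj_mem (fun r hr => (mem_RS_smul (w := (O.fold.s a)⁻¹)).2 hr) hy.2⟩) (h.conj_Uw hv)

theorem exists_dec (h : IsTw T O T.Fx) {a : A} {x : G} (hx : x ∈ T.Fx ⊓ S.Xp (O.J a)) (h1 : x ≠ 1) :
    ∃ y ∈ T.Fx ⊓ S.Xm (O.J a), ∃ y' ∈ T.Fx ⊓ S.Xm (O.J a), y * x * y' ∈ S.N ∧ S.Mono (y * x * y') (w0 (O.J a)) := by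
  have hm := (h.mono_nJ a).conj_Xp hx.2
  have hy := h.conj_Fx (h.nJ_mem a) hx.1
  obtain ⟨w, hw, hc⟩ := mem_P.mp (LJ_le_P _ (Xm_le_LJ _ hm))
  rcases O.fold.eq_one_or (ρ_eq_of_cell hy hc) hw with rfl | rfl
  · exact absurd (one_of_mem_B_V (mem_cell_one.mp hc) (Xm_le_V _ hm)) (by simpa using h1)
  · obtain ⟨u, hu, n, hn, hmn, v, hv, e⟩ := exists_normal' hc
    rw [e] at hy hm
    obtain ⟨h1, -, h3⟩ := normal_mem hu hn hmn hv hy
    rw [O.fold_J, ← Xp_eq] at hv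
    have h4 : u ∈ S.Xp (O.J a) := mem_Xp_of hu (by
      simpa using mul_mem (mul_mem (Xm_le_LJ _ hm) (inv_mem (Xp_le_LJ _ hv))) (inv_mem (mem_LJ_of_mono hn hmn hw)))
    have k : ∀ z ∈ T.Fx ⊓ S.Xp (O.J a), (h.nJ a)⁻¹ * z⁻¹ * (h.nJ a)⁻¹⁻¹ ∈ T.Fx ⊓ S.Xm (O.J a) := fun z hz =>
      ⟨h.conj_Fx (inv_mem (h.nJ_mem a)) (inv_mem hz.1), (h.mono_nJ a).inv_w0.conj_Xp (inv_mem hz.2)⟩
    refine ⟨_, k u ⟨h1, h4⟩, _, k v ⟨h3, hv⟩, ?_⟩
    rw [show _ * x * _ = (h.nJ a)⁻¹ * n * h.nJ a by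
      rw [show n = u⁻¹ * (h.nJ a * x * (h.nJ a)⁻¹) * v⁻¹ by rw [e]; group]; group]
    exact ⟨mul_mem (mul_mem (inv_mem (h.nJ_mem_N a)) hn) (h.nJ_mem_N a),
      by simpa [O.fold_J, w0_mul_self] using ((h.mono_nJ a).inv.mul hmn).mul (h.mono_nJ a)⟩

variable (T O) in
/-- the rank one subgroups -/
def LL (a : A) : Subgroup G := (T.Fx ⊓ S.Xp (O.J a)) ⊔ (T.Fx ⊓ S.Xm (O.J a))

theorem LL_le (a : A) : LL T O a ≤ T.Fx := sup_le inf_le_left inf_le_left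

variable [Finite F] (hp : p.Prime) [CharP F p] {E : Type*} [Group E] [Finite E] {π : E →* G} (hπ : CK p π)
  (hs : T.Fx ≤ π.range) (h : IsTw T O T.Fx)
include hp hπ hs h

omit hπ h in
theorem le_map_lf {c : Ix D → ℤ} {R : Set (Rt D)} (hU : Uni c R) :
    T.Fx ⊓ S.XS R ≤ (lf p π (T.Fx ⊓ S.XS R)).map π := fun y hy =>
  let ⟨x, h1, h2⟩ := exists_lf hp (hs hy.1) (pe_XS hp hU hy.2)
  ⟨x, mem_lf h1 (h2 ▸ hy), h2⟩

omit hs h in
theorem one_of_lf {c : Ix D → ℤ} {R : Set (Rt D)} (hU : Uni c R) {x : E} (hx : x ∈ lf p π (T.Fx ⊓ S.XS R))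
    (e : π x = 1) : x = 1 := hπ.cop x e (pe_of_lf hp hπ.cent (S := T.Fx ⊓ S.XS R) (fun _ h => pe_XS hp hU h.2) hx)

/-- the lifted root subgroups -/
noncomputable def bns : Pres.BNS E (Ph O) O.fold.C A where
  U b := lf p π (T.Fx ⊓ S.XS (RS b))
  ng b := ⟨b.w * O.fold.s b.a, b.a⟩
  pos := Ph.pos
  rf b := b.w * O.fold.s b.a * b.w⁻¹
  sim a := ⟨1, a⟩
  up a b := b.pos ∧ (O.fold.s a • b).pos
  M := { carrier := {x | π x.1 ∈ T.Fx ⊓ S.N ∧ S.Mono (π x.1) x.2}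
         one_mem' := ⟨by simpa using one_mem _, by simpa using Mono.one⟩
         mul_mem' := fun h1 h2 => ⟨by simpa using mul_mem h1.1 h2.1, by simpa using h1.2.mul h2.2⟩
         inv_mem' := fun h1 => ⟨by simpa using inv_mem h1.1, by simpa using h1.2.inv⟩ }
  act hM b x := lf_conj (S := T.Fx ⊓ S.XS (RS b)) fun y hy => mem_inf.2 ⟨h.conj_Fx hM.1.1 hy.1, hM.2.conj_mem (fun _ => mem_RS_smul.2) hy.2⟩
  smul_ng _ a := by change Ph.mk _ _ = Ph.mk _ _; rw [← mul_assoc]; rfl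
  rf_smul {_ w} _ a := by change w * a.w * _ * (w * a.w)⁻¹ = _; simp only [mul_assoc, mul_inv_rev]; rfl
  rf_self a := by change Ph.mk _ _ = _; simp
  rf_ng a := by change Ph.mk _ _ = _; simp [O.fold.s_mul_self]
  rf_sq b := by simp [mul_assoc, ← mul_assoc (O.fold.s _), O.fold.s_mul_self]
  pos_ng b h1 h2 := by
    have h3 := O.fold.pos_iff_len.1 h1
    rw [mul_assoc, O.fold.s_mul_self, mul_one] at h3
    exact h3.asymm (O.fold.pos_iff_len.1 h2)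
  pos_or b := (O.fold.pos_or b.w.2 b.a).imp_right fun e => .inl (pos_mul_w0 e)
  pos_sim a i _ := by simpa using pos_sim i
  ne_bot a e := by
    obtain ⟨y, h1, h2, h3⟩ := h.ne a
    obtain ⟨x, h4, h5⟩ := le_map_lf hp hs (uni_phiK_pos _) ⟨h.conj_Fx (h.nJ_mem a) h1, (h.mono_nJ a).conj_Xm h2⟩
    rw [RS_one] at e
    rw [mem_bot.1 (e.le h4), map_one] at h5
    exact h3 (by simpa using h5.symm)
  hm a x hx h1 := by
    simp only [one_mul, inv_one, mul_one, RS_one, RS_s] at hx ⊢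
    obtain ⟨y, hy, y', hy', e⟩ := exists_dec h (map_mem_of_lf hx) fun e => h1 (one_of_lf hp hπ (uni_phiK_pos _) hx e)
    obtain ⟨y, h2, rfl⟩ := le_map_lf hp hs (uni_phiK_neg _) hy
    obtain ⟨y', h3, rfl⟩ := le_map_lf hp hs (uni_phiK_neg _) hy'
    exact ⟨y, h2, y', h3, ⟨by simpa using mul_mem (mul_mem hy.1 (map_mem_of_lf hx).1) hy'.1, by simpa using e.1⟩,
      by simpa [O.fold_J] using e.2⟩
  u1 a b hb := by
    by_cases e : (O.fold.s a • b).pos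
    · exact .inl ⟨hb, e⟩
    have h1 : b.w * O.fold.s b.a = O.fold.s a * b.w := O.fold.mul_s_of hb fun i hi =>
      RS_neg e (mem_RS_smul.2 (sim_mem_RS hi))
    have h2 : RS b ⊆ RS ⟨1, a⟩ := fun r hr => by
      simpa [RS, O.fold_J] using mem_invs_w0.1 (mem_invs.2 ⟨RS_pos hb hr, RS_neg e (mem_RS_smul.2 hr)⟩)
    refine .inr (.inl ⟨lf_mono (inf_le_inf_left _ (S.XS_mono h2)), lf_mono (inf_le_inf_left _ (S.XS_mono fun r hr => ?_)),
      by simp [h1]⟩)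
    rw [h1, ← smul_inv_smul (O.fold.s a : W D) r] at hr
    rw [← smul_inv_smul (O.fold.s a : W D) r, one_mul, ← mul_one (O.fold.s a)]
    exact (mem_RS_smul (w := O.fold.s a) (b := ⟨1, a⟩)).2 (h2 ((mem_RS_smul (b := b)).1 hr))
  u2 _ _ e := .inl e.1
  u3 a b e := by
    simp only [one_mul, inv_one, mul_one, ← mul_smul, O.fold.s_mul_self, one_smul]
    exact e.symm
  u4 a := by
    have e : ∀ r, r ∈ invs (w0 Set.univ * w0 (O.J a)) ↔ Pos r ∧ ¬ PhiK (O.J a) r := fun r => by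
      rw [mem_invs, mul_smul, pos_w0_univ, not_not]
      exact and_congr_right fun hr => ⟨fun h1 h2 => not_pos_w0 hr h2 h1,
        fun h1 => (pos_smul_iff_of_not_phiK (w0_mem _) h1).2 hr⟩
    have e' : S.Uw (w0 Set.univ * w0 (O.J a)) = S.UJ (O.J a) := by simp only [Uw, UJ, e]
    have e2 : Pres.XS (fun b : Ph O => lf p π (T.Fx ⊓ S.XS (RS b))) (fun b => b.pos ∧ (O.fold.s a • b).pos) =
        lf p π (T.Fx ⊓ S.UJ (O.J a)) := by
      refine le_antisymm (Pres.XS_le fun b hb => lf_mono (inf_le_inf_left _ (S.XS_mono fun r hr =>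
        ⟨RS_pos hb.1 hr, fun h1 => not_pos_w0 (RS_pos hb.1 hr) h1 (RS_pos hb.2 (mem_RS_smul.2 hr))⟩)))
        (hπ.lf_le hp (e' ▸ Uw_gen h (mul_mem O.fold.w0_univ_mem (O.fold.mem a)) _ fun b hb =>
          (le_map_lf hp hs (uni_RS _).choose_spec).trans (map_mono (Pres.le_XS
            (fun b : Ph O => lf p π (T.Fx ⊓ S.XS (RS b))) (b := b) ?_))))
      refine ⟨fun i hi => ((e _).1 (hb _ (sim_mem_RS hi))).1, fun i hi => ?_⟩
      have := (e _).1 (hb _ (sim_mem_RS hi))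
      exact (pos_smul_iff_of_not_phiK (w0_mem _) this.2).2 this.1
    rw [e2, RS_one]
    exact Pres.le_norm_of fun x hx y => lf_conj (S := T.Fx ⊓ S.UJ (O.J a)) fun z hz =>
      mem_inf.2 ⟨h.conj_Fx (map_mem_of_lf hx).1 hz.1,
      Pres.conj_mem_of_norm (P_le_normalizer _ (LJ_le_P _ (Xp_le_LJ _ (map_mem_of_lf hx).2))) hz.2⟩
  hW b := .inr ⟨b.w⁻¹, by simp [O.fold.closure_s], fun i _ => by
    change Pos (((b.w⁻¹ * b.w : O.fold.C) : W D) • _); simpa using pos_sim i⟩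

theorem ker_le_T (gen : T.Fx ≤ ⨆ a, LL T O a) {x : E} (hx : x ∈ lf p π T.Fx) (e : π x = 1) :
    x ∈ ⨆ a, lf p π (LL T O a) ⊓ (T.Fx ⊓ S.H).comap π := by
  let B := bns hp hπ hs h
  have h1 : ∀ t ∈ B.T, π t ∈ S.H := fun t ht => mem_H_of_mono (B.T_mono ht).1.2 (B.T_mono ht).2
  have h2 : Pres.XS B.U B.pos ≤ lf p π (T.Fx ⊓ S.U) :=
    Pres.XS_le fun b hb => lf_mono (inf_le_inf_left _ (S.XS_mono fun _ => RS_pos hb))
  obtain ⟨u, hu, t, ht, rfl⟩ := Pres.mem_sup_norm (B.T_norm _) (B.ker_le_B π (fun b hb y hy h3 =>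
    one_of_lf hp hπ (uni_RS _).choose_spec hy (one_of_mem_B_V (map_le_iff_le_comap.2 (sup_le (c := S.B.comap π)
      (fun u hu => S.U_le_B (map_mem_of_lf (h2 hu)).2) fun t ht => S.H_le_B (h1 t ht)) h3)
      (S.XS_mono (fun _ => RS_neg hb) (map_mem_of_lf hy).2))) (hπ.lf_le hp (gen.trans (iSup_le fun a => sup_le
        (RS_one (S := S) a ▸ (le_map_lf hp hs (uni_RS _).choose_spec).trans
          (map_mono (Pres.le_XS B.U (b := ⟨1, a⟩) trivial)))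
        (RS_s (S := S) a ▸ (le_map_lf hp hs (uni_RS _).choose_spec).trans
          (map_mono (Pres.le_XS B.U (b := ⟨O.fold.s a, a⟩) trivial))))) hx) e)
  rw [map_mul, mul_eq_one_iff_eq_inv] at e
  rw [one_of_lf hp hπ uni_pos (h2 hu) (one_of_mem_U_H (map_mem_of_lf (h2 hu)).2 (e ▸ inv_mem (h1 t ht))), one_mul]
  refine iSup_mono (g := fun a => lf p π (LL T O a) ⊓ (T.Fx ⊓ S.H).comap π) (f := B.T1) (fun a t ht => ⟨sup_le
    (c := lf p π (LL T O a)) (lf_mono ?_) (lf_mono ?_) ht.1, ht.2.1.1, mem_H_of_mono ht.2.1.2 ht.2.2⟩) ht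
  · exact RS_one (S := S) a ▸ le_sup_left
  · rw [show B.ng (B.sim a) = ⟨O.fold.s a, a⟩ from congrArg (Ph.mk · a) (one_mul _), RS_s]; exact le_sup_right

omit hp hπ hs in
theorem conj_LL {b : A} {x : G} (hx : x ∈ T.Fx ⊓ S.H) : ∀ z ∈ LL T O b, x * z * x⁻¹ ∈ LL T O b := fun z hz => by
  have k0 : ∀ R, ∀ z ∈ T.Fx ⊓ S.XS R, x * z * x⁻¹ ∈ T.Fx ⊓ S.XS R := fun R z hz =>
    mem_inf.2 ⟨h.conj_Fx hx.1 hz.1, H_conj_mem hx.2 hz.2⟩
  refine (sup_le (c := (LL T O b).comap (MulAut.conj x).toMonoidHom) (fun z hz => ?_) fun z hz => ?_) hz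
  · exact mem_sup_left (k0 _ z hz)
  · exact mem_sup_right (k0 _ z hz)

omit hp hs in
theorem comm_T (h3 : S.R3) {b : A} (h1 : ∀ x ∈ lf p π (LL T O b), π x = 1 → x = 1) {x y : E} (hx : π x ∈ T.Fx ⊓ S.H)
    (hy : y ∈ lf p π (LL T O b)) (hy' : π y ∈ S.H) : x * y = y * x := by
  refine commutatorElement_eq_one_iff_mul_comm.1 (h1 _ (mul_mem (lf_conj (S := LL T O b) (conj_LL h hx) hy)
    (inv_mem hy)) ?_)
  rw [map_commutatorElement, commutatorElement_eq_one_iff_mul_comm]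
  exact h3.H_comm _ hx.2 _ hy'

omit hp hπ hs h in
theorem card_of_family {ι κ M E : Type*} [CommGroup M] [Group E] [Finite ι] (o : κ → ι)
    (Γ : ι → Subgroup (E × (κ → M))) (hc : ∀ a b x y, x ∈ Γ a → y ∈ Γ b → x.1 * y.1 = y.1 * x.1)
    (h1 : ∀ a, ∀ x ∈ Γ a, ∀ i, o i ≠ a → x.2 i = 1) (h2 : ∀ a, ∀ x ∈ Γ a, x.2 = 1 → x.1 = 1) :
    ∀ x ∈ ⨆ a, Γ a, x.2 = 1 → x = 1 := fun x hx e => by
  classical
  have := Fintype.ofFinite ι
  replace hc : Pairwise fun a b => ∀ x y, x ∈ Γ a → y ∈ Γ b → Commute x y := fun a b _ x y hx hy =>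
    Prod.ext (hc a b x y hx hy) (mul_comm _ _)
  obtain ⟨y, rfl⟩ := (noncommPiCoprod_range (hcomm := hc)).ge hx
  replace e : (MonoidHom.snd _ _) (noncommPiCoprod hc y) = 1 := e
  rw [noncommPiCoprod_apply] at e
  erw [Finset.map_noncommProd] at e
  rw [Finset.noncommProd_eq_prod] at e
  rw [show y = 1 from funext fun a => Subtype.ext ?_, map_one]
  have h5 : (y a).1.2 = 1 := funext fun i => by
    by_cases hi : o i = a
    · exact (Finset.prod_eq_single a (f := fun c => (y c).1.2 i) (fun b _ hb => h1 b _ (y b).2 i (hi ▸ hb.symm))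
        fun h => absurd (Finset.mem_univ _) h).symm.trans (by simpa using congrFun e i)
    · exact h1 a _ (y a).2 i hi
  exact Prod.ext (h2 a _ (y a).2 h5) h5

omit hp hπ hs h in
theorem pb_tw.{v} (hp : p.Prime) (h : IsTw T O T.Fx) [Finite A] (h3 : S.R3) (gen : T.Fx ≤ ⨆ a, LL T O a)
    (Z : Subgroup (Ix D → Fˣ)) (hL : ∀ a, PB.{v} p (LL T O a) 1)
    (hZ : ∀ a, ∀ y ∈ LL T O a, y ∈ S.H → ∃ c ∈ Z, (∀ i, O.o i ≠ a → c i = 1) ∧ h3.hT c = y) :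
    PB.{v} p T.Fx (Nat.card ↥(Z ⊓ h3.hT.ker)) := fun E _ _ π hπ hs => by
  have h1 : ∀ a, ∀ x ∈ lf p π (LL T O a), π x = 1 → x = 1 := fun a x hx e =>
    mem_bot.1 ((card_eq_one.1 (Nat.dvd_one.1 (hL a E π hπ ((LL_le a).trans hs)))).le ⟨e, hx⟩)
  let Γ : A → Subgroup (E × (Ix D → Fˣ)) := fun a =>
    { carrier := {x | x.1 ∈ lf p π (LL T O a) ∧ x.2 ∈ Z ∧ (∀ i, O.o i ≠ a → x.2 i = 1) ∧ h3.hT x.2 = π x.1}
      one_mem' := ⟨one_mem _, one_mem _, fun _ _ => rfl, by simp⟩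
      mul_mem' := fun h h' => ⟨mul_mem h.1 h'.1, mul_mem h.2.1 h'.2.1, fun i hi => by
        simp [h.2.2.1 i hi, h'.2.2.1 i hi], by simp [h.2.2.2, h'.2.2.2]⟩
      inv_mem' := fun h => ⟨inv_mem h.1, inv_mem h.2.1, fun i hi => by simp [h.2.2.1 i hi], by simp [h.2.2.2]⟩ }
  have hH : ∀ a, ∀ x ∈ Γ a, π x.1 ∈ S.H := fun a x hx => hx.2.2.2 ▸ h3.range_hT.le ⟨_, rfl⟩
  have h4 := card_of_family O.o Γ (fun a b x y hx hy => comm_T hπ h h3 (h1 b)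
    ⟨LL_le a (map_mem_of_lf hx.1), hH a x hx⟩ hy.1 (hH b y hy)) (fun a x hx => hx.2.2.1)
    fun a x hx e => h1 a _ hx.1 (by rw [← hx.2.2.2, e, map_one])
  have h2 : (⨆ a, Γ a) ≤ Z.comap (.snd _ _) ⊓ (h3.hT.comp (.snd _ _)).eqLocus (π.comp (.fst _ _)) :=
    iSup_le fun a x hx => ⟨hx.2.1, hx.2.2.2⟩
  have h5 : (⨆ a, lf p π (LL T O a) ⊓ (T.Fx ⊓ S.H).comap π) ≤ (⨆ a, Γ a).map (.fst _ _) := iSup_le fun a x hx =>
    let ⟨c, k⟩ := hZ a _ (map_mem_of_lf hx.1) hx.2.2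
    ⟨(x, c), le_iSup Γ a ⟨hx.1, k⟩, rfl⟩
  generalize ⨆ a, Γ a = Δ at h2 h4 h5
  refine (card_dvd_of_le (K := (Δ ⊓ π.ker.comap (.fst _ _)).map (.fst _ _)) fun x hx => ?_).trans
    ((card_map_dvd _ _).trans (card_dvd_of_injective (((MonoidHom.snd _ _).comp (Δ ⊓ π.ker.comap (.fst _ _)).subtype).codRestrict
      (Z ⊓ h3.hT.ker) fun x => ⟨(h2 x.2.1).1, (h2 x.2.1).2.trans x.2.2⟩) ((injective_iff_map_eq_one _).2
        fun x e => Subtype.ext (h4 _ x.2.1 (congrArg Subtype.val e)))))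
  obtain ⟨y, hy, rfl⟩ := h5 (ker_le_T hp hπ hs h gen hx.2 hx.1)
  exact ⟨y, ⟨hy, hx.1⟩, rfl⟩

end Cfsg.Agent.Mult
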