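import Mathlib
import Cfsg.Agent.Mult.Tw1
import Cfsg.Agent.Mult.LC
import Cfsg.Agent.Chev.SL2
import Cfsg.Agent.Chev.TwE6
import Cfsg.Agent.Chev.TwD4

/-! The rank one subgroups of type `SL₂` of twisted groups. -/

set_option autoImplicit false
set_option linter.unusedSectionVars false

namespace Cfsg.Agent.Mult
open Subgroup Function Cfsg.Lie Cfsg.Agent.Chev Cfsg.Agent.BN StSys Tw Cfsg.Agent.H2.Schur
open scoped commutatorElement MatrixGroups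
universe v

variable {D : ChevalleyDatum} [g : Good2 D] {F : Type*} [Field F] {G : Type*} [Group G] {S : StSys D F G}
  {σ : Sym D} {T : Tw S σ} {A : Type} {O : Orb σ A} {p : ℕ}

variable (T O) in
/-- the conditions on a node -/
def Node (p : ℕ) (h3 : S.R3) (Z : Subgroup (Ix D → Fˣ)) (a : A) : Prop :=
  PB.{v} p (LL T O a) 1 ∧ ∀ y ∈ LL T O a, y ∈ S.H → ∃ c ∈ Z, (∀ i, O.o i ≠ a → c i = 1) ∧ h3.hT c = y

theorem card_Xm (h : IsTw T O T.Fx) (a : A) :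
    Nat.card ↥(T.Fx ⊓ S.Xm (O.J a)) = Nat.card ↥(T.Fx ⊓ S.Xp (O.J a)) :=
  Nat.card_congr ⟨fun y => ⟨h.nJ a * y * (h.nJ a)⁻¹, h.conj_Fx (h.nJ_mem a) y.2.1, (h.mono_nJ a).conj_Xm y.2.2⟩,
    fun y => ⟨(h.nJ a)⁻¹ * y * (h.nJ a)⁻¹⁻¹, h.conj_Fx (inv_mem (h.nJ_mem a)) y.2.1, (h.mono_nJ a).inv_w0.conj_Xp y.2.2⟩,
    fun y => Subtype.ext (by simp [mul_assoc]), fun y => Subtype.ext (by simp [mul_assoc])⟩

theorem slU_coe (t : F) : (slU t).1 = !![1, t; 0, 1] := rfl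
theorem slL_coe (t : F) : (slL t).1 = !![1, 0; t, 1] := rfl
theorem slH_coe (t : F) (ht) : (slH t ht).1 = !![t, 0; 0, t⁻¹] := rfl
theorem slW_coe : (slW : SL(2, F)).1 = !![0, 1; -1, 0] := rfl

theorem sl_dec {F : Type*} [Field F] (a : SL(2, F)) :
    (∃ s t ht, a = slU s * slH t ht) ∨ ∃ s c s', c ≠ 0 ∧ a = slU s * slL c * slU s' := by
  have h := sl_det a
  by_cases e : a.1 1 0 = 0
  · rw [e, mul_zero, sub_zero] at h
    have h0 := left_ne_zero_of_mul_eq_one h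
    refine .inl ⟨a.1 0 1 * a.1 0 0, a.1 0 0, h0, Subtype.ext (Matrix.ext fun i j => ?_)⟩
    fin_cases i <;> fin_cases j <;> simp [slU_coe, slH_coe, e, h0, eq_inv_of_mul_eq_one_right h]
  · refine .inr ⟨(a.1 0 0 - 1) / a.1 1 0, a.1 1 0, (a.1 1 1 - 1) / a.1 1 0, e, Subtype.ext (Matrix.ext fun i j => ?_)⟩
    fin_cases i <;> fin_cases j <;> simp [slU_coe, slL_coe] <;> field_simp <;> first | ring1 | linear_combination -h

theorem sl_node {K : Type*} [Field K] [Finite K] (hp : p.Prime) [CharP K p] (h : IsTw T O T.Fx) {h3 : S.R3}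
    {Z : Subgroup (Ix D → Fˣ)} {a : A} (φ : SL(2, K) →* G) (hU : ∀ y, y ∈ T.Fx ⊓ S.Xp (O.J a) ↔ ∃ t, y = φ (slU t))
    (hV : ∀ t, φ (slL t) ∈ T.Fx ⊓ S.Xm (O.J a)) (hc : Nat.card ↥(T.Fx ⊓ S.Xp (O.J a)) = Nat.card K)
    (hH : ∀ t ht, ∃ c ∈ Z, (∀ i, O.o i ≠ a → c i = 1) ∧ h3.hT c = φ (slH t ht) ∧ (c = 1 → t = 1))
    (hk : ∀ c ∈ Z, (∀ i, O.o i ≠ a → c i = 1) → h3.hT c = 1 → c = 1) : Node.{v} T O p h3 Z a := by
  have h1 : Injective fun t => φ (slU t) := fun t u e => ((Nat.bijective_iff_surjective_and_card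
    (fun t => (⟨_, (hU _).2 ⟨t, rfl⟩⟩ : ↥(T.Fx ⊓ S.Xp (O.J a))))).2
      ⟨fun y => ((hU _).1 y.2).imp fun t e => Subtype.ext e.symm, hc.symm⟩).1 (Subtype.ext e)
  have u0 : slU (0 : K) = 1 := Subtype.ext (by simp [slU_coe, Matrix.one_fin_two])
  have e0 : ∀ t : K, slL t = slW * slU (-t) * slW⁻¹ := fun t => eq_mul_inv_of_mul_eq (Subtype.ext (by simp [slU_coe, slL_coe, slW_coe]))
  have h2 : Injective fun t => φ (slL t) := fun t u e => neg_injective (h1 (by simpa [e0] using e))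
  have hUU : ∀ t, φ (slU t) ∈ S.U := fun t => Xp_le_U _ ((hU _).2 ⟨t, rfl⟩).2
  have hHH : ∀ t ht, φ (slH t ht) ∈ S.H := fun t ht => let ⟨_, _, _, e, _⟩ := hH t ht; e ▸ h3.range_hT.le ⟨_, rfl⟩
  have h4 : ∀ x, φ x ∈ S.H → ∃ t ht, x = slH t ht := fun x hx => by
    rcases sl_dec x with ⟨s, t, ht, rfl⟩ | ⟨s, c, s', h0, rfl⟩
    · rw [map_mul, mul_mem_cancel_right (hHH t ht)] at hx
      exact ⟨t, ht, by rw [h1 (a₂ := 0) ((one_of_mem_U_H (hUU s) hx).trans (by simp [u0])), u0, one_mul]⟩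
    · have := S.H_le_B hx
      rw [map_mul, map_mul, mul_mem_cancel_right (S.U_le_B (hUU _)), mul_mem_cancel_left (S.U_le_B (hUU _))] at this
      exact absurd (h2 (a₂ := 0) ((one_of_mem_B_V this (Xm_le_V _ (hV c).2)).trans (by simp [e0, u0]))) h0
  have h5 : LL T O a = φ.range := le_antisymm (sup_le (fun y hy => ((hU y).1 hy).elim fun t e => ⟨_, e.symm⟩) fun y hy => by
    have : Finite ↥(T.Fx ⊓ S.Xm (O.J a)) := Nat.finite_of_card_ne_zero (by rw [card_Xm h, hc]; exact Nat.card_pos.ne')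
    obtain ⟨t, e⟩ := ((Nat.bijective_iff_injective_and_card (fun t => (⟨_, hV t⟩ : ↥(T.Fx ⊓ S.Xm (O.J a))))).2
      ⟨fun t u e => h2 (congrArg Subtype.val e), by rw [card_Xm h, hc]⟩).2 ⟨y, hy⟩
    exact ⟨_, congrArg Subtype.val e⟩) (by
    have k : ∀ t, φ (slU t) ∈ LL T O a := fun t => mem_sup_left ((hU _).2 ⟨t, rfl⟩)
    have k' : ∀ s c s', φ (slU s * slL c * slU s') ∈ LL T O a := fun s c s' => by
      simpa using mul_mem (mul_mem (k s) (mem_sup_right (hV c))) (k s')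
    rintro _ ⟨x, rfl⟩
    rcases sl_dec x with ⟨s, t, ht, rfl⟩ | ⟨s, c, s', -, rfl⟩
    · rcases sl_dec (slL 1 * slH t ht) with ⟨s', t', ht', e⟩ | ⟨s', c, s'', -, e⟩
      · simpa [slL_coe, slH_coe, slU_coe, ht] using congrArg (fun a : SL(2, K) => a.1 1 0) e
      · rw [map_mul, ← inv_mul_cancel_left (slL 1) (slH t ht), e, map_mul, map_inv]
        exact mul_mem (k s) (mul_mem (inv_mem (mem_sup_right (hV 1))) (k' _ _ _))
    · exact k' _ _ _)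
  refine ⟨?_, fun y hy hy' => ?_⟩
  · have := PB.cover.{v} hp (pb_SL2 hp) φ
    rwa [(MonoidHom.ker_eq_bot_iff φ).2 ((injective_iff_map_eq_one _).2 fun x e => by
      obtain ⟨t, ht, rfl⟩ := h4 x (e ▸ one_mem _)
      obtain ⟨c, k1, k2, k3, k4⟩ := hH t ht
      obtain rfl := k4 (hk c k1 k2 (k3.trans e))
      exact Subtype.ext (by simp [slH_coe, Matrix.one_fin_two])), card_bot, ← h5] at this
  · obtain ⟨x, rfl⟩ := h5.le hy
    obtain ⟨t, ht, rfl⟩ := h4 x hy'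
    exact (hH t ht).imp fun c k => ⟨k.1, k.2.1, k.2.2.1⟩

theorem exists_sl2' (h3 : S.R3) {K : Type*} [Field K] (ψ : K →+* F) (r : Rt D) : ∃ φ : SL(2, K) →* G,
    (∀ t, φ (slU t) = S.x r (ψ t)) ∧ (∀ t, φ (slL t) = S.x (ng r) (ψ t)) ∧ (∀ t ht, φ (slH t ht) = S.h r (ψ t)) ∧
    ∀ a, φ a ∈ S.XS {r, ng r} := by
  obtain ⟨φ, h1, h2, h4, h5⟩ := h3.exists_sl2 r
  refine ⟨φ.comp (Matrix.SpecialLinearGroup.map ψ), fun t => ?_, fun t => ?_, fun t ht => ?_, fun a => h5.le ⟨_, rfl⟩⟩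
  · rw [← h1]; exact congrArg φ (Subtype.ext (Matrix.ext fun i j => by fin_cases i <;> fin_cases j <;> simp [slU_coe]))
  · rw [← h2]; exact congrArg φ (Subtype.ext (Matrix.ext fun i j => by fin_cases i <;> fin_cases j <;> simp [slL_coe]))
  · rw [← h4 _ ((map_ne_zero ψ).2 ht)]
    exact congrArg φ (Subtype.ext (Matrix.ext fun i j => by fin_cases i <;> fin_cases j <;> simp [slH_coe]))

theorem exists_mul_hom {H : Type*} [Group H] (φ ψ : H →* G) (h : ∀ a b, Commute (φ a) (ψ b)) :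
    ∃ χ : H →* G, ∀ a, χ a = φ a * ψ a :=
  ⟨(φ.noncommCoprod ψ h).comp ((MonoidHom.id H).prod (.id H)), fun _ => rfl⟩

section
variable [Finite F] (hp : p.Prime) [CharP F p] (h : IsTw T O T.Fx) {h3 : S.R3} {e : Ix D → ℕ} {a : A}
  (hk : ∀ c ∈ Tσ σ e, (∀ i, O.o i ≠ a → c i = 1) → h3.hT c = 1 → c = 1) (he : ∀ i t, T.φ (sim i) t = t ^ e i)

include he in
theorem mem_Tσ_of {c : Ix D → Fˣ} (h1 : ∀ k, O.o k ≠ a → c k = 1) {i : Ix D} (ho : O.o i = a)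
    (h2 : ∀ k ∈ [i, σ.π i, σ.π (σ.π i)], (c (σ.π k) : F) = T.φ (sim k) (c k)) : c ∈ Tσ σ e := mem_Tσ.2 fun k => by
  by_cases hk : O.o k = a
  · exact Units.ext ((h2 k (by simpa using O.orb i k (ho.trans hk.symm))).trans (by simp [he]))
  · rw [h1 k hk, h1 _ (by rwa [O.stab]), one_pow]

include hp h hk he

theorem node1 {i : Ix D} (hJ : ∀ v, v ∈ [sim i] ↔ v ∈ {r | Pos r ∧ PhiK (O.J a) r}) (hπ : σ.π i = i) (ho : O.o i = a)
    {ψ : F →+* F} (hφ : ∀ t, T.φ (sim i) t = ψ t) : Node.{v} T O p h3 (Tσ σ e) a := by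
  obtain ⟨h1, h2, h4⟩ := one_orbit hJ hπ hφ
  obtain ⟨φ, k1, k2, k3, -⟩ := exists_sl2' h3 (ψ.eqLocusField (.id F)).subtype (sim i)
  refine sl_node hp h φ (fun y => (h1 y).trans ⟨fun ⟨t, ht, e⟩ => ⟨⟨t, ht⟩, e.trans (k1 ⟨t, ht⟩).symm⟩,
    fun ⟨t, e⟩ => ⟨t, t.2, e.trans (k1 t)⟩⟩) (fun t => k2 t ▸ h2 _ t.2) h4 (fun t ht => ?_) hk
  have k : ∀ j, O.o j ≠ a → (Pi.mulSingle i (Units.mk0 t (by simpa using ht)) : Ix D → Fˣ) j = 1 := fun j hj =>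
    Pi.mulSingle_eq_of_ne (by rintro rfl; exact hj ho) _
  exact ⟨_, mem_Tσ_of he k ho (by simpa [hπ, hφ] using t.2.symm), k, by rw [k3, R3.hT_mulSingle]; rfl,
    fun e => Subtype.ext (by simpa [Units.ext_iff] using congrFun e i)⟩

theorem node2 {i j : Ix D} (hJ : ∀ v, v ∈ [sim i, sim j] ↔ v ∈ {r | Pos r ∧ PhiK (O.J a) r}) (hij : j ≠ i)
    (hπ : σ.π i = j) (hπ' : σ.π j = i) (ho : O.o i = a) (ho' : O.o j = a) (hso : SO D (sim i) (sim j)) {ψ ψ' : F →+* F}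
    (hφ : ∀ t, T.φ (sim i) t = ψ t) (hφ' : ∀ t, T.φ (sim j) t = ψ' t) (hψ : ∀ t, ψ' (ψ t) = t) :
    Node.{v} T O p h3 (Tσ σ e) a := by
  obtain ⟨h1, h2, h4⟩ := two_orbit hJ hij hπ hπ' hso hφ hφ' hψ
  obtain ⟨φ, k1, k2, k3, k4⟩ := exists_sl2' h3 (.id F) (sim i)
  obtain ⟨φ', l1, l2, l3, l4⟩ := exists_sl2' h3 ψ (sim j)
  obtain ⟨χ, e⟩ := exists_mul_hom φ φ' fun a b => hso.commute S (k4 a) (l4 b)
  refine sl_node hp h χ (by simp only [e, k1, l1]; exact h1) (by simp only [e, k2, l2]; exact h2) h4 (fun t ht => ?_) hk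
  have k : ∀ k, O.o k ≠ a → (Pi.mulSingle i (Units.mk0 t ht) * Pi.mulSingle j (Units.mk0 (ψ t) (by simpa)) : Ix D → Fˣ) k = 1 :=
    fun k hk => by rw [Pi.mul_apply, Pi.mulSingle_eq_of_ne (by rintro rfl; exact hk ho),
      Pi.mulSingle_eq_of_ne (by rintro rfl; exact hk ho'), mul_one]
  exact ⟨_, mem_Tσ_of he k ho (by simp [hπ, hπ', hφ, hφ', hψ, hij, hij.symm]), k,
    by rw [e, k3, l3, map_mul, R3.hT_mulSingle, R3.hT_mulSingle]; rfl,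
    fun e => by simpa [Units.ext_iff, hij.symm] using congrFun e i⟩

theorem node3 {i j k : Ix D} (hJ : ∀ v, v ∈ [sim i, sim j, sim k] ↔ v ∈ {r | Pos r ∧ PhiK (O.J a) r})
    (hij : j ≠ i) (hik : k ≠ i) (hjk : k ≠ j) (hπ : σ.π i = j) (hπ' : σ.π j = k) (hπ'' : σ.π k = i) (ho : O.o i = a)
    (ho' : O.o j = a) (ho'' : O.o k = a) (hso : SO D (sim i) (sim j)) (hso' : SO D (sim i) (sim k))
    (hso'' : SO D (sim j) (sim k)) {ψ : F →+* F} (hφ : ∀ i t, T.φ (sim i) t = ψ t) (hψ : ∀ t, ψ (ψ (ψ t)) = t) :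
    Node.{v} T O p h3 (Tσ σ e) a := by
  obtain ⟨h1, h2, h4⟩ := three_orbit hJ hij hik hjk hπ hπ' hπ'' hso hso' hso'' hφ hψ
  obtain ⟨φ, k1, k2, k3, k4⟩ := exists_sl2' h3 (.id F) (sim i)
  obtain ⟨φ', l1, l2, l3, l4⟩ := exists_sl2' h3 ψ (sim j)
  obtain ⟨φ'', m1, m2, m3, m4⟩ := exists_sl2' h3 (ψ.comp ψ) (sim k)
  obtain ⟨χ', e'⟩ := exists_mul_hom φ' φ'' fun a b => hso''.commute S (l4 a) (m4 b)
  obtain ⟨χ, e⟩ := exists_mul_hom φ χ' fun a b =>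
    e' b ▸ (hso.commute S (k4 a) (l4 b)).mul_right (hso'.commute S (k4 a) (m4 b))
  refine sl_node hp h χ (by simp only [e, e', k1, l1, m1]; exact h1) (by simp only [e, e', k2, l2, m2]; exact h2) h4
    (fun t ht => ?_) hk
  have l : ∀ l, O.o l ≠ a → (Pi.mulSingle i (Units.mk0 t ht) * (Pi.mulSingle j (Units.mk0 (ψ t) (by simpa)) *
      Pi.mulSingle k (Units.mk0 (ψ (ψ t)) (by simpa))) : Ix D → Fˣ) l = 1 := fun k hk => by
    rw [Pi.mul_apply, Pi.mul_apply, Pi.mulSingle_eq_of_ne (by rintro rfl; exact hk ho),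
      Pi.mulSingle_eq_of_ne (by rintro rfl; exact hk ho'), Pi.mulSingle_eq_of_ne (by rintro rfl; exact hk ho''), mul_one, mul_one]
  exact ⟨_, mem_Tσ_of he l ho (by simp [hπ, hπ', hπ'', hφ, hψ, hij, hij.symm, hik, hik.symm, hjk, hjk.symm]), l, by
    rw [e, e', k3, l3, m3, map_mul, map_mul, R3.hT_mulSingle, R3.hT_mulSingle, R3.hT_mulSingle]; rfl,
    fun e => by simpa [Units.ext_iff, hij.symm, hik.symm] using congrFun e i⟩
end

theorem pg_tw [Finite F] (hp : p.Prime) [CharP F p] (gen : T.Fx ≤ ⨆ a, LL T O a) : PG p T.Fx := fun _ hK =>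
  gen.trans (iSup_le fun _ => sup_le (fun x hx => hK x hx.1 (pe_XS hp (uni_phiK_pos _) hx.2))
    fun x hx => hK x hx.1 (pe_XS hp (uni_phiK_neg _) hx.2))

theorem PG.top {L : Subgroup G} (h : PG p L) : PG p (⊤ : Subgroup L) := fun K hK x _ => by
  obtain ⟨y, hy, e⟩ := h (K.map L.subtype) (fun y hy ⟨n, e⟩ => ⟨⟨y, hy⟩, hK _ trivial ⟨n, Subtype.ext e⟩, rfl⟩) x.2
  exact (Subtype.ext e : y = x) ▸ hy

theorem card_mult_tw {G : Type v} [Group G] {S : StSys D F G} {T : Tw S σ} [Finite F] [Finite A] (hp : p.Prime) [CharP F p]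
    {L : Subgroup G} [Finite L] (h : IsTw T O L) (e : L = T.Fx) (gen : L ≤ ⨆ a, LL T O a) {h3 : S.R3}
    {Z : Subgroup (Ix D → Fˣ)} (hN : ∀ a, Node.{v} T O p h3 Z a) (h0 : ¬ p ∣ Nat.card (Mult L)) :
    Nat.card (Mult L) ∣ Nat.card ↥(Z ⊓ h3.hT.ker) := by
  subst e
  exact PB.card_mult hp h0 (pg_tw hp gen).top (Subgroup.subtype_injective _)
    (by rw [range_subtype]; exact pb_tw hp h h3 gen Z (fun a => (hN a).1) fun a => (hN a).2)

variable {K : Type v} [Field K] [Fintype K] {q : ℕ} (hp : p.Prime) [CharP K p]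
include hp

section
attribute [local instance] good2D4

theorem card_mult_D4 (C : CD4 K q) (h0 : ¬ p ∣ Nat.card (Mult (twistedD4 K q))) : Nat.card (Mult (twistedD4 K q)) = 1 := by
  have h := C.eq_Fx ▸ C.isTw
  have hk : ∀ a, ∀ c ∈ Tσ (F := K) symD4a fun _ => q, (∀ i, orbD4.o i ≠ a → c i = 1) → gl_R3.hT c = 1 → c = 1 :=
    fun _ c h1 _ h2 => mem_bot.1 (C.inf_ker.le ⟨h1, ker_gl_hT.le h2⟩)
  exact Nat.dvd_one.1 ((card_mult_tw hp C.isTw C.eq_Fx C.gen (Fin.forall_fin_two.2 ⟨node3 hp h (hk _) C.φ_pow J0_D4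
    (by decide) (by decide) (by decide) (π_D4 0) (π_D4 2) (π_D4 3) rfl rfl rfl so02_D4 so03_D4 so23_D4 C.φ_sim C.ψψ,
    node1 hp h (hk _) C.φ_pow J1_D4 (π_D4 1) rfl (C.φ_sim _)⟩) h0).trans (by rw [ker_gl_hT, C.inf_ker, card_bot]))
end

section
attribute [local instance] good2E6

theorem card_mult_E6 (C : CE6 K q) (hq : 0 < q) (hK : Fintype.card K = q ^ 2)
    (h0 : ¬ p ∣ Nat.card (Mult (twistedE6 K q))) : Nat.card (Mult (twistedE6 K q)) ∣ Nat.gcd 3 (q + 1) := by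
  have h := C.eq_Fx ▸ C.isTw
  have hk : ∀ a, ∀ c ∈ Tσ (F := K) symE6 fun _ => q, (∀ i, orbE6.o i ≠ a → c i = 1) → gl_R3.hT c = 1 → c = 1 :=
    fun a c _ h1 h2 => by
      obtain ⟨-, k1, k2, k3, k4, k5⟩ := (mem_ker_E6 c).1 (ker_gl_hT.le h2)
      have k0 : c (nE6 0) = 1 := by
        by_cases e : a = 3
        · exact k4.symm.trans (h1 (nE6 4) (by rw [e]; decide))
        · exact h1 _ (Ne.symm e)
      have k6 : c (nE6 0) ^ 2 = 1 := by rw [k0, one_pow]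
      funext i
      fin_cases i
      exacts [k0, k1, k2.trans k6, k3, k4.trans k0, k5.trans k6]
  refine (card_mult_tw hp C.isTw C.eq_Fx C.gen (h3 := gl_R3) (Z := Tσ symE6 fun _ => q) (fun a => ?_) h0).trans
    (by rw [ker_gl_hT, card_Z_E6 hq hK])
  fin_cases a
  exacts [node1 hp h (hk _) C.φ_pow J0_E6 (π_E6 1) rfl (C.φ_sim _), node1 hp h (hk _) C.φ_pow J1_E6 (π_E6 3) rfl (C.φ_sim _),
    node2 hp h (hk _) C.φ_pow J2_E6 (by decide) (π_E6 2) (π_E6 4) rfl rfl so2_E6 (C.φ_sim _) (C.φ_sim _) C.ψψ,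
    node2 hp h (hk _) C.φ_pow J3_E6 (by decide) (π_E6 0) (π_E6 5) rfl rfl so3_E6 (C.φ_sim _) (C.φ_sim _) C.ψψ]
end

end Cfsg.Agent.Mult
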