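import Mathlib
import Cfsg.Agent.Mult.Tw2
import Cfsg.Agent.Mult.Ree

/-! Filtrations of the unipotent subgroup of a twisted group by orbits of roots. -/

set_option autoImplicit false
set_option linter.unusedSectionVars false

namespace Cfsg.Agent.Mult
open Subgroup Function Cfsg.Lie Cfsg.Agent.Chev Cfsg.Agent.BN StSys Tw Cfsg.Agent.H2.Schur
open scoped commutatorElement

variable {D : ChevalleyDatum} [g : Good2 D] {F : Type*} [Field F] {G : Type*} [Group G] {S : StSys D F G}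
  {σ : Sym D} {T : Tw S σ} {R R' : Set (Rt D)} {r : Rt D}

variable (S) in
/-- the coordinate at a root -/
noncomputable def crd (r : Rt D) (a : G) : F :=
  (cv r (exists_cv_ne_zero F r).choose : F)⁻¹ * ent (exists_cv_ne_zero F r).choose r (S.θ a)

theorem crd_x (r s : Rt D) (t : F) : crd S r (S.x s t) = if s = r then t else 0 := by
  rw [crd, S.θ_x, ent_XG]
  split_ifs with h
  · rw [h, inv_mul_cancel_left₀ (exists_cv_ne_zero F r).choose_spec]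
  · simp

/-- `r` is not a sum of several roots in `R` -/
def Low (R : Set (Rt D)) (r : Rt D) : Prop := ∃ c, ∃ k : ℕ, ph c r < k + k ∧ ∀ s ∈ R, (k : ℤ) ≤ ph c s

theorem Low.mono (h : Low R r) (h' : R' ⊆ R) : Low R' r := let ⟨c, k, h1, h2⟩ := h; ⟨c, k, h1, fun s hs => h2 s (h' hs)⟩

theorem Low.mul (h : Low R r) {a b : G} (ha : a ∈ S.XS R) (hb : b ∈ S.XS R) : crd S r (a * b) = crd S r a + crd S r b := by
  obtain ⟨c, k, h1, h2⟩ := h
  have k : ∀ a ∈ S.XS R, S.θ a ∈ UpG F c k := fun a => S.map_mem_XS _ fun r hr t => S.θ_x r t ▸ XG_mem_UpG (h2 r hr) t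
  rw [crd, map_mul, ent_mul (k a ha) (k b hb) h1, mul_add]; rfl

theorem add_ext {f f' : G → F} (hf : ∀ a ∈ S.XS R, ∀ b ∈ S.XS R, f (a * b) = f a + f b)
    (hf' : ∀ a ∈ S.XS R, ∀ b ∈ S.XS R, f' (a * b) = f' a + f' b) (h : ∀ r ∈ R, ∀ t, f (S.x r t) = f' (S.x r t)) {a : G}
    (ha : a ∈ S.XS R) : f a = f' a := by
  induction ha using S.XS_ind with
  | h1 => rw [show f 1 = 0 by simpa using hf 1 (one_mem _) 1 (one_mem _),
      show f' 1 = 0 by simpa using hf' 1 (one_mem _) 1 (one_mem _)]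
  | hs r hr t a ha ih => rw [hf _ (S.x_mem hr t) a ha, hf' _ (S.x_mem hr t) a ha, ih, h r hr]

theorem Low.zero (h : Low R r) (hr : r ∉ R) {a : G} (ha : a ∈ S.XS R) : crd S r a = 0 :=
  add_ext (f' := fun _ => 0) (fun _ ha _ => h.mul ha) (by simp)
    (fun s hs t => by rw [crd_x, if_neg (by rintro rfl; exact hr hs)]) ha

theorem mem_of_crd (L : List (Rt D)) : ∀ {R : Set (Rt D)}, R' ⊆ R → (∀ s ∈ R, s ∈ R' ∨ s ∈ L) → (∀ s ∈ L, Low R s) →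
    (∀ a ∈ S.XS R, ∀ b ∈ S.XS R, ⁅a, b⁆ ∈ S.XS R') → ∀ a ∈ S.XS R, (∀ s ∈ L, crd S s a = 0) → a ∈ S.XS R' := by
  induction L with
  | nil => exact fun _ h _ _ a ha _ => S.XS_mono (fun s hs => by simpa using h s hs) ha
  | cons s L ih =>
  intro R h1 h2 h3 h4 a ha h5
  have k1 : R ∩ (R' ∪ {v | v ∈ L}) ⊆ R := Set.inter_subset_left
  have k2 : R' ⊆ R ∩ (R' ∪ {v | v ∈ L}) := fun v hv => ⟨h1 hv, .inl hv⟩
  refine ih k2 (fun v hv => hv.2) (fun v hv => (h3 v (.tail _ hv)).mono k1)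
    (fun a ha b hb => h4 a (S.XS_mono k1 ha) b (S.XS_mono k1 hb)) a ?_ fun v hv => h5 v (.tail _ hv)
  by_cases e : s ∈ R ∧ s ∉ R ∩ (R' ∪ {v | v ∈ L})
  · have k3 : S.XS {s} ≤ S.XS R := S.XS_mono (by simpa using e.1)
    obtain ⟨u, hu, y, hy, rfl⟩ := Pres.mem_sup_norm (K := S.XS (R ∩ (R' ∪ {v | v ∈ L}))) (L := S.XS {s})
      (le_normalizer_of fun a ha y hy => conj_mem_of_comm (S.XS_mono k2 (h4 a (k3 ha) y (S.XS_mono k1 hy))) hy)
      (S.XS_union _ _ ▸ S.XS_mono (fun v hv => by have := h2 v hv; simp only [List.mem_cons] at this; simp; tauto) ha)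
    obtain ⟨t, rfl⟩ := S.mem_XS_singleton.1 hy
    have := h5 s (.head _)
    rw [(h3 s (.head _)).mul (S.XS_mono k1 hu) (k3 hy), ((h3 s (.head _)).mono k1).zero e.2 hu, crd_x, if_pos rfl,
      zero_add] at this
    simpa [this] using hu
  · refine S.XS_mono (fun v hv => ?_) ha
    have := h2 v hv
    simp only [List.mem_cons] at this
    rcases this with h | rfl | h
    exacts [k2 h, by_contra fun h => e ⟨hv, h⟩, ⟨hv, .inr h⟩]

theorem φ_add (T : Tw S σ) (r : Rt D) (t u : F) : T.φ r (t + u) = T.φ r t + T.φ r u :=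
  S.x_inj (r := σ.p r) (by rw [S.add, ← T.f_x, ← T.f_x, ← T.f_x, S.add, T.f_mul _ (S.x_mem_grp _ _) _ (S.x_mem_grp _ _)])

theorem crd_p (hR : ∀ r ∈ R, σ.p r ∈ R) (h : Low R r) (h' : Low R (σ.p r)) {a : G} (ha : a ∈ T.Fx ⊓ S.XS R) :
    crd S (σ.p r) a = T.φ r (crd S r a) := by
  have k : S.XS R ≤ S.grp := S.XS_le.2 fun r _ => S.x_mem_grp r
  conv_lhs => rw [← ha.1.2]
  refine add_ext (f := fun a => crd S (σ.p r) (T.f a)) (f' := fun a => T.φ r (crd S r a))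
    (fun a ha b hb => ?_) (fun a ha b hb => ?_) (fun s _ t => ?_) ha.2
  · rw [T.f_mul _ (k ha) _ (k hb), h'.mul (T.mem_XS hR ha) (T.mem_XS hR hb)]
  · rw [h.mul ha hb, φ_add]
  · simp only [T.f_x, crd_x, σ.p.apply_eq_iff_eq]
    split_ifs with e
    exacts [e ▸ rfl, (T.φ_zero r).symm]

theorem Low.conj (h : Low R r) {z : G} {χ : Rt D → F} (hz : ∀ r t, z * S.x r t * z⁻¹ = S.x r (χ r * t)) {a : G}
    (ha : a ∈ S.XS R) : z * a * z⁻¹ ∈ S.XS R ∧ crd S r (z * a * z⁻¹) = χ r * crd S r a := by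
  have k : ∀ a ∈ S.XS R, z * a * z⁻¹ ∈ S.XS R := fun a => S.conj_mem_XS fun r hr t => hz r t ▸ S.x_mem hr _
  refine ⟨k a ha, add_ext (f := fun a => crd S r (z * a * z⁻¹)) (f' := fun a => χ r * crd S r a)
    (fun a ha b hb => ?_) (fun a ha b hb => ?_) (fun s _ t => ?_) ha⟩
  · rw [← h.mul (k a ha) (k b hb)]; simp [mul_assoc]
  · rw [h.mul ha hb, mul_add]
  · simp only [hz, crd_x]; split_ifs with e <;> simp [*]

/-- the roots of index greater than `n` -/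
def RI (I : Rt D → ℕ) (n : ℕ) : Set (Rt D) := {r | n < I r}

variable (S) in
/-- commutators raise the index -/
def Cmm (I : Rt D → ℕ) : Prop :=
  ∀ r s, 0 < I r → 0 < I s → ∀ t u, (S.x r t * S.x s u)⁻¹ * (S.x s u * S.x r t) ∈ S.XS (RI I (I s))

variable {I : Rt D → ℕ} {ρ : ℕ → Rt D} {N : ℕ}

theorem RI_anti {m n : ℕ} (h : m ≤ n) : RI I n ⊆ RI I m := fun _ hr => h.trans_lt hr

theorem cmm_of (m : ℕ) (hm : (m : F) = 0) (h : ∀ r s, 0 < I r → 0 < I s → s ≠ ng r ∧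
    ∀ c ∈ D.commTerms r s, (m : ℤ) ∣ c.2.1 ∨ ∀ h : c.1 < D.nroots, I s < I ⟨c.1, h⟩) : Cmm S I := fun r s hr hs t u => by
  by_cases e : s = r
  · rw [e, S.x_comm_self, inv_mul_cancel]; exact one_mem _
  rw [S.comm r s e (h r s hr hs).1, inv_mul_cancel_left]
  refine wd_mem fun v c hv => ?_
  obtain ⟨q, hq, e⟩ := List.mem_map.mp hv
  obtain ⟨h1, rfl⟩ := Prod.mk.inj e
  rcases (h r s hr hs).2 q hq with ⟨k, hk⟩ | h2
  · simp [hk, hm]
  · exact S.x_mem (show I s < I v by simpa [h1] using h2 (h1 ▸ v.2)) _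

theorem Cmm.conj (h : Cmm S I) {n : ℕ} {a y : G} (ha : a ∈ S.XS (RI I 0)) (hy : y ∈ S.XS (RI I n)) :
    a * y * a⁻¹ ∈ S.XS (RI I n) := by
  induction ha using S.XS_ind with
  | h1 => simpa using hy
  | hs r hr t a _ ih =>
    have := S.conj_mem_XS (a := S.x r t) (K := S.XS (RI I n)) (fun s hs u => by
      have h1 := mul_mem (S.x_mem hs u) (S.XS_mono (RI_anti (le_of_lt hs)) (h r s hr (n.zero_le.trans_lt hs) (-t) u))
      rw [S.x_neg] at h1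
      simpa [mul_assoc] using h1) ih
    simpa [mul_assoc] using this

theorem Cmm.comm (h : Cmm S I) (n : ℕ) : ∀ a ∈ S.XS (RI I 0), ∀ y ∈ S.XS (RI I n), ⁅a, y⁆ ∈ S.XS (RI I (n + 1)) := by
  intro a ha y hy
  induction hy using S.XS_ind with
  | h1 => simp
  | hs s hs u y hy ih =>
    rw [comm_mul_r]
    refine mul_mem ?_ (h.conj (S.x_mem (RI_anti n.zero_le hs) u) ih)
    clear ih
    induction ha using S.XS_ind with
    | h1 => simp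
    | hs r hr t a ha ih =>
      rw [comm_mul_l]
      refine mul_mem (h.conj (S.x_mem hr t) ih) ?_
      simpa [commutatorElement_def, S.x_neg, mul_assoc] using
        inv_mem (S.XS_mono (RI_anti hs) (h r s hr (n.zero_le.trans_lt hs) (-t) (-u)))

variable (σ) in
/-- an indexing of the orbits of roots -/
structure Flt (c : Ix D → ℤ) (I : Rt D → ℕ) (ρ : ℕ → Rt D) (N : ℕ) : Prop where
  top : ∀ r, I r ≤ N
  inv : ∀ r, I (σ.p r) = I r
  val : ∀ n < N, I (ρ n) = n + 1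
  cov : ∀ s, 0 < I s → s ∈ [ρ (I s - 1), σ.p (ρ (I s - 1)), σ.p (σ.p (ρ (I s - 1)))]
  low : ∀ r s, 0 < I r → I r ≤ I s → ph c r < 2 * ph c s

variable (T I) in
/-- the terms of the filtration -/
def UI (n : ℕ) : Subgroup T.Fx := (S.XS (RI I n)).subgroupOf T.Fx

theorem UI_anti {m n : ℕ} (h : m ≤ n) : UI T I n ≤ UI T I m := fun _ ha => S.XS_mono (RI_anti h) ha

theorem Cmm.UI (h : Cmm S I) (n : ℕ) : ∀ a ∈ UI T I 0, ∀ b ∈ UI T I n, ⁅a, b⁆ ∈ UI T I (n + 1) :=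
  fun a ha b hb => h.comm n a ha b hb

namespace Flt
variable {c : Ix D → ℤ} (h : Flt σ c I ρ N)
include h

theorem low' {n : ℕ} (e : I r = n + 1) : Low (RI I n) r := by
  have := h.low r r (by omega) le_rfl
  refine ⟨c, (ph c r / 2 + 1).toNat, by omega, fun s hs => ?_⟩
  have := h.low r s (by omega) (e ▸ hs)
  omega

theorem bot : UI T I N = ⊥ := eq_bot_iff.2 fun a ha => Subtype.ext
  (S.XS_le.2 (fun r hr => absurd (h.top r) (not_le.2 hr)) ha : a.1 ∈ (⊥ : Subgroup G))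

theorem k0 {n : ℕ} (e : I r = n + 1) {a : T.Fx} (ha : a ∈ UI T I n) : crd S (σ.p r) a.1 = T.φ r (crd S r a.1) :=
  crd_p (fun r hr => show n < _ from h.inv r ▸ hr) (h.low' e) (h.low' ((h.inv r).trans e)) ⟨a.2, ha⟩

theorem k1 {n : ℕ} (e : I r = n + 1) : ∀ a ∈ UI T I n, ∀ b ∈ UI T I n, crd S r (a * b).1 = crd S r a.1 + crd S r b.1 :=
  fun _ ha _ hb => (h.low' e).mul ha hb

theorem k2 (hc : Cmm S I) {n : ℕ} (hn : n < N) : ∀ a ∈ UI T I n, crd S (ρ n) a.1 = 0 ↔ a ∈ UI T I (n + 1) := fun a ha => by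
  have e := h.val n hn
  have e1 := (h.inv _).trans e
  refine ⟨fun h0 => ?_, ((h.low' e).mono (RI_anti n.le_succ)).zero e.not_gt⟩
  have h1 : _ = (0 : F) := (h.k0 e ha).trans (by rw [h0, T.φ_zero])
  refine mem_of_crd [ρ n, σ.p (ρ n), σ.p (σ.p (ρ n))] (RI_anti n.le_succ) (fun s hs => ?_) (by
    simpa using ⟨h.low' e, h.low' e1, h.low' ((h.inv _).trans e1)⟩)
    (fun a ha => hc.comm n a (S.XS_mono (RI_anti n.zero_le) ha)) _ ha
    (by simpa using ⟨h0, h1, (h.k0 e1 ha).trans (by rw [h1, T.φ_zero])⟩)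
  refine (Nat.lt_or_eq_of_le hs).imp_right fun k => ?_
  simpa [← k] using h.cov s (by omega)

theorem k3 {n : ℕ} (e : I r = n + 1) {z : T.Fx} {χ : Rt D → F} (hz : ∀ r t, z * S.x r t * z.1⁻¹ = S.x r (χ r * t)) :
    ∀ a ∈ UI T I n, z * a * z⁻¹ ∈ UI T I n ∧ crd S r (z * a * z⁻¹).1 = χ r * crd S r a.1 :=
  fun _ ha => (h.low' e).conj hz ha

theorem congr (hc : Cmm S I) {n : ℕ} (hn : n < N) {a b : T.Fx} (ha : a ∈ UI T I n) (hb : b ∈ UI T I n)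
    (e : crd S (ρ n) b.1 = crd S (ρ n) a.1) : a⁻¹ * b ∈ UI T I (n + 1) := by
  have k := mul_mem (inv_mem ha) hb
  rw [← h.k2 hc hn _ k, ← add_eq_left (a := crd S (ρ n) a.1), ← h.k1 (h.val n hn) _ ha _ k, mul_inv_cancel_left, e]

end Flt

theorem hT_conj' (h3 : S.R3) (c : Ix D → Fˣ) (s : Rt D) (u : F) :
    h3.hT c * S.x s u * (h3.hT c)⁻¹ = S.x s ((∏ i, c i ^ ca i s : Fˣ) * u) := by rw [h3.hT_conj, prod_ca_eq]

variable (T) in
/-- the centraliser in the twisted group -/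
def CT (a : G) : Subgroup G := T.Fx ⊓ centralizer {a}

theorem mem_CT {a y : G} (h : y ∈ T.Fx) (h' : Commute a y) : y ∈ CT T a := ⟨h, mem_centralizer_singleton_iff.2 h'.symm⟩

theorem cm_of_CT {E : Type*} [Group E] {π : E →* T.Fx} (hπ : CExt π) {a b : T.Fx} (h : b.1 ∈ ⁅CT T a, CT T a⁆) : CM π a b := by
  obtain ⟨c, hc, e⟩ := (commutator_le (H₁ := CT T a) (H₂ := CT T a) (H₃ := (CM.sub hπ a).map T.Fx.subtype)).2 (fun y hy z hz =>
    ⟨⁅(⟨y, hy.1⟩ : T.Fx), ⟨z, hz.1⟩⁆, CM.comm hπ (Subtype.ext (mem_centralizer_singleton_iff.1 hy.2).symm)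
      (Subtype.ext (mem_centralizer_singleton_iff.1 hz.2).symm), rfl⟩) h
  exact (Subtype.ext e : c = b) ▸ hc

variable (T I ρ) in
/-- a pair of sections with representatives whose lifts commute -/
def Spec (j k : ℕ) : Prop := ∀ t u, (σ.p (ρ j) = ρ j → T.φ (ρ j) t = t) → (σ.p (ρ k) = ρ k → T.φ (ρ k) u = u) →
  ∃ a ∈ T.Fx ⊓ S.XS (RI I j), ∃ b ∈ T.Fx ⊓ S.XS (RI I k), b ∈ ⁅CT T a, CT T a⁆ ∧ crd S (ρ j) a = t ∧ crd S (ρ k) b = u

/-- the pair of exponents of a character -/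
def mn (σ : Sym D) (w : Ix D → ℕ) (ν : Ix D → ℤ) (r : Rt D) : ℤ × ℤ :=
  (∑ i, ν i * ca i r, ∑ i, w (σ.π i) * ν (σ.π i) * ca i r)

/-- small nonzero pairs -/
abbrev Sm (A B : ℤ) (v : ℤ × ℤ) : Prop := |v.1| ≤ A ∧ |v.2| ≤ B ∧ v ≠ 0

theorem exists_torT (h3 : S.R3) {q : ℕ} {w : Ix D → ℕ} (he : ∀ i t, T.φ (sim i) t = t ^ (q * w i))
    (h2 : ∀ i, σ.π (σ.π i) = i) (hw : ∀ i (a : Fˣ), a ^ (q * w (σ.π i) * (q * w i)) = a) (a : Fˣ) (ν : Ix D → ℤ) :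
    ∃ z : T.Fx, z.1 ∈ S.H ∧ ∀ r t, z * S.x r t * z.1⁻¹ =
      S.x r ((a ^ ((mn σ w ν r).1 + q * (mn σ w ν r).2) : Fˣ) * t) := by
  have := map_Tσ_le h3 he ⟨fun i => a ^ (ν i + q * w (σ.π i) * ν (σ.π i)), mem_Tσ.2 fun i => by
    rw [h2, ← zpow_natCast, ← zpow_mul, show (ν i + q * w (σ.π i) * ν (σ.π i)) * (q * w i : ℕ) =
      (q * w (σ.π i) * (q * w i) : ℕ) * ν (σ.π i) + q * w i * ν i by push_cast; ring, zpow_add, zpow_add,
      zpow_mul _ _ (ν (σ.π i)), zpow_natCast, hw], rfl⟩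
  refine ⟨⟨_, this.1⟩, this.2, fun r t => (hT_conj' h3 _ r t).trans ?_⟩
  simp only [← zpow_mul, ← zpow_sum_eq, mn, add_mul, Finset.sum_add_distrib, Finset.mul_sum, mul_assoc]

theorem sp_flt [Finite F] {p : ℕ} (hp : p.Prime) [CharP F p] [Finite T.Fx] {c : Ix D → ℤ} (h : Flt σ c I ρ N)
    (hc : Cmm S I) (h3 : S.R3) {χ : (Ix D → ℤ) → Rt D → ℤ × ℤ} {q : ℤ} (key : ∀ (a : Fˣ) ν, ∃ z : T.Fx, z.1 ∈ S.H ∧
      ∀ r t, z * S.x r t * z.1⁻¹ = S.x r ((a ^ ((χ ν r).1 + q * (χ ν r).2) : Fˣ) * t)) (h5 : 5 ≤ Nat.card F) {A B : ℤ}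
    (hb : ∀ v, Sm A B v → ¬ ((Nat.card F : ℤ) - 1) ∣ v.1 + q * v.2) (ν : ℕ → ℕ → Ix D → ℤ) (L : List (ℕ × ℕ))
    (fix : ∀ k < N, Sm A B (χ (ν k k) (ρ k)))
    (pair : ∀ k < N, ∀ j ≤ k, χ (ν j k) (ρ j) = 0 ∧ Sm A B (χ (ν j k) (ρ k)) ∨
      j = k ∧ χ (ν k k) (ρ k) = (1, 0) ∨ (j, k) ∈ L) (spec : ∀ v ∈ L, Spec T I ρ v.1 v.2)
    {E : Type*} [Group E] [Finite E] {π : E →* T.Fx} (hπ : CExt π) : Sp π (UI T I 0) := by
  have := Fact.mk hp
  obtain ⟨a, ha⟩ := exists_gen F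
  refine (sp_of_filt hπ (UI T I) h.bot (fun k => UI_anti k.le_succ) hc.UI (Hs := {z | z.1 ∈ S.H})
    (fun y hy z hz => Subtype.ext (h3.H_comm _ hy _ hz)) (fun y hy k u hu => H_conj_mem hy hu) (fun k hk => ?_)
    fun j k hjk hk β hβ => ?_).imp fun M h => ⟨h.1, h.2.1⟩
  · obtain ⟨z, h1, h2⟩ := key a (ν k k)
    exact ⟨z, h1, fp_of_coord (h.k1 (h.val k hk)) (h.k2 hc hk) (h.k3 (h.val k hk) h2)
      (by simpa only [ne_eq, Units.val_eq_one, ha] using hb _ (fix k hk))⟩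
  have hj := hjk.trans_lt hk
  have kk : ∀ a : Fˣ, (∀ i : ℕ, ((a ^ ((χ (ν j k) (ρ j)).1 + q * (χ (ν j k) (ρ j)).2) : Fˣ) : F) ^ p ^ i *
      (a ^ ((χ (ν j k) (ρ k)).1 + q * (χ (ν j k) (ρ k)).2) : Fˣ) ≠ 1) → _ := fun a =>
    let ⟨z, h1, h2⟩ := key a (ν j k)
    hβ.of_coord p (UI_anti j.le_succ) (UI_anti k.le_succ) (h.k1 (h.val j hj)) (fun a ha => (h.k2 hc hj a ha).1)
      (h.k1 (h.val k hk)) (fun a ha => (h.k2 hc hk a ha).1) h1 (h.k3 (h.val j hj) h2) (h.k3 (h.val k hk) h2)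
      (Units.ne_zero _)
  rcases pair k hk j hjk with ⟨e, e'⟩ | ⟨rfl, e⟩ | e
  · refine kk a fun i => ?_
    rw [e]
    simpa [-zpow_add, -Units.val_zpow_eq_zpow_val, ha] using hb _ e'
  · obtain ⟨b, hb⟩ := exists_nc (F := F) p h5
    exact kk b (by simpa [e] using hb)
  intro a ha b hb
  obtain ⟨a', h1, b', h2, h3, h4, h5⟩ := spec _ e _ _ (fun e => (h.k0 (h.val j hj) ha).symm.trans (by rw [e]))
    fun e => (h.k0 (h.val k hk) hb).symm.trans (by rw [e])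
  rw [← hβ.congr (UI_anti j.le_succ) (UI_anti k.le_succ) ha (h.congr hc hj ha (b := ⟨a', h1.1⟩) h1.2 h4) hb
    (h.congr hc hk hb (b := ⟨b', h2.1⟩) h2.2 h5)]
  exact hβ.cm _ _ (cm_of_CT hπ h3)

theorem comm_one {r s v : Rt D} {C : ℤ} (h : s ≠ r ∧ s ≠ ng r ∧ D.commTerms r s = [((v : ℕ), C, 1, 1)]) (t u : F) :
    ⁅S.x s u, S.x r t⁆ = S.x v (-(C * t * u)) := by
  have e := S.comm_of h (-t) (-u)
  rw [List.map_cons, List.map_nil, wd_one, S.x_neg, S.x_neg, ← inv_mul_eq_iff_eq_mul] at e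
  rw [show -(C * t * u) = C * (- -t) ^ 1 * (-u) ^ 1 by ring, ← e]
  simp [commutatorElement_def, mul_assoc]

theorem spec_fix {ψ : F →+* F} (hψ : ∀ r, σ.p r = r → ∀ t, T.φ r t = ψ t) {k : ℕ} {r s : Rt D} {C : ℤ} (hC : C * C = 1)
    (h : σ.p (ρ k) = ρ k ∧ σ.p r = r ∧ σ.p s = s ∧ k < I (ρ k) ∧ (s ≠ r ∧ s ≠ ng r ∧ D.commTerms r s = [((ρ k : ℕ), C, 1, 1)]) ∧
      (r ≠ ρ k ∧ r ≠ ng (ρ k) ∧ D.commTerms (ρ k) r = []) ∧ s ≠ ρ k ∧ s ≠ ng (ρ k) ∧ D.commTerms (ρ k) s = []) :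
    Spec T I ρ k k := fun t u ht hu => by
  obtain ⟨h1, h2, h3, h4, h5, h6, h7⟩ := h
  have e0 : (C : F) * C = 1 := by exact_mod_cast congrArg (Int.cast : ℤ → F) hC
  have e : -(C * 1 * -(C * u)) = u := by linear_combination u * e0
  refine ⟨_, ⟨(x_mem_Fx h1).2 (ht h1), S.x_mem h4 t⟩, _, ⟨(x_mem_Fx h1).2 (hu h1), S.x_mem h4 u⟩, ?_, by simp [crd_x],
    by simp [crd_x]⟩
  rw [← e, ← comm_one h5]
  exact commutator_mem_commutator (mem_CT ((x_mem_Fx h3).2 (by simp [hψ _ h3, (hψ _ h1 u).symm.trans (hu h1)])) (S.commute_nil h7 _ _))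
    (mem_CT ((x_mem_Fx h2).2 (by simp [hψ _ h2])) (S.commute_nil h6 _ _))

theorem nd_index {G : Type*} [Group G] [Finite G] {U : Subgroup G} {p a b : ℕ} (h : a * Nat.card G = Nat.card U * b)
    (hb : ¬ p ∣ b) : ¬ p ∣ U.index := fun e => hb (by
  rw [← U.card_mul_index, mul_left_comm] at h
  exact Nat.eq_of_mul_eq_mul_left Nat.card_pos h ▸ e.mul_left a)

theorem nd_sub {p q k : ℕ} (hp : p.Prime) (h : p ∣ q) (hq : 0 < q) : ¬ p ∣ q ^ (k + 1) - 1 := fun e =>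
  hp.not_dvd_one ((Nat.dvd_sub_iff_right (Nat.one_le_pow _ _ hq) (h.pow (by omega))).1 e)

theorem nd_add {p q k : ℕ} (hp : p.Prime) (h : p ∣ q) : ¬ p ∣ q ^ (k + 1) + 1 := fun e =>
  hp.not_dvd_one ((Nat.dvd_add_right (h.pow (by omega))).1 e)

theorem card_UI (h : ∀ r, 0 < I r ↔ Pos r) : Nat.card (UI T I 0) = Nat.card ↥(S.U ⊓ T.Fx) := by
  rw [UI, show RI I 0 = {r | Pos r} from Set.ext h, ← inf_subgroupOf_right]
  exact Nat.card_congr (subgroupOfEquivOfLe inf_le_right).toEquiv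

end Cfsg.Agent.Mult
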