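import Mathlib
import Cfsg.Agent.Mult.Tw3
import Cfsg.Agent.Mult.Univ
import Cfsg.Agent.Chev.EmbC

/-! The Schur multiplier of `²E₆(q)`. -/

set_option autoImplicit false
set_option linter.unusedSectionVars false

namespace Cfsg.Agent.Mult.E6
open Subgroup Function Cfsg.Lie Cfsg.Agent.Chev Cfsg.Agent.BN StSys Tw Cfsg.Agent.H2.Schur
open scoped commutatorElement
attribute [local instance] good2E6

/-- the index of the orbit of a root -/
def I (r : Rt chevE6) : ℕ := byte 23274351812370846151476227168679433234511503882109616467662352507371788551102695912218560000914195994386922610131605466400754302509547945063196773689030266605848834674262016 r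
/-- roots read from a table -/
def rt (N n : ℕ) : Rt chevE6 := (Fin.ofNat 72 (byte N n) : Fin 72)
/-- representatives of the orbits -/
def ρ : ℕ → Rt chevE6 := rt 1747645515211284331377899940614524846841147903300206011684
/-- cocharacters -/
def ν (j k : ℕ) (i : Ix chevE6) : ℤ := nib 14643941468456851546548309561540981164001261108673776768580723664770072059624416122917491326009451508393364526089118238429355641931097877322775873127590709354457074870977822378727288022621351200126895558657532503977437590208662699122477300816725514030187821029376025648900680008124701818494261967761342159234518349322797899191396621956724126601604701053214710991834954295374920179750319184909940853932848748635083981402111718564007601849952075959971209055251596463321255730402679121009520941137705560280180672013945001908623016217066705456932889824618858456723645821293112662241424197856770138665296033804402958564924263769445150317953861626920735877147495029177488808741792484970317415880459856911194549670727998672888063940986155864236384811427266256005826454756578330452164743128130096959016076833753424187492594595691384901286608851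281229877564145949909805858734497918582781115404585542481810513263099811710675466619040169966353293545176358886851606784897127680422844728539575186237622321538504508099324887200078790232385310284062620996884894743256460654635626211287540221976085400394198588152330088890184923899872283814581545656284708300094866561737436977388798746310091930813497776991874285706985759150999769921404994938475624168699054469028378305799088861674223813882732599312614987474521110306770029176145538201279046014232951200166270709642519706571461921968704643924788075396561339875821483985268230658239826109473777797274631526565700676407062621406881342570469837650697698424876085734885264977830192345935614785320514172036082478015548546910763162423035154293046017232689845133839799557129257980924242493561213909780673188227106835265589079648549694957982140028688324886202270189622472939163554875390218866666922094103712796476640398657373465052728383670813342926748524548906578311314499455512130755477890403409815920543577515481354948421596595553635243089295397949770189892279571714692615889401060035923790589531177379984368149067254174438454862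643169920628257795213175352772735262221843209492390558067062814461060543181266472754918903883816667501328562498789927222687846007712987753847733497914566685057080494247707209458218848173689778115826798003108483281661475384020130198664759348722072561523750562502164263469519836650030793485939354542211035034474971869356319357537761076797625178136638628612861913814146586655373442408509572932795547398090982232752962217081184045141397519729601141094993137296487967332068832682143382498946288043404032526624821436245481023600426545022694447585258298562071989209296266534326806015649629117329271828047969612830264650882757590202882189068008896133323196964428625064952235637073958577748095321065200126651352817128127491092180262620293556878414702621068951814429826067283337333638622190897985728460380645299387280010936361025942244880650327562165380194359574803738649572657891351106550954056177490618904760241881679156707155900360963408099323289224846255999415968573977264062426581080228412642146651015074670343569550902151861308260271934640953207884235222395649978792395719258779739343230016638926127199411745518785691947800193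17440974613028681759721665473060891896214279721698269601771530053720896203017685359177217309531239368406621278214951315824379013208562339800017985775049220528686517933161274206027579426362197829594579785372125231951395614690277982487726510857535345224809154588334785862097123173911143591135550311109160597920163808333423561062344162418324152484446564193402284558170332612041924022350351589777922471635493928340336994805463616456769923496496437543515644065721993520704645358027930873464656181529433115442284670433374633293902600521225475718190614645180830239875024969581287850783857930921926678910337314652317483591209323840684601036366168515362045309064676047484826770683842260025929082715049973186213211968327481115220093645498905085285839687859358487455633594497726926568458286248021907288046596438133979301074630718700063627703173568195705265199463091496425054234313573040968636060874631510479975253719584882137431235390842695408234423084886848033815501346076913957556821065928903556379253566987835020811198232347004492246323789990769093472972773818929004818131608332405800667272 6 (j * 24 + k) i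
/-- the long roots -/
def L : List (ℕ × ℕ) := [2, 3, 6, 8, 12, 14, 15, 17, 19, 21, 22, 23].map fun k => (k, k)
/-- first summands -/
def R : ℕ → Rt chevE6 := rt 1130320221940138295622048977595630382401383520362796548096
/-- second summands -/
def R' : ℕ → Rt chevE6 := rt 1723222019391492559455963485122009983104934734966766829568

theorem flt : Flt symE6 (fun _ => 1) I ρ 24 :=
  ⟨by decide +kernel, by decide +kernel, by decide +kernel, by decide +kernel, by decide +kernel⟩

theorem cmm : ∀ r s, 0 < I r → 0 < I s → s ≠ ng r ∧
    ∀ c ∈ chevE6.commTerms r s, ((0 : ℕ) : ℤ) ∣ c.2.1 ∨ ∀ h : c.1 < chevE6.nroots, I s < I ⟨c.1, h⟩ := by decide +kernel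

set_option synthInstance.maxSize 2000 in
theorem pair : ∀ k < 24, ∀ j ≤ k, mn symE6 (fun _ => 1) (ν j k) (ρ j) = 0 ∧ Sm 2 1 (mn symE6 (fun _ => 1) (ν j k) (ρ k)) ∨
    j = k ∧ mn symE6 (fun _ => 1) (ν k k) (ρ k) = (1, 0) ∨ (j, k) ∈ L := by decide +kernel

theorem spec : ∀ v ∈ L, v.1 = v.2 ∧ ∃ C ∈ [(1 : ℤ), -1], C * C = 1 ∧ symE6.p (ρ v.2) = ρ v.2 ∧ symE6.p (R v.2) = R v.2 ∧
    symE6.p (R' v.2) = R' v.2 ∧ v.2 < I (ρ v.2) ∧ (R' v.2 ≠ R v.2 ∧ R' v.2 ≠ ng (R v.2) ∧
      chevE6.commTerms (R v.2) (R' v.2) = [((ρ v.2 : ℕ), C, 1, 1)]) ∧ (R v.2 ≠ ρ v.2 ∧ R v.2 ≠ ng (ρ v.2) ∧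
      chevE6.commTerms (ρ v.2) (R v.2) = []) ∧ R' v.2 ≠ ρ v.2 ∧ R' v.2 ≠ ng (ρ v.2) ∧
      chevE6.commTerms (ρ v.2) (R' v.2) = [] := by decide +kernel

variable {K : Type*} [Field K] [Fintype K] {q p : ℕ} (hq : IsPrimePow q) (hK : Fintype.card K = q ^ 2) (h2 : q ≠ 2)
include hq hK h2

theorem not_dvd (hp : p.Prime) [CharP K p] : ¬ p ∣ Nat.card (Mult (twistedE6 K q)) := by
  obtain ⟨C⟩ := exists_CE6 hq hK
  have h3 : 3 ≤ q := by have := hq.two_le; omega
  have h4 : p ∣ q := hp.dvd_of_dvd_pow (hK ▸ (CharP.cast_eq_zero_iff K p _).1 (FiniteField.cast_card_eq_zero K))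
  have h5 := card_twE6 hq hK
  have h6 := card_U_twE6 hq hK
  rw [C.eq_Fx] at h5 h6 ⊢
  have : Finite C.T.Fx := C.eq_Fx ▸ inferInstance
  refine not_dvd_mult' hp (UI C.T I 0) (nd_index (by rw [card_UI (by decide +kernel), h6, h5]; simp only [mul_assoc]; rfl)
    (by simp only [hp.dvd_mul, nd_sub hp h4 hq.pos, nd_add hp h4, or_self, not_false_eq_true])) fun E _ _ π hπ _ =>
    Sp.comm hπ (sp_flt hp flt (cmm_of 0 (by simp) cmm) gl_R3 (exists_torT gl_R3 (w := fun _ => 1)
      (by simpa using C.φ_pow) (by decide +kernel) fun _ a => Units.ext (by simpa [C.hψ, pow_mul] using C.ψψ a))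
      (by rw [Nat.card_eq_fintype_card, hK]; nlinarith) (fun v hv e => ?_) ν L (by decide +kernel) pair
      (fun v hv => ?_) hπ)
  · obtain ⟨m, n⟩ := v
    obtain ⟨h1, h2, h0⟩ := hv
    have h7 : (3 : ℤ) ≤ q := by exact_mod_cast h3
    simp only [abs_le, Nat.card_eq_fintype_card, hK, Nat.cast_pow] at h1 h2 e
    have h8 := Int.eq_zero_of_abs_lt_dvd e (abs_lt.2 ⟨by nlinarith, by nlinarith⟩)
    obtain rfl : n = 0 := by
      by_contra k
      rcases (show n = 1 ∨ n = -1 by omega) with rfl | rfl <;> omega
    exact h0 (Prod.ext (by simpa using h8) rfl)
  · obtain ⟨e, c, -, h1, h2⟩ := spec v hv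
    rw [e]; exact spec_fix (fun _ => C.φ_fix) h1 h2

omit h2 in
theorem dvd_card (hp : p.Prime) [CharP K p] : Nat.gcd 3 (q + 1) ∣ Nat.card (Mult (twistedE6 K q)) := by
  obtain ⟨C⟩ := exists_CE6 hq hK
  let S := stSys chevE6 K
  have : Finite (chevE6.SteinbergGroup K) := finite_st
  let ξ := S.θ.subgroupComap (twistedE6 K q)
  have h0 : ∀ x, ξ x = 1 → x.1 ∈ center _ := fun x hx => (S.ker_θ st_grp).le (congrArg Subtype.val hx)
  have hξ : CExt ξ := ⟨fun y => let ⟨a, e⟩ := S.θG_surjective st_grp ⟨y, by rw [group_eq]; exact C.isTw.le_grp y.2⟩
    ⟨⟨a, show S.θ a ∈ _ from (congrArg Subtype.val e : S.θ a = y) ▸ y.2⟩, Subtype.ext (congrArg Subtype.val e :)⟩,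
    fun x hx => mem_center_iff.2 fun y => Subtype.ext (mem_center_iff.1 (h0 x hx) y)⟩
  have hc : CK p ξ := ⟨hξ.cent, fun z hz ⟨n, e⟩ => by
    obtain ⟨k, -, hk⟩ := FiniteField.card K p
    have h1 : ∀ m, z ^ Fintype.card K ^ m = z := fun m => by
      induction m with
      | zero => simp
      | succ m ih => rw [pow_succ, pow_mul, ih]; exact Subtype.ext (st_R3.pow_card (S.center_le_H st_grp (h0 z hz)))
    rw [← h1 n, hk, pow_right_comm, ← Nat.succ_pred k.ne_zero, pow_succ', pow_mul, e, one_pow]⟩
  have px : ∀ r t, PE p (S.x r t) := fun r t => (em (Pos r)).elim (fun h => pe_XS hp uni_pos (S.x_mem h t))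
    fun h => pe_XS hp uni_neg (S.x_mem h t)
  have h1 : ∀ {r s : Rt chevE6}, ((r : ℕ), (s : ℕ)) ∈ [(e6p1, e6p6), (e6m1, e6m6), (e6p3, e6p5), (e6m3, e6m5)] →
      (∀ t u, Commute (S.x r t) (S.x s u)) → ∀ t, S.x r t * S.x s (C.ψ t) ∈ (commutator _).map
        ((twistedE6 K q).comap S.θ).subtype := fun {r s} h h' t =>
    ⟨⟨S.x r t * S.x s (C.ψ t), mem_comap.2 (by rw [map_mul, S.θ_x, S.θ_x]; exact C.two_mem h t)⟩, hc.lf_le hp (S := ⊤) (by
      rw [_root_.commutator_def, map_commutator, map_top_of_surjective _ hξ.surj]; exact (perfect_twE6 hq hK).ge)
      (mem_lf (((px _ _).mul (px _ _) (h' _ _)).imp fun _ => Subtype.ext) trivial), rfl⟩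
  have h2 : ∀ c ∈ Tσ (F := K) symE6 (fun _ => q) ⊓ (pw Kˣ (cartanM chevE6)).ker, ∃ y ∈ commutator
      ((twistedE6 K q).comap S.θ), y.1 = st_R3.hT c := fun c hc => by
    obtain ⟨-, k1, -, k3, -⟩ := (mem_ker_E6 c).1 hc.2
    obtain ⟨k5, -, k4, -⟩ := (mem_Tσ_E6 c).1 hc.1
    have e : c = Pi.mulSingle (nE6 2) (c (nE6 2)) * Pi.mulSingle (nE6 4) (c (nE6 2) ^ q) *
        (Pi.mulSingle (nE6 0) (c (nE6 0)) * Pi.mulSingle (nE6 5) (c (nE6 0) ^ q)) := by
      funext i
      fin_cases i
      all_goals simp [Pi.mulSingle_apply, Fin.ext_iff]
      exacts [rfl, k1, rfl, k3, k4, k5]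
    rw [e]
    simp only [map_mul, R3.hT_mulSingle, Units.val_pow_eq_pow_val, ← C.hψ]
    exact mul_mem (so2_E6.h_mem S C.ψ (h1 (by decide +kernel) (so2_E6.x S)) (h1 (by decide +kernel) (so2_E6.x' S)) _)
      (so3_E6.h_mem S C.ψ (h1 (by decide +kernel) (so3_E6.x S)) (h1 (by decide +kernel) (so3_E6.x' S)) _)
  rw [← card_Z_E6 hq.pos hK]
  refine (card_dvd_of_injective (((st_R3.hT.comp (Subgroup.subtype _)).codRestrict _ fun c => let ⟨y, _, e⟩ := h2 c.1 c.2
    (show st_R3.hT c.1 ∈ _ from e ▸ y.2)).codRestrict (skr ξ) fun c => let ⟨y, h, e⟩ := h2 c.1 c.2
      ⟨Subtype.ext ((st_R3.θ_hT_eq_one c.1).2 c.2.2), (congrArg (· ∈ _root_.commutator _) (Subtype.ext e)).mp h⟩) fun a b e => Subtype.ext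
        ((MonoidHom.ker_eq_bot_iff _).1 (ker_st_E6 K) (congrArg (·.1.1) e))).trans (card_skr_dvd_mult hξ)

theorem has : HasCyclicSchurMultiplier (twistedE6 K q) (Nat.gcd 3 (q + 1)) := by
  obtain ⟨p, _, -, hp, -⟩ := FiniteField.card' K
  obtain ⟨C⟩ := exists_CE6 hq hK
  have h := card_mult_E6 hp C hq.pos hK (not_dvd hq hK h2 hp)
  exact has_of_card_mult (Nat.dvd_antisymm h (dvd_card hq hK hp))
    (isCyclic_of_card_dvd_prime (p := 3) (h.trans (Nat.gcd_dvd_left _ _)))

end Cfsg.Agent.Mult.E6
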