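import Mathlib
import Cfsg.Agent.Mult.LT
import Cfsg.Agent.Mult.SL
import Cfsg.Agent.Mult.Sp1
import Cfsg.Agent.Orth.Exc3
import Cfsg.Agent.Orth.Fix
import Cfsg.Agent.Orth.Wall

/-! Orthogonal groups as polar groups; the `p'`-part of the multiplier. -/

set_option autoImplicit false
set_option linter.unusedSectionVars false

namespace Cfsg.Agent.Mult.Om
open Subgroup MulAction Cfsg.Agent.H2.Schur Function Module Cfsg.Agent.Orth QuadraticMap
open Submodule (span)
open scoped commutatorElement MatrixGroups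

universe u v

variable {F V : Type u} [Field F] [AddCommGroup V] [Module F V] {Q : QuadraticForm F V}
  [FiniteDimensional F V]

variable (Q) in
/-- room in the perpendicular space -/
def Rm (S : Set V) (k : ℕ) : Prop :=
  finrank F (span F S) + finrank F (span F S ⊓ perp Q (span F S) : Submodule F V) ≤ k

theorem Rm.two (u v : V) : Rm Q {u, v} 4 := by
  have := finrank_span_pair_le (F := F) u v
  have := Submodule.finrank_mono (inf_le_left (a := span F {u, v}) (b := perp Q (span F {u, v})))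
  unfold Rm; omega

theorem Rm.one (u : V) : Rm Q {u} 2 := by
  have : finrank F (span F {u}) ≤ 1 := by simpa using finrank_span_le_card (R := F) {u}
  have := Submodule.finrank_mono (inf_le_left (a := span F {u}) (b := perp Q (span F {u})))
  unfold Rm; omega

theorem Rm.zero : Rm Q ∅ 0 := by simp [Rm]

theorem Rm.pair {S : Set V} {k : ℕ} (h : Rm Q S k) {w y : V} (h1 : ∀ s ∈ S, polar Q s w = 0 ∧ polar Q s y = 0)
    (h2 : polar Q w w = 0) (h3 : polar Q w y ≠ 0) : Rm Q (insert w (insert y S)) (k + 2) := by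
  have e : span F (insert w (insert y S)) = span F {w, y} ⊔ span F S := by
    rw [← Submodule.span_union]; congr 1; ext; simp [or_assoc]
  have := finrank_span_pair_le (F := F) w y
  have := Submodule.finrank_add_le_finrank_add_finrank (span F {w, y}) (span F S)
  have := Submodule.finrank_mono (show (span F {w, y} ⊔ span F S) ⊓ perp Q (span F {w, y} ⊔ span F S) ≤
      span F S ⊓ perp Q (span F S) from fun x ⟨k1, k2⟩ => by
    rw [perp_sup] at k2
    obtain ⟨_, k3, s, hs, rfl⟩ := Submodule.mem_sup.1 k1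
    obtain ⟨a, b, rfl⟩ := Submodule.mem_span_pair.1 k3
    have k4 := mem_perp.1 (mem_perp_span.2 fun s hs => (h1 s hs).1) s hs
    have k5 := mem_perp.1 (mem_perp_span.2 fun s hs => (h1 s hs).2) s hs
    obtain ⟨k6, k7⟩ := mem_perp_pair.1 k2.1
    obtain rfl : b = 0 := by simpa [h2, h3, polar_comm Q w s, k4] using k6
    obtain rfl : a = 0 := by simpa [h3, polar_comm Q y, k5] using k7
    exact ⟨by simpa using hs, k2.2⟩)
  unfold Rm at *; rw [e]; omega

variable (hQ : ND Q)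
include hQ

theorem Rm.compl {S : Set V} {k : ℕ} (h : Rm Q S k) : ∃ C : Submodule F V,
    (∀ x ∈ C, ∀ s ∈ S, polar Q s x = 0) ∧ ND (Q.restrict C) ∧ finrank F V ≤ k + finrank F C := by
  obtain ⟨D, hD⟩ := (span F S ⊓ perp Q (span F S)).exists_isCompl
  have e : perp Q (span F S) = (span F S ⊓ perp Q (span F S)) ⊔ D ⊓ perp Q (span F S) := by
    rw [← sup_inf_assoc_of_le _ inf_le_right, hD.sup_eq_top, top_inf_eq]
  refine ⟨D ⊓ perp Q (span F S), fun x hx => mem_perp_span.1 hx.2, (nd_restrict_iff _).2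
    (eq_bot_iff.2 fun x hx => hD.disjoint.le_bot ⟨⟨?_, hx.1.2⟩, hx.1.1⟩), ?_⟩
  · rw [← hQ.perp_perp (span F S), e, perp_sup]
    exact ⟨perp_anti inf_le_left hx.1.2, hx.2⟩
  · have := Submodule.finrank_add_le_finrank_add_finrank (span F S ⊓ perp Q (span F S)) (D ⊓ perp Q (span F S))
    have := hQ.finrank_perp_add (span F S)
    rw [← e] at *
    unfold Rm at h; omega

theorem Rm.ns {S : Set V} {k : ℕ} (h : Rm Q S k) (hn : k + 1 ≤ finrank F V) :
    ∃ b, Q b ≠ 0 ∧ ∀ s ∈ S, polar Q s b = 0 := by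
  obtain ⟨C, h1, h2, h3⟩ := h.compl hQ
  have := Module.nontrivial_of_finrank_pos (R := F) (M := C) (by omega)
  obtain ⟨b, hb⟩ := h2.exists_nonsingular
  exact ⟨b, hb, h1 b b.2⟩

variable [Finite F]

theorem Rm.val {S : Set V} {k : ℕ} (h : Rm Q S k) (hn : k + 2 ≤ finrank F V) (c : F) :
    ∃ b, Q b = c ∧ ∀ s ∈ S, polar Q s b = 0 := by
  obtain ⟨C, h1, h2, h3⟩ := h.compl hQ
  obtain ⟨b, hb⟩ := h2.exists_Q_eq (by omega) c
  exact ⟨b, hb, h1 b b.2⟩

theorem Rm.hyp {S : Set V} {k : ℕ} (h : Rm Q S k) (hn : k + 3 ≤ finrank F V) :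
    ∃ w y, Q w = 0 ∧ Q y = 0 ∧ polar Q w y = 1 ∧ ∀ s ∈ S, polar Q s w = 0 ∧ polar Q s y = 0 := by
  obtain ⟨C, h1, h2, h3⟩ := h.compl hQ
  obtain ⟨w, h4, h5⟩ := exists_singular (Q.restrict C) (by omega)
  obtain ⟨y, h6, h7⟩ := h2.exists_hyp h4 h5
  exact ⟨w, y, h5, h7, h6, fun s hs => ⟨h1 w w.2 s hs, h1 y y.2 s hs⟩⟩

omit hQ in
theorem sing_ind {Y : Submodule F V} {r r' : V} (h1 : r ∈ Y) (h2 : r' ∈ Y) (h3 : Q r = 0) (h4 : polar Q r r' ≠ 0)
    {P : V → Prop} (k1 : ∀ v ∈ Y, Q v = 0 → P v) (k2 : ∀ v ∈ Y, ∀ w ∈ Y, P v → P w → P (v + w)) :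
    ∀ v ∈ Y, P v := by
  have k : ∀ v ∈ Y, polar Q r v ≠ 0 → P v := fun v hv h => by
    have := k2 _ (sub_mem hv (Y.smul_mem (Q v / polar Q r v) h1)) _ (Y.smul_mem (Q v / polar Q r v) h1)
      (k1 _ (sub_mem hv (Y.smul_mem _ h1)) (by simp [q_sub, q_smul, h3, polar_comm Q v, h]))
      (k1 _ (Y.smul_mem _ h1) (by simp [q_smul, h3]))
    simpa using this
  intro v hv
  by_cases h : polar Q r v = 0
  · simpa using k2 _ (sub_mem hv h2) _ h2 (k _ (sub_mem hv h2) (by simp [h, h4])) (k _ h2 h4)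
  · exact k v hv h

section
variable {G : Type*} [Group G] [DistribMulAction G V] [SMulCommClass G F V] [FaithfulSMul G V]
  {ι : G →* OG Q} (hs : ∀ (g : G) (x : V), g • x = (ι g).1 x) {ε : V → V → G} (hε : ∀ u v, ι (ε u v) = eich Q u v)
omit hQ
include hs hε

theorem eich_mem (u v : V) : ε u v ∈ QU G Q.polarBilin Q u := by
  by_cases h : Q u = 0 ∧ polar Q u v = 0
  · exact ⟨fun k => eq_of_smul_eq_smul fun x : V => by
      obtain rfl : u = 0 := by simpa [h.1] using k
      simp [hs, hε], by rw [hs, hε, eich_apply_left h.1 h.2], fun x hx =>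
      ⟨polar Q v x, by simp_all [eich_apply h.1 h.2]⟩⟩
  · rw [show ε u v = 1 from eq_of_smul_eq_smul fun x : V => by simp [hs, hε, eich_of_not h]]
    exact one_mem _

theorem pol : Pol G Q.polarBilin Q :=
  ⟨fun u u' y h => by simpa [polar_comm Q y] using h, fun g u v => by simp [hs], fun g u => by simp [hs],
    fun u h => by simp [h], fun u c h => by simp [q_smul, h], fun v w h => by simpa [q_add] using h,
    fun u y y' h1 h2 h3 h4 h5 => by
      obtain ⟨w, -, k⟩ := eich_trans_opp h1 h3 h2 (h4 ▸ h5 :) h5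
      exact ⟨_, eich_mem hs hε u w, by
        rw [hs, hε, k, show polar Q u y = _ from h4, polarBilin_apply_apply,
          div_self (show polar Q u y' ≠ 0 from (h4 ▸ h5 :)), one_smul]⟩⟩

include hQ in
theorem QU_form {e : V} (he : Q e = 0) {g : G} (h : g ∈ QU G Q.polarBilin Q e) :
    ∃ v, polar Q e v = 0 ∧ g = ε e v := by
  by_cases h0 : e = 0
  · exact ⟨0, by simp, (h.1 (by simp [h0])).trans (eq_of_smul_eq_smul fun x : V => by simp [hs, hε])⟩
  obtain ⟨f, hf, hf'⟩ := hQ.exists_hyp h0 he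
  have k0 : polar Q e (g • f) = 1 := ((pol hs hε).QU_b h f).trans hf
  obtain ⟨v, h1, h2⟩ := eich_trans_opp he (show Q (g • f) = 0 by simp [hs, hf']) hf' (by simp [k0]) (by simp [hf])
  exact ⟨v, h1, (inv_mul_eq_one.1 ((pol hs hε).QU_eq_one (mul_mem (inv_mem (eich_mem hs hε e v)) h) (y := f)
    (by simp [hf]) (by rw [mul_smul, inv_smul_eq_iff, hs (ε e v), hε, h2, k0, hf, div_one, one_smul]))).symm⟩

end

omit hQ in
theorem mem₀ (u v : V) : eich Q u v ∈ QU (OG Q) Q.polarBilin Q u :=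
  eich_mem (ι := .id _) (fun _ _ => rfl) (ε := eich Q) (fun _ _ => rfl) u v

omit hQ in
theorem pol₀ : Pol (OG Q) Q.polarBilin Q := pol (ι := .id _) (fun _ _ => rfl) (ε := eich Q) fun _ _ => rfl

theorem form₀ {e : V} (he : Q e = 0) {g : OG Q} (h : g ∈ QU (OG Q) Q.polarBilin Q e) :
    ∃ v, polar Q e v = 0 ∧ g = eich Q e v :=
  QU_form hQ (ι := .id _) (fun _ _ => rfl) (ε := eich Q) (fun _ _ => rfl) he h

theorem iSup_QU : ⨆ u, QU (OG Q) Q.polarBilin Q u = eichGroup Q :=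
  le_antisymm (iSup_le fun u g hg => by
    by_cases h : Q u = 0
    · obtain ⟨v, -, rfl⟩ := form₀ hQ h hg
      exact eich_mem_eichGroup _ _
    · rw [hg.1 fun k => h k.2]; exact one_mem _) ((closure_le _).2 (by
    rintro _ ⟨u, v, rfl⟩
    exact mem_iSup_of_mem u (mem₀ u v)))

omit hQ in
theorem pe_eich {p : ℕ} (hp : p.Prime) [CharP F p] (u v : V) : PE p (eich Q u v) :=
  pol₀.QU_pe hp (mem₀ u v)

theorem exists_emb {e f : V} (he : Q e = 0) (hf : Q f = 0) (h : polar Q e f = 1) :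
    ∃ φ : OG (Q.restrict (perp Q (span F {e, f}))) →* OG Q, Injective φ ∧
      (∀ g, (φ g).1 e = e ∧ (φ g).1 f = f) ∧ (∀ g x, (φ g).1 x.1 = (g.1 x).1) ∧
      ∀ u v, φ (eich _ u v) = eich Q u v := by
  have hc := hQ.isCompl_perp (hyp_inf_perp he hf h)
  have k1 : ∀ g x, x ∈ span F {e, f} → (sumHom (splitIso hc) (1, g)).1 x = x := fun g x hx => by
    simpa using sumHom_apply (splitIso hc) (1, g) ⟨x, hx⟩ 0
  have k2 : ∀ g x, (sumHom (splitIso hc) (1, g)).1 x.1 = (g.1 x).1 := fun g x => by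
    simpa using sumHom_apply (splitIso hc) (1, g) 0 x
  refine ⟨(sumHom (splitIso hc)).comp (.inr _ _), (sumHom_injective _).comp (Prod.mk_right_injective _),
    fun g => ⟨k1 g e (Submodule.subset_span (by simp)), k1 g f (Submodule.subset_span (by simp))⟩, k2,
    fun u v => ?_⟩
  by_cases k : Q u = 0 ∧ polar Q u.1 v.1 = 0
  swap
  · rw [eich_of_not k, eich_of_not (by simpa using k), map_one]
  refine sum_ext (splitIso hc) fun x y => ?_
  have := mem_perp'.1 u.2 x x.2
  have := mem_perp'.1 v.2 x x.2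
  simp only [splitIso_apply, map_add, MonoidHom.comp_apply, MonoidHom.inr_apply, k1 _ _ x.2, k2]
  rw [eich_apply (Q := Q.restrict _) k.1 k.2, eich_apply k.1 k.2, eich_apply k.1 k.2]
  simp [*]

theorem exists_sing_one (h6 : 6 ≤ finrank F V) {a b c u : V} (ha : Q a = 0) (hb : Q b = 0) (h : polar Q a b ≠ 0)
    (h1 : polar Q u a = 1) (h2 : polar Q u b = 1) (h3 : polar Q u c = 1) :
    ∃ u, Q u = 0 ∧ polar Q u a = 1 ∧ polar Q u b = 1 ∧ polar Q u c = 1 := by
  let pr : V → V := fun x => x - (polar Q b x / polar Q a b) • a - (polar Q a x / polar Q a b) • b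
  have k1 : ∀ x, polar Q a (pr x) = 0 ∧ polar Q b (pr x) = 0 := fun x => by
    simp [pr, ha, hb, h, polar_comm Q b a]
  have k2 : ∀ S u, Rm Q S 4 → a ∈ S → b ∈ S → pr c ∈ S → u ∈ span F S → polar Q u a = 1 → polar Q u b = 1 →
      polar Q u c = 1 → ∃ u, Q u = 0 ∧ polar Q u a = 1 ∧ polar Q u b = 1 ∧ polar Q u c = 1 :=
    fun S u k l1 l2 l3 l4 l5 l6 l7 => by
    obtain ⟨x, m1, m2⟩ := k.val hQ h6 (-Q u)
    have m3 := m2 _ l3
    simp only [pr, polar_sub_left, polar_smul_left, m2 _ l1, m2 _ l2, smul_zero, sub_zero] at m3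
    exact ⟨u + x, by rw [q_add, m1, mem_perp.1 (mem_perp_span.2 m2) u l4]; simp,
      by simp [polar_comm Q x, m2 _ l1, m2 _ l2, m3, *]⟩
  have k3 : ∀ t : F, polar Q (pr u) (pr c) = t * polar Q (pr c) (pr c) →
      ∃ u, Q u = 0 ∧ polar Q u a = 1 ∧ polar Q u b = 1 ∧ polar Q u c = 1 := fun t ht => by
    have m1 : ∀ x, polar Q (pr x) (pr c) = polar Q (pr x) c := fun x => by
      change polar Q (pr x) (_ - _ - _) = _
      simp only [polar_sub_right, polar_smul_right, polar_comm Q (pr x) a, polar_comm Q (pr x) b, k1]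
      simp
    refine k2 _ (u - pr u + t • pr c) ((Rm.one (pr c)).pair (w := a) (y := b)
      (by simp [polar_comm Q (pr c), k1]) (by simp [ha]) h) (by simp) (by simp) (by simp)
      (add_mem ?_ (Submodule.smul_mem _ _ (Submodule.subset_span (by simp)))) ?_ ?_ ?_
    · rw [show u - pr u = (polar Q b u / polar Q a b) • a + (polar Q a u / polar Q a b) • b by simp only [pr]; abel]
      exact add_mem (Submodule.smul_mem _ _ (Submodule.subset_span (by simp)))
        (Submodule.smul_mem _ _ (Submodule.subset_span (by simp)))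
    · simp [polar_comm Q (pr _) a, k1, h1]
    · simp [polar_comm Q (pr _) b, k1, h2]
    · simp [← m1, h3, ht]
  by_cases c1 : polar Q (pr c) (pr c) ≠ 0
  · exact k3 _ (div_mul_cancel₀ _ c1).symm
  by_cases c2 : polar Q (pr u) (pr c) = 0
  · exact k3 0 (by simp [c2])
  refine k2 _ u (((Rm.zero.pair (w := a) (y := b) (by simp) (by simp [ha]) h).pair (w := pr c) (y := pr u))
    (by simp [k1]) (not_not.1 c1) (by rwa [polar_comm])) (by simp) (by simp) (by simp) ?_ h1 h2 h3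
  nth_rw 2 [show u = pr u + ((polar Q b u / polar Q a b) • a + (polar Q a u / polar Q a b) • b) by
    simp only [pr]; abel]
  exact add_mem (Submodule.subset_span (by simp)) (add_mem (Submodule.smul_mem _ _ (Submodule.subset_span (by simp)))
    (Submodule.smul_mem _ _ (Submodule.subset_span (by simp))))

/-- the order of the kernel of the spin cover -/
noncomputable def kk (F : Type u) [Field F] : ℕ := by classical exact if (2 : F) = 0 then 1 else 2

variable (Q) in
/-- the inductive claim -/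
structure OK (p : ℕ) : Prop where
  pg : PG p (commutator (OG Q))
  pb : PB.{u} p (commutator (OG Q)) (kk F)
  mem : ∀ u v, eich Q u v ∈ commutator (OG Q)

theorem ok_step {p : ℕ} (hp : p.Prime) [CharP F p] (h6 : 6 ≤ finrank F V) {e f : V} (he : Q e = 0) (hf : Q f = 0)
    (h : polar Q e f = 1) (H : OK (Q.restrict (perp Q (span F {e, f}))) p) : OK Q p := by
  have h0 := hQ.commutator_eq_eichGroup (good_of_five_le (by omega)) (by omega)
  refine ⟨h0 ▸ fun K k => (closure_le _).2 ?_, ?_, fun u v => h0 ▸ eich_mem_eichGroup u v⟩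
  · rintro _ ⟨u, v, rfl⟩
    exact k _ (eich_mem_eichGroup u v) (pe_eich hp u v)
  have := Module.finite_of_finite F (M := V)
  obtain ⟨φ, h1, h2, h3, h4⟩ := exists_emb hQ he hf h
  rw [h0, ← iSup_QU hQ]
  refine pol₀.pb hp (fun a b c ha hb hc k1 k2 k3 => ?_)
    (fun a b c k1 k2 => ?_) (fun y y' u u' k1 k2 k3 k4 k5 k6 k7 k8 k9 _ _ => ?_) he (f := f) (by simp [h]) h1 h2 H.pg
    (by rw [iSup_QU hQ, ← h0, map_le_iff_le_comap]; exact fun g => Orth.map_mem_commutator φ) (fun u g k1 k2 => ?_) H.pb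
  · obtain ⟨φ, k⟩ := exists_dual_three k1 k2 k3
    obtain ⟨u, hu⟩ := hQ.exists_polar_eq φ
    simp only [← hu, polarBilin_apply_apply] at k ⊢
    by_cases c1 : polar Q a b ≠ 0
    · exact exists_sing_one hQ h6 ha hb c1 k.1 k.2.1 k.2.2
    by_cases c2 : polar Q a c ≠ 0
    · obtain ⟨u, k⟩ := exists_sing_one hQ h6 ha hc c2 k.1 k.2.2 k.2.1
      exact ⟨u, k.1, k.2.1, k.2.2.2, k.2.2.1⟩
    by_cases c3 : polar Q b c ≠ 0
    · obtain ⟨u, k⟩ := exists_sing_one hQ h6 hb hc c3 k.2.1 k.2.2 k.1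
      exact ⟨u, k.1, k.2.2.2, k.2.1, k.2.2.1⟩
    exact ⟨u - Q u • a, by simp [q_sub, q_smul, ha, k.1], by simp_all⟩
  · by_contra! k
    exact span_three_ne_top (by omega) a b c (eq_top_iff.2 fun x _ =>
      hQ.singular_induction k1 k2 (· ∈ span F {a, b, c}) k (fun _ _ => add_mem) x)
  · simp only [polarBilin_apply_apply] at k5 k6 k7 k8 k9
    have l1 : Q ((polar Q y y')⁻¹ • y') = 0 := by simp [q_smul, k2]
    have l2 : polar Q y ((polar Q y y')⁻¹ • y') = 1 := by simp [k9]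
    obtain ⟨ψ, -, l3, l4, l5⟩ := exists_emb hQ k1 l1 l2
    have l6 := hQ.finrank_perp_hyp k1 l1 l2
    have l7 : ∀ u, Q u = 0 → polar Q u y = 1 → polar Q u y' = 1 → Q (u - polar Q ((polar Q y y')⁻¹ • y') u • y -
        polar Q y u • (polar Q y y')⁻¹ • y') = -(polar Q y y')⁻¹ := fun u a b c => by
      simp [q_sub, q_smul, polar_comm Q y u, polar_comm Q y' u, *]
    obtain ⟨g, l8, l9⟩ := (hQ.nd_perp_hyp k1 l1 l2).eichGroup_trans (by omega) (u := ⟨_, hyp_proj_mem k1 l1 l2 u⟩)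
      (u' := ⟨_, hyp_proj_mem k1 l1 l2 u'⟩) ((l7 u k3 k5 k6).trans_ne (by simpa)) ((l7 u k3 k5 k6).trans (l7 u' k4 k7 k8).symm)
    have m1 : ∀ g, (ψ g).1 y' = y' := fun g => by simpa [k9] using (l3 g).2
    refine ⟨ψ g, (show eichGroup _ ≤ (K2 _ _ _ y y').comap ψ from (closure_le _).2 ?_) l8, ?_⟩
    · rintro _ ⟨a, b, rfl⟩
      exact mem_K2 (l5 a b ▸ mem₀ _ _) (l3 _).1 (m1 _)
    · have := (l4 g _).trans (congrArg Subtype.val l9)
      simpa [m1, (l3 g).1, polar_comm Q y u, polar_comm Q y' u, polar_comm Q y u', polar_comm Q y' u', k5, k6, k7, k8,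
        OG.smul_def] using this
  by_cases c1 : u ≠ 0 ∧ Q u = 0
  swap
  · rw [k1.1 c1]; exact one_mem _
  obtain ⟨v, k3, rfl⟩ := form₀ hQ c1.2 k1
  rw [OG.smul_def, eich_apply c1.2 k3, add_sub_assoc, add_eq_left, sub_eq_zero] at k2
  by_cases c2 : polar Q u e = 0
  swap
  · rw [← inv_smul_smul₀ c2 v, ← k2, smul_smul, eich_smul_self c1.2]; exact one_mem _
  have c3 : polar Q v e = 0 := by simpa [c2, c1.1] using k2
  have l1 := hyp_proj_mem he hf h u
  have l2 := hyp_proj_mem he hf h v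
  simp only [polar_comm Q e, c2, c3, zero_smul, sub_zero] at l1 l2
  have l3 : Q (u - polar Q f u • e) = 0 := by simp [q_sub, q_smul, he, c1.2, c2]
  have l4 : polar Q (u - polar Q f u • e) (v - polar Q f v • e) = 0 := by simp [he, c2, k3, polar_comm Q e, c3]
  rw [← mul_inv_cancel_left (φ (eich _ ⟨_, l1⟩ ⟨_, l2⟩)) (eich Q u v), sup_comm]
  refine mul_mem_sup ⟨_, H.mem _ _, rfl⟩ ⟨fun k => (k ⟨by rintro rfl; simp at h, he⟩).elim, ?_, fun x hx => ?_⟩
  · rw [mul_smul, inv_smul_eq_iff, OG.smul_def, OG.smul_def, (h2 _).1, eich_apply_of_orth c1.2 k3 c2 c3]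
  · simp only [mul_smul, inv_smul_eq_iff, OG.smul_def (φ _), map_add, map_smul, (h2 _).1]
    simp only [h4, OG.smul_def, eich_apply c1.2 k3, eich_apply l3 l4]
    simp only [polarBilin_apply_apply] at hx
    exact ⟨polar Q f u * (polar Q v x - Q v * polar Q u x) - polar Q f v * polar Q u x, by
      simp only [hx, q_sub, q_smul, he, c3, polar_sub_left, polar_smul_left, polar_smul_right]; module⟩

omit hQ in
theorem ok_of_spin {p : ℕ} (hp : p.Prime) {H : Type v} [Group H] [Finite H] (h : Spin H Q) (h1 : PG p (⊤ : Subgroup H))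
    (h2 : PB.{max v u} p (⊤ : Subgroup H) 1) (h3 : ∀ u v, eich Q u v ∈ commutator (OG Q)) : OK Q p := by
  obtain ⟨-, φ, z, k1, k2, k3⟩ := h
  refine ⟨by simpa [← k1, MonoidHom.range_eq_map] using h1.map φ, fun E _ _ π a b => ?_, h3⟩
  refine (k1 ▸ PB.cover.{u} hp h2 φ E π a (k1 ▸ b)).trans ?_
  have := card_ker_le φ z k2
  have := Nat.card_pos (α := φ.ker)
  unfold kk
  split_ifs with c
  · rw [(MonoidHom.ker_eq_bot_iff _).2 ((injective_iff_map_eq_one _).2 fun x k => by simpa [k3 c] using k2 x k)]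
    simp
  · rcases (show Nat.card φ.ker = 1 ∨ Nat.card φ.ker = 2 by omega) with e | e <;> rw [e] <;> decide

omit hQ in
theorem pe_tr {ι K : Type*} [Field K] [Fintype ι] [DecidableEq ι] {p : ℕ} [CharP K p] {i j : ι} (h : i ≠ j) (t : K) :
    PE p (Pres.tr i j t) := by
  have h0 : Pres.tr i j (0 : K) = 1 := (Pres.slSt ι K).x_zero h
  have : ∀ n : ℕ, Pres.tr i j t ^ n = Pres.tr i j (n * t) := fun n => by
    induction n with
    | zero => simp [h0]
    | succ n ih => rw [pow_succ, ih, ← tr_add h]; simp [add_mul]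
  exact ⟨1, by simp [this, h0]⟩

omit hQ in
theorem pg_SL {ι K : Type*} [Field K] [Fintype ι] [DecidableEq ι] {p : ℕ} [CharP K p] :
    PG p (⊤ : Subgroup (Matrix.SpecialLinearGroup ι K)) := fun _ h =>
  (Pres.slSt_top fun _ _ t e => h _ trivial (pe_tr e t)).ge

omit hQ in
theorem pb_SL {ι K : Type*} [Field K] [Finite K] [Fintype ι] [DecidableEq ι] {p : ℕ} (hp : p.Prime) [CharP K p]
    (h : 3 ≤ Fintype.card ι) : PB.{v} p (⊤ : Subgroup (Matrix.SpecialLinearGroup ι K)) 1 :=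
  .of_spl fun E _ _ π hπ hs => by
  obtain ⟨s, h1, h2, h3⟩ := exists_add_lift hp hπ hs
  have c : ∀ {a b}, PE p a → PE p b → Commute a b → Commute (s a) (s b) := fun ha hb k => by
    rw [Commute, SemiconjBy, ← h2 _ _ ha hb k, ← h2 _ _ hb ha k.symm, k.eq]
  let S : Pres.StA ι K E := ⟨fun i j t => s (Pres.tr i j t), fun {i j} e t u => by
      rw [tr_add e, h2 _ _ (pe_tr e t) (pe_tr e u) (by rw [Commute, SemiconjBy, ← tr_add e, ← tr_add e, add_comm])],
    fun e1 e2 e3 e4 t u => c (pe_tr e1 t) (pe_tr e2 u) (tr_comm e1 e2 e3 e4 t u), fun {i j k} e1 e2 e3 t u => by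
      rw [← h3 _ _ (pe_tr e2 u), (h1 _ (pe_tr e1 t)).2, mul_inv_eq_iff_eq_mul,
        ← h2 _ _ (pe_tr e3 _) (pe_tr e2 _) (tr_comm e3 e2 e2.symm e3 _ _), ← tr_rel e1 e2 e3,
        commutatorElement_def, inv_mul_cancel_right]⟩
  obtain ⟨φ, hφ⟩ := S.exists_hom h
  refine ⟨φ, MonoidHom.eq_of_eqOn_top ?_⟩
  rw [← Pres.slSt_top (K := (π.comp φ).eqLocus (.id _)) fun i j t h => by
    change π (φ _) = _
    rw [hφ _ _ _ h]
    exact (h1 _ (pe_tr h t)).2]
  exact fun _ h => h

theorem isPlus_of_perp {e f : V} (he : Q e = 0) (hf : Q f = 0) (h : polar Q e f = 1)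
    (H : IsPlus (Q.restrict (perp Q (span F {e, f})))) : IsPlus Q :=
  let ⟨i⟩ := hQ.iso_hyp_perp he hf h
  (isPlus_prod ((isPlus_plusQ 1).of_iso (plusOne F).symm) H).of_iso i

omit hQ in
theorem ok {p : ℕ} (hp : p.Prime) [CharP F p] (n : ℕ) : ∀ {V : Type u} [AddCommGroup V] [Module F V]
    [FiniteDimensional F V] {Q : QuadraticForm F V}, ND Q → finrank F V = n → 5 ≤ n ∨ n = 4 ∧ ¬ IsPlus Q → OK Q p := by
  induction n using Nat.strong_induction_on with | _ n ih
  intro V _ _ _ Q hQ h1 h2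
  have := Fact.mk hp
  by_cases c1 : 7 ≤ n ∨ n = 6 ∧ ¬ IsPlus Q
  · obtain ⟨e, k1, k2⟩ := exists_singular Q (by omega)
    obtain ⟨f, k3, k4⟩ := hQ.exists_hyp k1 k2
    have := hQ.finrank_perp_hyp k2 k4 k3
    refine ok_step hQ hp (by omega) k2 k4 k3 (ih (n - 2) (by omega) (hQ.nd_perp_hyp k2 k4 k3) (by omega) ?_)
    exact c1.imp (by omega) fun k => ⟨by omega, fun k' => k.2 (isPlus_of_perp hQ k2 k4 k3 k')⟩
  by_cases c2 : n = 6
  · obtain ⟨i⟩ := hQ.iso_plusQ (by tauto) (m := 3) (by omega)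
    exact ok_of_spin hp (spin6p.congr (ogCongr i).symm) pg_SL (pb_SL hp (by simp))
      (hQ.eich_mem_commutator (good_of_five_le (by omega)))
  by_cases c3 : n = 5
  · have h2 : (2 : F) ≠ 0 := fun k => by
      have := hQ.symND.even_of_alt (polarBilin_isAlt k Q)
      rw [h1, c3] at this; exact absurd this (by decide)
    obtain ⟨i⟩ := hQ.og_equiv_odd (m := 2) (by omega)
    have e := Classical.SpMat.spEquiv (Fin 2) F
    have k1 := (Sp.pg (B := Classical.SpMat.sB (Fin 2) F) Classical.SpMat.sB_alt Classical.SpMat.sB_nondeg hp).map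
      e.symm.toMonoidHom
    have := Sp.finite_SG (B := Classical.SpMat.sB (Fin 2) F)
    have k2 := PB.cover.{u} hp (Sp.pb hp 1 (B := Classical.SpMat.sB (Fin 2) F) Classical.SpMat.sB_alt
      Classical.SpMat.sB_nondeg (by simp)) e.symm.toMonoidHom
    rw [MonoidHom.range_eq_top.2 e.symm.surjective, (MonoidHom.ker_eq_bot_iff _).2 e.symm.injective, card_bot] at k2
    rw [map_top_of_surjective _ e.symm.surjective] at k1
    exact ok_of_spin hp ((spin5 h2).congr i.symm) k1 k2 (hQ.eich_mem_commutator (good_of_five_le (by omega)))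
  have c4 : n = 4 ∧ ¬ IsPlus Q := h2.resolve_left (by omega)
  obtain ⟨z, hz⟩ := exists_aniso (F := F)
  obtain ⟨i⟩ := hQ.iso_minusQ c4.2 (m := 1) (by omega) hz
  have := Fintype.ofFinite F
  obtain ⟨k, -, hk⟩ := FiniteField.card F p
  refine ok_of_spin hp ((spin4m (K := GaloisField p (k * 2)) rfl (by
    rw [GaloisField.card _ _ (by simp), Nat.card_eq_fintype_card, hk, pow_mul]) hz).congr (ogCongr i).symm) pg_SL
    (pb_SL2 hp) fun u v => ?_
  by_cases c : Q u = 0 ∧ polar Q u v = 0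
  swap
  · rw [eich_of_not c]; exact one_mem _
  by_cases c' : Q v = 0
  swap
  · rw [eich_eq_refl_mul_refl c.1 c.2 c']
    exact hQ.refl_mul_refl_mem_commutator c' (q_sub_smul_eich c.1 c.2 _).symm
  by_cases c0 : u = 0
  · rw [c0, eich_zero_left]; exact one_mem _
  by_cases c5 : v ∈ span F {u}
  · obtain ⟨a, rfl⟩ := Submodule.mem_span_singleton.1 c5
    rw [eich_smul_self c.1]; exact one_mem _
  exact (c4.2 ⟨_, singular_of_mem_span_pair c.1 c' c.2, by
    rw [finrank_span_pair_eq (linearIndependent_pair_of_notMem c0 c5)]; omega⟩).elim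

end Cfsg.Agent.Mult.Om
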