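import Mathlib
import Cfsg.Agent.Mult.Om1

/-! Orthogonal groups: lifts of Eichler transformations commute. -/

set_option autoImplicit false
set_option linter.unusedSectionVars false

namespace Cfsg.Agent.Mult.Om
open Subgroup MulAction Cfsg.Agent.H2.Schur Function Module Cfsg.Agent.Orth QuadraticMap
open Submodule (span)
open scoped commutatorElement MatrixGroups

universe u

variable {F V : Type u} [Field F] [AddCommGroup V] [Module F V] {Q : QuadraticForm F V}
  [FiniteDimensional F V] [Finite F]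

variable (Q) in
/-- the hypotheses on dimension and field -/
structure Big : Prop where
  nd : ND Q
  seven : 7 ≤ finrank F V
  three : (∀ a : F, a ≠ 0 → a ^ 2 = 1) → 8 ≤ finrank F V
  two : (∀ a : F, a ≠ 0 → a = 1) → finrank F V = 8 → ¬ IsPlus Q

namespace Big
variable (H : Big Q)
include H

theorem good : Good F V := good_of_five_le (by have := H.seven; omega)

/-- Eichler transformations as elements of `Ω` -/
noncomputable def ee (u v : V) : commutator (OG Q) := ⟨eich Q u v, H.nd.eich_mem_commutator H.good u v⟩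

/-- squares as elements of `Ω` -/
noncomputable def sq (g : OG Q) : commutator (OG Q) := ⟨g * g, H.nd.sq_mem_commutator H.good g⟩

theorem sq_apply (g : OG Q) (x : V) : (H.sq g).1.1 x = g.1 (g.1 x) := rfl

theorem ee_coe (u v : V) : (H.ee u v).1 = eich Q u v := rfl

theorem ee_add {u v w : V} (hu : Q u = 0) (h : polar Q u v = 0) (h' : polar Q u w = 0) :
    H.ee u (v + w) = H.ee u v * H.ee u w := Subtype.ext (eich_mul hu h h').symm

theorem ee_conj (g : commutator (OG Q)) (u v : V) : g * H.ee u v * g⁻¹ = H.ee (g.1.1 u) (g.1.1 v) :=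
  Subtype.ext (eich_conj g.1 u v)

theorem ee_swap {u v : V} (hu : Q u = 0) (hv : Q v = 0) (h : polar Q u v = 0) : H.ee v u = H.ee u (-v) :=
  Subtype.ext (eich_swap hu hv h)

theorem ee_smul {u v : V} (hu : Q u = 0) (h : polar Q u v = 0) (a : F) : H.ee (a • u) v = H.ee u (a • v) :=
  Subtype.ext (eich_smul_left hu h a)

theorem ee_self {u : V} (hu : Q u = 0) (a : F) : H.ee u (a • u) = 1 := Subtype.ext (eich_smul_self hu a)

theorem ee_add_self {u v : V} (hu : Q u = 0) (h : polar Q u v = 0) (a : F) : H.ee u (v + a • u) = H.ee u v :=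
  Subtype.ext (eich_add_smul_self hu h a)

theorem ee_zero (u : V) : H.ee u 0 = 1 := Subtype.ext (eich_zero_right u)

theorem ee_zero' (u : V) : H.ee 0 u = 1 := Subtype.ext (eich_zero_left u)

theorem ee_sw {u v : V} (hu : Q u = 0) (hv : Q v = 0) (h : polar Q u v = 0) (t : F) :
    H.ee u (t • v) = H.ee v (-t • u) := by
  rw [← H.ee_smul hu h, H.ee_swap hv (by simp [q_smul, hu]) (by simp [polar_comm Q v, h]), neg_smul]

theorem comm_ee {g : commutator (OG Q)} {u v : V} (h : g.1.1 u = u) (h' : g.1.1 v = v) : Commute (H.ee u v) g := by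
  have := H.ee_conj g u v
  rw [h, h', mul_inv_eq_iff_eq_mul] at this
  exact this.symm

theorem ee_comm {u v w : V} (hu : Q u = 0) (h : polar Q u v = 0) (h' : polar Q u w = 0) :
    Commute (H.ee u v) (H.ee u w) := Subtype.ext (eich_comm hu h h')

theorem comm_eq {g : commutator (OG Q)} {u y : V} (hu : Q u = 0) (h : g.1.1 u = u) (h' : polar Q u y = 0) :
    ⁅g, H.ee u y⁆ = H.ee u (g.1.1 y - y) := by
  have : polar Q u (g.1.1 y) = 0 := by rw [← h, OG.map_polar, h']
  rw [commutatorElement_def, H.ee_conj, h, mul_inv_eq_iff_eq_mul, ← H.ee_add hu (by simp [*]) h', sub_add_cancel]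

theorem comm_ee_ee {u v w y : V} (hu : Q u = 0) (hv : Q v = 0) (h1 : polar Q u v = 0) (h2 : polar Q u w = 0)
    (h3 : polar Q v w = 0) (h4 : polar Q u y = 0) (h5 : polar Q v y = 0) :
    ⁅H.ee v w, H.ee u y⁆ = H.ee u (polar Q w y • v) := by
  rw [H.comm_eq hu (eich_apply_of_orth hv h3 (by rwa [polar_comm]) (by rwa [polar_comm])) h4, ee_coe,
    eich_apply hv h3]
  simp [h5]

variable {E : Type*} [Group E] {π : E →* commutator (OG Q)} (hπ : CExt π)
include hπ

theorem cm_one {e v y : V} (he : Q e = 0) (hv : Q v = 0) (h1 : polar Q e v = 0) (h2 : polar Q e y = 0)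
    (h3 : polar Q v y = 0) : CM π (H.ee e v) (H.ee e y) := by
  by_cases c : v ∈ span F {e}
  · obtain ⟨a, rfl⟩ := Submodule.mem_span_singleton.1 c
    rw [H.ee_self he]; exact (CM.one hπ _).symm
  have k : ∀ y x, polar Q e y = 0 → polar Q v y = 0 → polar Q e x = 0 →
      CM π (H.ee e v) (H.ee e ((polar Q y x - Q y * polar Q v x) • v - polar Q v x • y)) := fun y x a b c => by
    have k0 := eich_apply_of_orth hv b (x := e) (by rwa [polar_comm]) (by rwa [polar_comm])
    have := CM.comm hπ (H.comm_ee (g := H.ee v y) k0 (eich_apply_left hv b)) (H.ee_comm he h1 c)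
    rwa [H.comm_eq he k0 c, ee_coe, eich_apply hv b, add_sub_assoc, add_sub_cancel_left] at this
  obtain ⟨w, z, -, -, k1, k2⟩ := (Rm.two (Q := Q) e v).hyp H.nd H.seven
  simp only [Set.mem_insert_iff, Set.mem_singleton_iff, forall_eq_or_imp, forall_eq] at k2
  obtain ⟨x, k3, k4⟩ := H.nd.exists_orth_polar_one _ c
  have k5 := k3 e (Submodule.subset_span rfl)
  have l1 := k y (-x) h2 h3 (by simp [k5])
  have l2 := k ((polar Q y x - Q y) • w) z (by simp [k2]) (by simp [k2]) k2.1.2
  have := CM.mul hπ l1 l2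
  rw [← H.ee_add he (by simp [h1, h2]) (by simp [h1, k2])] at this
  convert this using 2
  simp [k1, k2, k4]
  module

theorem cm_two {u v w y : V} (hu : Q u = 0) (hv : Q v = 0) (hw : Q w = 0) (h1 : polar Q u v = 0)
    (h2 : polar Q u w = 0) (h3 : polar Q v w = 0) (h4 : polar Q u y = 0) (h5 : polar Q v y = 0)
    (h6 : polar Q w y = 0) : CM π (H.ee v w) (H.ee u y) := by
  have h1' : polar Q v u = 0 := by rwa [polar_comm]
  have h2' : polar Q w u = 0 := by rwa [polar_comm]
  have h3' : polar Q w v = 0 := by rwa [polar_comm]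
  by_cases c0 : v = 0
  · rw [c0, ee_zero']; exact (CM.one hπ _).symm
  by_cases c1 : w ∈ span F {v}
  · obtain ⟨a, rfl⟩ := Submodule.mem_span_singleton.1 c1
    rw [H.ee_self hv]; exact (CM.one hπ _).symm
  by_cases c2 : u ∈ span F {v, w}
  · obtain ⟨a, b, rfl⟩ := Submodule.mem_span_pair.1 c2
    by_cases c : a = 0
    · rw [c, zero_smul, zero_add, H.ee_smul hw h6, H.ee_swap hw hv h3']
      exact H.cm_one hπ hw (by simp [hv]) (by simp [h3']) (by simp [h6]) (by simp [h5])
    have := H.cm_one hπ hu (v := a⁻¹ • w) (by simp [q_smul, hw]) (by simp [hw, h3]) h4 (by simp [h6])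
    rwa [H.ee_sw hu hw h2, smul_add, smul_smul, smul_smul, H.ee_add_self hw (by simp [h3']), neg_mul,
      inv_mul_cancel₀ c, neg_one_smul, ← H.ee_swap hw hv h3'] at this
  by_cases c3 : ∃ a : F, a ≠ 0 ∧ a ^ 2 ≠ 1
  · obtain ⟨a, a0, a1⟩ := c3
    obtain ⟨f, k1, k2, k3⟩ := H.nd.exists_hyp_partner _ c2 hu (mem_perp.1 (mem_perp_pair.2 ⟨h1', h2'⟩))
    have k4 : ∀ x, polar Q u x = 0 → polar Q f x = 0 → (H.sq (torus Q u f a)).1.1 x = x := fun x l l' => by
      simp [sq_apply, torus_apply hu k3 k2 a0, l, l']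
    have k5 : polar Q u (y - polar Q f y • u) = 0 := by simp [h4, hu]
    have := CM.of_tor hπ (x := fun t : F => H.ee u (t • (y - polar Q f y • u))) (fun s t => by
      rw [add_smul, H.ee_add hu (by simp [h4, hu]) (by simp [h4, hu])]) a1 (H.comm_ee (g := H.sq (torus Q u f a))
        (k4 v h1 (mem_perp'.1 (mem_perp.2 k1) v (Submodule.subset_span (by simp))))
        (k4 w h2 (mem_perp'.1 (mem_perp.2 k1) w (Submodule.subset_span (by simp)))))
      (fun t => H.comm_ee (eich_apply_of_orth hu (by simp [h4, hu]) h1 (by simp [h1, polar_comm Q y, h5]))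
        (eich_apply_of_orth hu (by simp [h4, hu]) h2 (by simp [h2, polar_comm Q y, h6]))) (fun t => by
      rw [ee_conj, k4 (t • _) (by simp [h4, hu]) (by simp [polar_comm Q f u, k2]), mul_smul,
        ← H.ee_smul hu (v := t • _) (by simp [h4, hu])]
      congr 1
      simp [sq_apply, torus_apply hu k3 k2 a0, hu, polar_comm Q f u, k2]
      module) 1
    rwa [one_smul, sub_eq_add_neg, ← neg_smul, H.ee_add_self hu h4] at this
  push Not at c3
  have n8 := H.three c3
  let Y := perp Q (span F {u, v, w})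
  have hY : ∀ x, x ∈ Y ↔ polar Q u x = 0 ∧ polar Q v x = 0 ∧ polar Q w x = 0 := fun x => by simp [Y, mem_perp_span]
  have k1 : ∀ a ∈ Y, ∀ b ∈ Y, CM π (H.ee v w) (H.ee u a) → CM π (H.ee v w) (H.ee u b) →
      CM π (H.ee v w) (H.ee u (a + b)) := fun a ha b hb k k' => by
    rw [H.ee_add hu ((hY a).1 ha).1 ((hY b).1 hb).1]; exact CM.mul hπ k k'
  have k2 : ∀ x ∈ span F {u, v, w}, CM π (H.ee v w) (H.ee u x) := fun x hx => by
    obtain ⟨a, b, c, rfl⟩ := Submodule.mem_span_triple.1 hx
    rw [add_assoc, add_comm, H.ee_add_self hu (by simp [h1, h2]), H.ee_add hu (by simp [h1]) (by simp [h2]),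
      H.ee_sw hu hv h1, H.ee_sw hu hw h2]
    refine CM.mul hπ (H.cm_one hπ hv hw h3 (by simp [h1']) (by simp [h2'])) ?_
    rw [H.ee_swap hw hv h3']
    exact H.cm_one hπ hw (by simp [hv]) (by simp [h3']) (by simp [h2']) (by simp [h1'])
  have k3 : ∀ g : commutator (OG Q), g.1.1 u = u → g.1.1 v = v → g.1.1 w = w → ∀ x ∈ Y,
      CM π (H.ee v w) (H.ee u (g.1.1 x - x)) := fun g a b c x hx => by
    obtain ⟨l1, l2, l3⟩ := (hY x).1 hx
    rw [← H.comm_eq hu a l1]
    exact CM.comm hπ (H.comm_ee b c) (H.comm_ee (eich_apply_of_orth hu l1 h1 (by rwa [polar_comm]))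
      (eich_apply_of_orth hu l1 h2 (by rwa [polar_comm])))
  have k0 : ∀ r : V, finrank F (span F {r, u, v, w}) ≤ 4 := fun r => by
    classical
    have := (finrank_span_finset_le_card (R := F) {r, u, v, w}).trans Finset.card_le_four
    rwa [Set.finrank, Finset.coe_insert, Finset.coe_insert, Finset.coe_pair] at this
  have li : ∀ r, r ∉ span F {u, v, w} → LinearIndependent F ![r, u, w, v] := fun r h =>
    linearIndependent_finCons.2 ⟨linearIndependent_finCons.2 ⟨linearIndependent_finCons.2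
      ⟨linearIndependent_finCons.2 ⟨linearIndependent_empty_type, by simpa⟩, by simpa⟩,
        by simpa [Set.pair_comm w]⟩, by simpa [Set.pair_comm w, Set.insert_comm v u]⟩
  have sw : ∀ r ∈ Y, Q r = 0 → r ∉ span F {u, v, w} → CM π (H.ee v w) (H.ee u (r + r)) := fun r hr r0 c => by
    obtain ⟨l1, l2, l3⟩ := (hY r).1 hr
    obtain ⟨g, hg⟩ := witt_family H.nd _ ![-v, r, u, w] (li r c) (Fintype.linearIndependent_iff.2
      fun a ha => by
        have := Fintype.linearIndependent_iff.1 (li r c) ![a 1, a 2, a 3, -a 0] (by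
          rw [← ha]; simp [Fin.sum_univ_succ]; abel)
        intro i
        fin_cases i
        exacts [neg_eq_zero.1 (this 3), this 0, this 1, this 2])
      (fun i => by fin_cases i <;> simp [*]) fun i j => by
        fin_cases i <;> fin_cases j <;> simp [polar_comm Q r, *]
    have g0 : g.1 r = -v := hg 0
    have g1 : g.1 u = r := hg 1
    have g2 : g.1 w = u := hg 2
    have g3 : g.1 v = w := hg 3
    have := CM.of_swap hπ (g := H.sq g) (a := H.ee v w) (b := H.ee u r) (H.comm_ee
      (eich_apply_of_orth hu l1 h1 (by rwa [polar_comm])) (eich_apply_of_orth hu l1 h2 (by rwa [polar_comm])))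
      (by rw [ee_conj, sq_apply, sq_apply, g3, g2, g1]) (by
        rw [ee_conj, sq_apply, sq_apply, g1, g0, map_neg, g3, ← neg_one_smul F v, H.ee_smul hv (by simp [h3])]
        simp)
    rwa [pow_two, ← H.ee_add hu l1 l1] at this
  have k4 : ∀ r ∈ Y, Q r = 0 → CM π (H.ee v w) (H.ee u r) := fun r hr r0 => by
    by_cases c : r ∈ span F {u, v, w}
    · exact k2 r c
    obtain ⟨l1, l2, l3⟩ := (hY r).1 hr
    by_cases c4 : (2 : F) = 0
    swap
    · have := sw ((2 : F)⁻¹ • r) (Y.smul_mem _ hr) (by simp [q_smul, r0])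
        (by rwa [Submodule.smul_mem_iff _ (inv_ne_zero c4)])
      rwa [← two_smul F, smul_inv_smul₀ c4] at this
    have l5 : span F {r, u, v, w} ≤ perp Q (span F {r, u, v, w}) := by
      simp [Submodule.span_le, Set.insert_subset_iff, mem_perp_span, polar_comm Q r, *]
    have l6 := H.nd.finrank_perp_add (span F {r, u, v, w})
    have n9 : finrank F V ≠ 8 := fun k => H.two (fun a ha => sq_inj_two c4 (by simpa using c3 a ha)) k
      ⟨span F (Set.range ![r, u, w, v]), sing_span_range (fun i => by fin_cases i <;> simp [*]) fun i j => by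
        fin_cases i <;> fin_cases j <;> simp [polar_comm Q r, *], by rw [finrank_span_eq_card (li r c), k]; simp⟩
    obtain ⟨s, l7, l8⟩ := SetLike.exists_of_lt (l5.lt_of_ne fun k => by have := k0 r; rw [← k] at l6; omega)
    obtain ⟨x, l9, m1⟩ := H.nd.exists_orth_polar_one _ l8
    have m2 := mem_perp_span.1 l7
    have m3 := mem_perp_span.1 (mem_perp.2 l9)
    simp only [Set.mem_insert_iff, Set.mem_singleton_iff, forall_eq_or_imp, forall_eq] at m2 m3
    have m4 : ∀ z, polar Q z r = 0 → polar Q z s = 0 → (H.ee r s).1.1 z = z := fun z a b =>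
      eich_apply_of_orth r0 m2.1 (by rwa [polar_comm]) (by rwa [polar_comm])
    simpa [ee_coe, eich_apply r0 m2.1, m1, m3.1] using k3 (H.ee r s) (m4 u l1 m2.2.1) (m4 v l2 m2.2.2.1)
      (m4 w l3 m2.2.2.2) x ((hY x).2 m3.2)
  have hy := (hY y).2 ⟨h4, h5, h6⟩
  by_cases c4 : ∃ r ∈ Y, Q r = 0 ∧ r ∉ span F {u, v, w}
  · obtain ⟨r, l1, l2, l3⟩ := c4
    obtain ⟨r', l4, l5⟩ := H.nd.exists_orth_polar_one _ l3
    exact sing_ind l1 (mem_perp.2 l4) l2 (by simp [l5]) k4 k1 y hy
  push Not at c4
  by_cases c5 : y ∈ span F {u, v, w}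
  · exact k2 y c5
  have l0 := H.nd.finrank_perp_add (span F {u, v, w})
  have l1 : finrank F (span F {u, v, w}) ≤ 3 := by
    classical
    have := (finrank_span_finset_le_card (R := F) {u, v, w}).trans Finset.card_le_three
    rwa [Set.finrank, Finset.coe_insert, Finset.coe_pair] at this
  obtain ⟨c, l2, l3⟩ : ∃ c ∈ Y, c ∉ span F {y, u, v, w} := SetLike.not_le_iff_exists.1 fun k => by
    have : finrank F (perp Q (span F {u, v, w})) ≤ _ := Submodule.finrank_mono k
    have := k0 y
    omega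
  have l4 : ∀ t : F, Q (c + t • y) ≠ 0 := fun t k => l3 (by
    simpa using sub_mem (Submodule.span_mono (Set.subset_insert y _) (c4 _ (add_mem l2 (Y.smul_mem t hy)) k))
      (Submodule.smul_mem _ t (Submodule.subset_span (Set.mem_insert y _))))
  have l5 : Q y ≠ 0 := fun k => c5 (c4 y hy k)
  obtain ⟨t, l6⟩ : ∃ t : F, Q y = Q (c + t • y) := by
    by_contra! k
    have k' : ∀ t : F, Q (c + t • y) = -Q y := fun t =>
      (sq_eq_sq_iff_eq_or_eq_neg.1 ((c3 _ (l4 t)).trans (c3 _ l5).symm)).resolve_left (k t).symm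
    have a := k' 0
    have b := k' 1
    have d := k' (-1)
    simp only [q_add, q_smul, polar_smul_right, smul_eq_mul] at a b d
    exact k 0 (by simp only [zero_smul, add_zero]; linear_combination (b + d) / 1 - 3 * a + 0 * a)
  have l7 : y ∉ span F {c + t • y, u, v, w} := fun k => by
    obtain ⟨a, z, m1, m2⟩ := Submodule.mem_span_insert.1 k
    by_cases e : a = 0
    · exact c5 (by rwa [m2, e, zero_smul, zero_add])
    refine l3 ((Submodule.smul_mem_iff _ e).1 ?_)
    rw [show a • c = (1 - a * t) • y - z by rw [sub_smul, one_smul]; nth_rw 1 [m2]; module]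
    exact sub_mem (Submodule.smul_mem _ _ (Submodule.subset_span (Set.mem_insert y _)))
      (Submodule.span_mono (Set.subset_insert y _) m1)
  obtain ⟨x, l8, l9⟩ := H.nd.exists_orth_polar_one _ l7
  have m3 := mem_perp_span.1 (mem_perp.2 l8)
  simp only [Set.mem_insert_iff, Set.mem_singleton_iff, forall_eq_or_imp, forall_eq] at m3
  obtain ⟨m4, m5, m6⟩ := (hY _).1 (add_mem l2 (Y.smul_mem t hy))
  have m7 : ∀ z, polar Q z y = 0 → polar Q z (c + t • y) = 0 → (refl Q y * refl Q (c + t • y)).1 z = z :=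
    fun z a b => by 
      rw [OG.mul_apply, refl_apply_of_orth (x := z) (by rwa [polar_comm]), refl_apply_of_orth (by rwa [polar_comm])]
  have := k3 ⟨_, H.nd.refl_mul_refl_mem_commutator l5 l6⟩ (m7 u h4 m4) (m7 v h5 m5) (m7 w h6 m6) (-Q y • x)
    (Y.smul_mem _ ((hY x).2 m3.2))
  rw [OG.mul_apply, refl_apply_of_orth (x := _ • x) (by rw [polar_smul_right, m3.1, smul_zero]), refl_apply] at this
  simpa [l9, l5] using this

end Big
end Cfsg.Agent.Mult.Om
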