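import Mathlib
import Cfsg.Agent.Mult.Om2

/-! Orthogonal groups: the `p`-part of the multiplier is trivial. -/

set_option autoImplicit false
set_option linter.unusedSectionVars false

namespace Cfsg.Agent.Mult.Om
open Subgroup MulAction Cfsg.Agent.H2.Schur Function Module Cfsg.Agent.Orth QuadraticMap
open Submodule (span)
open scoped commutatorElement MatrixGroups

universe u

variable {F V : Type u} [Field F] [AddCommGroup V] [Module F V] {Q : QuadraticForm F V}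
  [FiniteDimensional F V] [Finite F]

theorem exists_ext {A : Type*} [AddCommGroup A] {Y : Submodule F V} {s : V → A}
    (hs : ∀ v ∈ Y, ∀ w ∈ Y, Q v = 0 → Q w = 0 → polar Q v w = 0 → s (v + w) = s v + s w) {e f r r' : V}
    (m1 : e ∈ Y) (m2 : f ∈ Y) (m3 : r ∈ Y) (m4 : r' ∈ Y) (he : Q e = 0) (hf : Q f = 0) (h : polar Q e f = 1)
    (hr : Q r = 0) (h' : polar Q r r' ≠ 0) (k : ∀ x ∈ ({e, f} : Set V), polar Q x r = 0 ∧ polar Q x r' = 0) :
    ∃ Φ : V → A, (∀ v ∈ Y, ∀ w ∈ Y, Φ (v + w) = Φ v + Φ w) ∧ ∀ v ∈ Y, Q v = 0 → Φ v = s v := by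
  let W := Y ⊓ perp Q (span F {e, f})
  let φ : F → V → A := fun a x => s (a • e + x - (Q x / a) • f) - s (a • e) + s ((Q x / a) • f)
  have s0 : s 0 = 0 := by simpa using hs 0 (zero_mem _) 0 (zero_mem _)
  have s1 : ∀ v ∈ Y, Q v = 0 → ∀ a b : F, s ((a + b) • v) = s (a • v) + s (b • v) := fun v hv h a b => by
    rw [add_smul, hs _ (Y.smul_mem a hv) _ (Y.smul_mem b hv) (by simp [q_smul, h]) (by simp [q_smul, h]) (by simp [h])]
  have hfe : polar Q f e = 1 := by rwa [polar_comm]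
  have k1 : ∀ a, a ≠ 0 → ∀ y ∈ W, ∀ x ∈ W, Q x = 0 → φ a (y + x) = φ a y + s x := fun a ha y hy x hx x0 => by
    obtain ⟨l1, l2⟩ := mem_perp_pair.1 hy.2
    obtain ⟨l3, l4⟩ := mem_perp_pair.1 hx.2
    have l5 : Q (x - (polar Q y x / a) • f) = 0 := by simp [q_sub, q_smul, x0, hf, polar_comm Q x, l4]
    have n1 := hs _ (sub_mem (add_mem (Y.smul_mem a m1) hy.1) (Y.smul_mem (Q y / a) m2)) _
      (sub_mem hx.1 (Y.smul_mem (polar Q y x / a) m2)) (by
        simp [q_sub, q_add, q_smul, he, hf, polar_comm Q y, l1, l2, h]; field_simp; ring) l5 (by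
        simp [hf, polar_comm Q y f, l2, l3, l4, h]; field_simp; ring)
    have n2 := hs _ (sub_mem hx.1 (Y.smul_mem (polar Q y x / a) m2)) _ (Y.smul_mem (polar Q y x / a) m2) l5
      (by simp [q_smul, hf]) (by simp [hf, polar_comm Q x, l4])
    have n3 := s1 f m2 hf (Q y / a) (polar Q y x / a)
    simp only [φ, q_add, x0, add_zero, add_div]
    rw [sub_add_cancel] at n2
    rw [n3, n2, show a • e + (y + x) - (Q y / a + polar Q y x / a) • f =
      a • e + y - (Q y / a) • f + (x - (polar Q y x / a) • f) by module, n1]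
    abel
  have k2 : ∀ a, φ a 0 = 0 := fun a => by simp [φ, s0]
  have k3 : ∀ x ∈ W, ∀ a, a ≠ 0 → ∀ y ∈ W, φ a (y + x) = φ a y + φ 1 x :=
    sing_ind (Q := Q) (Y := W) (r := r) (r' := r') ⟨m3, mem_perp_span.2 fun x hx => (k x hx).1⟩
      ⟨m4, mem_perp_span.2 fun x hx => (k x hx).2⟩ hr h' (fun x hx x0 a ha y hy => by
        rw [k1 a ha y hy x hx x0, ← zero_add x, k1 1 one_ne_zero 0 (zero_mem _) x hx x0, k2, zero_add, zero_add])
      fun x hx x' hx' l l' a ha y hy => by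
        rw [← add_assoc, l' a ha _ (add_mem hy hx), l a ha y hy, l' 1 one_ne_zero x hx, add_assoc]
  have k4 : ∀ v ∈ Y, v - polar Q f v • e - polar Q e v • f ∈ W := fun v hv =>
    ⟨sub_mem (sub_mem hv (Y.smul_mem _ m1)) (Y.smul_mem _ m2), hyp_proj_mem he hf h v⟩
  refine ⟨fun v => s (polar Q f v • e) + s (polar Q e v • f) + φ 1 (v - polar Q f v • e - polar Q e v • f),
    fun v hv w hw => ?_, fun v hv v0 => ?_⟩
  · simp only [polar_add_right, s1 e m1 he, s1 f m2 hf]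
    rw [show v + w - (polar Q f v + polar Q f w) • e - (polar Q e v + polar Q e w) • f = v - polar Q f v • e -
      polar Q e v • f + (w - polar Q f w • e - polar Q e w • f) by module, k3 _ (k4 w hw) 1 one_ne_zero _ (k4 v hv)]
    abel
  have l0 := k4 v hv
  have l1 : Q (v - polar Q f v • e - polar Q e v • f) = -(polar Q f v * polar Q e v) := by
    simp [q_sub, q_smul, he, hf, v0, h, polar_comm Q v]
  by_cases c : polar Q f v = 0
  · have := hs _ l0.1 _ (Y.smul_mem (polar Q e v) m2) (by rw [l1]; simp [c]) (by simp [q_smul, hf])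
      (by simp [hf, c, polar_comm Q v])
    beta_reduce
    rw [← zero_add (v - _ - _), k1 1 one_ne_zero 0 (zero_mem _) _ l0 (by rw [l1]; simp [c]), k2, add_right_comm,
      add_assoc, zero_add, ← this]
    simp [c, s0]
  have l2 := k3 _ l0 _ c 0 (zero_mem _)
  have l3 := s1 f m2 hf (polar Q e v) (-polar Q e v)
  beta_reduce
  rw [k2, zero_add, zero_add] at l2
  rw [add_neg_cancel, zero_smul, s0] at l3
  rw [← l2]
  simp only [φ, l1, neg_div, mul_div_cancel_left₀ _ c]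
  rw [show polar Q f v • e + (v - polar Q f v • e - polar Q e v • f) - -polar Q e v • f = v by module]
  linear_combination (norm := abel) -l3

namespace Big
variable (H : Big Q) {E : Type*} [Group E] {π : E →* commutator (OG Q)} (hπ : CExt π)
include H hπ

section
variable {u v : V} (hu : Q u = 0) (hv : Q v = 0) (h : polar Q u v = 0)
include hu hv h

theorem k_add_r {w y y' : V} (hw : w ∈ perp Q (span F {u, v})) (hy : y ∈ perp Q (span F {u, v}))
    (hy' : y' ∈ perp Q (span F {u, v})) :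
    cp hπ (H.ee v w) (H.ee u (y + y')) = cp hπ (H.ee v w) (H.ee u y) * cp hπ (H.ee v w) (H.ee u y') := by
  rw [mem_perp_pair] at hw hy hy'
  rw [H.ee_add hu hy.1 hy'.1, cp_mul_r]
  rw [H.comm_ee_ee hu hv h hw.1 hw.2 hy'.1 hy'.2]
  exact (H.cm_one hπ hu (by simp [q_smul, hv]) (by simp [h]) hy.1 (by simp [hy.2])).symm

theorem k_add_l {w w' y : V} (hw : w ∈ perp Q (span F {u, v})) (hw' : w' ∈ perp Q (span F {u, v}))
    (hy : y ∈ perp Q (span F {u, v})) :
    cp hπ (H.ee v (w + w')) (H.ee u y) = cp hπ (H.ee v w') (H.ee u y) * cp hπ (H.ee v w) (H.ee u y) := by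
  rw [mem_perp_pair] at hw hw' hy
  rw [H.ee_add hv hw.2 hw'.2, cp_mul_l]
  rw [H.comm_ee_ee hu hv h hw'.1 hw'.2 hy.1 hy.2, H.ee_sw hu hv h]
  exact (H.cm_one hπ hv (by simp [q_smul, hu]) (by simp [polar_comm Q v, h]) hw.2 (by simp [hw.1])).symm

theorem k_r {w y y' : V} (hw : w ∈ perp Q (span F {u, v})) (hy : y ∈ perp Q (span F {u, v}))
    (hy' : y' ∈ perp Q (span F {u, v})) (w0 : Q w = 0) (e : polar Q w y = polar Q w y') :
    cp hπ (H.ee v w) (H.ee u y) = cp hπ (H.ee v w) (H.ee u y') := by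
  rw [mem_perp_pair] at hw hy hy'
  rw [← add_sub_cancel y' y, H.ee_add hu hy'.1 (by simp [hy.1, hy'.1]), cp_cm_r]
  exact H.cm_two hπ hu hv w0 h hw.1 hw.2 (by simp [hy.1, hy'.1]) (by simp [hy.2, hy'.2]) (by simp [e])

theorem k_l {w w' y : V} (hw : w ∈ perp Q (span F {u, v})) (hw' : w' ∈ perp Q (span F {u, v}))
    (hy : y ∈ perp Q (span F {u, v})) (y0 : Q y = 0) (e : polar Q w y = polar Q w' y) :
    cp hπ (H.ee v w) (H.ee u y) = cp hπ (H.ee v w') (H.ee u y) := by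
  rw [cp_swap, cp_swap hπ _ (H.ee v w'), H.k_r hπ hv hu (by rwa [polar_comm]) (Set.pair_comm u v ▸ hy)
    (Set.pair_comm u v ▸ hw) (Set.pair_comm u v ▸ hw') y0 (by rwa [polar_comm, polar_comm Q y])]

theorem k_zero {w y : V} (hw : w ∈ perp Q (span F {u, v})) (hy : y ∈ perp Q (span F {u, v})) (w0 : Q w = 0)
    (e : polar Q w y = 0) : cp hπ (H.ee v w) (H.ee u y) = 1 := by
  rw [mem_perp_pair] at hw hy
  exact (cp_one hπ).2 (H.cm_two hπ hu hv w0 h hw.1 hw.2 hy.1 hy.2 e)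

theorem k_sw {w y s : V} (hw : w ∈ perp Q (span F {u, v})) (hy : y ∈ perp Q (span F {u, v}))
    (hs : s ∈ perp Q (span F {u, v})) (w0 : Q w = 0) (y0 : Q y = 0) (s0 : Q s ≠ 0) (e : polar Q w y ≠ 0)
    (e1 : polar Q w s = 0) (e2 : polar Q y s = 0) : cp hπ (H.ee v w) (H.ee u y) =
      cp hπ (H.ee v ((-(Q s * polar Q w y))⁻¹ • y)) (H.ee u ((-(Q s * polar Q w y)) • w)) := by
  have m := sub_mem (sub_mem hy (Submodule.smul_mem _ (Q s * polar Q w y) hw)) (Submodule.smul_mem _ (polar Q w y) hs)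
  rw [H.k_r hπ hu hv h hw hy m w0 (by simp [w0, e1]), H.k_l hπ hu hv h hw
    (Submodule.smul_mem _ (-(Q s * polar Q w y))⁻¹ hy) m
    (by simp [q_sub, q_smul, w0, y0, e1, e2, polar_comm Q y w]; ring)
    (by simp [w0, y0, e1, e2, polar_comm Q y w]; field_simp)]
  exact H.k_r hπ hu hv h (Submodule.smul_mem _ _ hy) m (Submodule.smul_mem _ _ hw) (by simp [q_smul, y0])
    (by simp [y0, e2, polar_comm Q y w])

omit hu hv h hπ in
theorem exists_ns {w y : V} (hw : w ∈ perp Q (span F {u, v})) (hy : y ∈ perp Q (span F {u, v})) (w0 : Q w = 0)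
    (e : polar Q w y ≠ 0) : ∃ s ∈ perp Q (span F {u, v}), Q s ≠ 0 ∧ polar Q w s = 0 ∧ polar Q y s = 0 :=
  let ⟨s, h1, h2⟩ := ((Rm.two u v).pair (fun x hx => ⟨mem_perp_span.1 hw x hx, mem_perp_span.1 hy x hx⟩)
    (by simp [w0]) e).ns H.nd H.seven
  ⟨s, mem_perp_span.2 fun x hx => h2 x (by simp_all), h1, h2 w (by simp), h2 y (by simp)⟩

theorem k_bal {w y : V} (hw : w ∈ perp Q (span F {u, v})) (hy : y ∈ perp Q (span F {u, v})) (w0 : Q w = 0)
    (y0 : Q y = 0) (c : F) : cp hπ (H.ee v (c • w)) (H.ee u y) = cp hπ (H.ee v w) (H.ee u (c • y)) := by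
  have k : ∀ a : F, cp hπ (H.ee v (a ^ 2 • w)) (H.ee u y) = cp hπ (H.ee v w) (H.ee u (a ^ 2 • y)) := fun a => by
    by_cases e : a ^ 2 * polar Q w y = 0
    · rw [H.k_zero hπ hu hv h (Submodule.smul_mem _ _ hw) hy (by simp [q_smul, w0]) (by simpa using e),
        H.k_zero hπ hu hv h hw (Submodule.smul_mem _ _ hy) w0 (by simpa using e)]
    obtain ⟨e1, e2⟩ : a ≠ 0 ∧ polar Q w y ≠ 0 := by simpa using e
    obtain ⟨s, k1, k2, k3, k4⟩ := H.exists_ns hw hy w0 e2
    rw [H.k_sw hπ hu hv h (Submodule.smul_mem _ _ hw) hy k1 (by simp [q_smul, w0]) y0 k2 (by simpa using e)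
      (by simp [k3]) k4, H.k_sw hπ hu hv h hw (Submodule.smul_mem _ _ hy) (Submodule.smul_mem _ a k1) w0
      (by simp [q_smul, y0]) (by simp [q_smul, e1, k2]) (by simpa using e) (by simp [k3]) (by simp [k4])]
    simp only [smul_smul, q_smul, polar_smul_left, polar_smul_right, smul_eq_mul]
    congr 3 <;> field_simp
  obtain ⟨a, b, rfl⟩ : ∃ a b : F, a ^ 2 + b ^ 2 = c := by
    by_cases h2 : (2 : F) = 0
    · exact ⟨sqrt2 h2 c, 0, by simp [sqrt2_sq]⟩
    · simpa using exists_binary_eq h2 one_ne_zero one_ne_zero c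
  rw [add_smul, H.k_add_l hπ hu hv h (Submodule.smul_mem _ _ hw) (Submodule.smul_mem _ _ hw) hy, k, k, add_comm,
    add_smul, H.k_add_r hπ hu hv h hw (Submodule.smul_mem _ _ hy) (Submodule.smul_mem _ _ hy)]

theorem k_ind {w y w' y' : V} (hw : w ∈ perp Q (span F {u, v})) (hy : y ∈ perp Q (span F {u, v}))
    (hw' : w' ∈ perp Q (span F {u, v})) (hy' : y' ∈ perp Q (span F {u, v})) (w0 : Q w = 0) (y0 : Q y = 0)
    (w1 : Q w' = 0) (y1 : Q y' = 0) (e : polar Q w y = polar Q w' y') :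
    cp hπ (H.ee v w) (H.ee u y) = cp hπ (H.ee v w') (H.ee u y') := by
  by_cases c : polar Q w y = 0
  · rw [H.k_zero hπ hu hv h hw hy w0 c, H.k_zero hπ hu hv h hw' hy' w1 (e ▸ c)]
  have k1 : ∀ {w' y'}, w' ∈ perp Q (span F {u, v}) → y' ∈ perp Q (span F {u, v}) → Q y' = 0 →
      polar Q w y = polar Q w' y' → polar Q w y' ≠ 0 →
      cp hπ (H.ee v w) (H.ee u y) = cp hπ (H.ee v w') (H.ee u y') := fun {w' y'} hw' hy' y1 e c => by
    rw [H.k_r hπ hu hv h hw hy (Submodule.smul_mem _ (polar Q w y / polar Q w y') hy') w0 (by simp [c]),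
      ← H.k_bal hπ hu hv h hw hy' w0 y1, H.k_l hπ hu hv h (Submodule.smul_mem _ _ hw) hw' hy' y1 (by simp [c, e])]
  by_cases c1 : polar Q w y' ≠ 0
  · exact k1 hw' hy' y1 e c1
  by_cases c2 : polar Q w w' ≠ 0
  · obtain ⟨s, k2, k3, k4, k5⟩ := H.exists_ns hw' hy' w1 (e ▸ c)
    rw [H.k_sw hπ hu hv h hw' hy' k2 w1 y1 k3 (e ▸ c) k4 k5]
    exact k1 (Submodule.smul_mem _ _ hy') (Submodule.smul_mem _ _ hw') (by simp [q_smul, w1])
      (by simp [polar_comm Q y' w', ← e]; field_simp) (by simp [← e, k3, c, c2])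
  push Not at c1 c2
  by_cases c3 : polar Q w' y ≠ 0
  · rw [H.k_r hπ hu hv h hw' hy' (Submodule.smul_mem _ (polar Q w y / polar Q w' y) hy) w1 (by simp [c3, e]),
      ← H.k_bal hπ hu hv h hw' hy w1 y0, H.k_l hπ hu hv h (Submodule.smul_mem _ _ hw') hw hy y0 (by simp [c3])]
  push Not at c3
  have m := sub_mem (add_mem hy hy') (Submodule.smul_mem _ (polar Q y y' / polar Q w y) hw)
  rw [H.k_r hπ hu hv h hw hy m w0 (by simp [w0, c1]), H.k_l hπ hu hv h hw hw' m
    (by simp [q_sub, q_add, q_smul, w0, y0, y1, c, c1, polar_comm Q y w, polar_comm Q y' w])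
    (by simp [w0, c1, c3, polar_comm Q w' w, c2, e])]
  exact H.k_r hπ hu hv h hw' m hy' w1 (by simp [c3, polar_comm Q w' w, c2])

end

theorem cm_three {e v x : V} (he : Q e = 0) (h1 : polar Q e v = 0) (h2 : polar Q e x = 0) :
    CM π (H.ee e v) (H.ee e x) := by
  have k1 : ∀ v b (t : F), Q v = 0 → Q b = 0 → polar Q e v = 0 → polar Q e b = 0 → polar Q b v = 1 →
      CM π (H.ee e v) (H.ee e (t • b)) := fun v b t v0 b0 l1 l2 l3 => by
    obtain ⟨w, y, w0, y0, l4, l5⟩ := ((Rm.one e).pair (w := b) (y := v) (by simp [l1, l2]) (by simp [b0])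
      (by simp [l3])).hyp H.nd H.seven
    simp only [Set.mem_insert_iff, Set.mem_singleton_iff, forall_eq_or_imp, forall_eq] at l5
    obtain ⟨⟨m1, m2⟩, ⟨m3, m4⟩, m5, m6⟩ := l5
    obtain ⟨g, hg⟩ := hπ.surj (H.ee b (-t • y))
    obtain ⟨s, hs⟩ := hπ.surj (H.ee e v)
    obtain ⟨a, ha⟩ := hπ.surj (H.ee b w)
    obtain ⟨c, hc⟩ := hπ.surj (H.ee e (t • y))
    have n0 : ∀ w, polar Q b w = 0 → polar Q e w = 0 → (H.ee b w).1.1 e = e := fun w k k' =>
      eich_apply_of_orth b0 k (by rwa [polar_comm]) (by rwa [polar_comm])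
    have n1 : π ⁅a, s⁆ = H.ee e (-w) := by
      rw [map_commutatorElement, ha, hs, H.comm_eq he (n0 w m1 m5) l1, ee_coe, eich_apply b0 m1]
      simp [l3, w0, polar_comm Q w, m3]
    have n2 : π ⁅a, c⁆ = H.ee e (t • b) := by
      rw [map_commutatorElement, ha, hc, H.comm_ee_ee he b0 l2 m5 m1 (by simp [m6]) (by simp [m2])]
      simp [l4]
    have n3 : ⁅g, ⁅a, s⁆⁆ = ⁅a, c⁆ := by
      rw [← cp_of hπ, ← cp_of hπ a c, hg, n1, ha, hc]
      exact H.k_ind hπ he b0 l2 (mem_perp_pair.2 (by simp [m2, m6])) (mem_perp_pair.2 (by simp [m1, m5]))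
        (mem_perp_pair.2 ⟨m5, m1⟩) (mem_perp_pair.2 (by simp [m2, m6])) (by simp [q_smul, y0]) (by simp [w0]) w0
        (by simp [q_smul, y0]) (by simp [l4, polar_comm Q y])
    have n4 : g * ⁅a, s⁆ * g⁻¹ = ⁅a, s * c⁆ := by
      rw [conjugate_commutatorElement]
      refine comm_eq_of_map_eq hπ.cent ?_ ?_ <;> simp only [map_mul, map_inv, hg, ha, hs, hc]
      · rw [(H.ee_comm b0 (by simp [m2]) m1).eq, mul_inv_cancel_right]
      · rw [ee_conj, n0 _ (by simp [m2]) (by simp [m6]), ← H.ee_add he l1 (by simp [m6]), ee_coe,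
          eich_apply b0 (by simp [m2])]
        simp [l3, q_smul, y0, polar_comm Q y, m4]
    have n5 := H.cm_one hπ he (v := t • b) (y := -w) (by simp [q_smul, b0]) (by simp [l2]) (by simp [m5])
      (by simp [m1]) n2 n1
    rw [comm_mul_r, ← inv_mul_cancel_right (g * _ * g⁻¹) ⁅a, s⁆, ← commutatorElement_def, n3, n5.eq,
      mul_right_inj, eq_comm, mul_inv_eq_iff_eq_mul] at n4
    rw [← hs, ← n2]
    exact CM.of hπ n4
  obtain ⟨r, r', l1, -, l2, l3⟩ := (Rm.one (Q := Q) e).hyp H.nd (by have := H.seven; omega)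
  have l4 := mem_perp_singleton.2 (l3 e rfl).1
  have l5 := mem_perp_singleton.2 (l3 e rfl).2
  simp only [← mem_perp_singleton] at h1 h2
  refine sing_ind (P := fun v => CM π (H.ee e v) (H.ee e x)) l4 l5 l1 (by simp [l2]) (fun v hv v0 => ?_)
    (fun v hv w hw k k' => ?_) v h1
  · refine sing_ind (P := fun x => CM π (H.ee e v) (H.ee e x)) l4 l5 l1 (by simp [l2]) (fun x hx x0 => ?_)
      (fun x hx w hw k k' => ?_) x h2
    · rw [mem_perp_singleton] at hv hx
      by_cases c : polar Q v x = 0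
      · exact H.cm_one hπ he v0 hv hx c
      simpa [c] using k1 v ((polar Q v x)⁻¹ • x) (polar Q v x) v0 (by simp [q_smul, x0]) hv (by simp [hx])
        (by simp [polar_comm Q x, c])
    · rw [H.ee_add he (mem_perp_singleton.1 hx) (mem_perp_singleton.1 hw)]
      exact CM.mul hπ k k'
  · rw [H.ee_add he (mem_perp_singleton.1 hv) (mem_perp_singleton.1 hw)]
    exact (CM.mul hπ k.symm k'.symm).symm

theorem exists_hat : ∃ a : V → V → E, ∀ u v w y, Q u = 0 → Q v = 0 → polar Q u v = 0 → w ∈ perp Q (span F {u, v}) →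
    y ∈ perp Q (span F {u, v}) → Q w = 0 → Q y = 0 → cp hπ (H.ee v w) (H.ee u y) = a u (polar Q w y • v) := by
  choose w y h1 h2 h3 h4 using fun u v => (Rm.two (Q := Q) u v).hyp H.nd H.seven
  refine ⟨fun u v => cp hπ (H.ee v (w u v)) (H.ee u (y u v)), fun u v w' y' hu hv h k1 k2 k3 k4 => ?_⟩
  by_cases c : polar Q w' y' = 0
  · simp only [H.k_zero hπ hu hv h k1 k2 k3 c, c, zero_smul, ee_zero']
    exact ((cp_one hπ).2 (CM.one hπ _).symm).symm
  have l := h4 u (polar Q w' y' • v)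
  simp only [Set.mem_insert_iff, Set.mem_singleton_iff, forall_eq_or_imp, forall_eq, polar_smul_left, smul_eq_mul,
    mul_eq_zero, c, false_or] at l
  beta_reduce
  rw [H.ee_smul hv l.2.1]
  exact H.k_ind hπ hu hv h k1 k2 (mem_perp_pair.2 (by simp [l])) (mem_perp_pair.2 (by simp [l])) k3 k4
    (by simp [q_smul, h1]) (h2 _ _) (by simp [h3])

omit hπ in
theorem form {e : V} (he : Q e = 0) {g : commutator (OG Q)} (h : g ∈ QU (commutator (OG Q)) Q.polarBilin Q e) :
    ∃ v, polar Q e v = 0 ∧ g = H.ee e v :=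
  QU_form H.nd (ι := Subgroup.subtype _) (fun _ _ => rfl) (ε := H.ee) (fun _ _ => rfl) he h

omit hπ in
theorem mem (u v : V) : H.ee u v ∈ QU (commutator (OG Q)) Q.polarBilin Q u :=
  eich_mem (ι := Subgroup.subtype _) (fun _ _ => rfl) (ε := H.ee) (fun _ _ => rfl) u v

theorem ic {e : V} (e0 : e ≠ 0) (he : Q e = 0) : IC π Q.polarBilin Q e := by
  classical
  obtain ⟨a, ha⟩ := H.exists_hat hπ
  have h0 : ∀ u v, ∃ w ∈ perp Q (span F {u, v}), ∃ y ∈ perp Q (span F {u, v}), Q w = 0 ∧ Q y = 0 ∧ polar Q w y = 1 :=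
    fun u v => let ⟨w, y, h1, h2, h3, h4⟩ := (Rm.two (Q := Q) u v).hyp H.nd H.seven
      ⟨w, mem_perp_span.2 fun s hs => (h4 s hs).1, y, mem_perp_span.2 fun s hs => (h4 s hs).2, h1, h2, h3⟩
  have h1 : ∀ v, Q v = 0 → polar Q e v = 0 → π (a e v) = H.ee e v := fun v v0 h => by
    obtain ⟨w, k1, y, k2, k3, k4, k5⟩ := h0 e v
    rw [← one_smul F v, ← k5, ← ha e v w y he v0 h k1 k2 k3 k4, map_cp]
    rw [mem_perp_pair] at k1 k2
    exact H.comm_ee_ee he v0 h k1.1 k1.2 k2.1 k2.2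
  have h2 : ∀ x v, (π x).1.1 e = e → Q v = 0 → polar Q e v = 0 → x * a e v * x⁻¹ = a e ((π x).1.1 v) :=
    fun x v hx v0 h => by
    obtain ⟨w, k1, y, k2, k3, k4, k5⟩ := h0 e v
    have k : ∀ w ∈ perp Q (span F {e, v}), (π x).1.1 w ∈ perp Q (span F {e, (π x).1.1 v}) := fun w hw => by
      rw [← hx]; simpa [mem_perp_pair] using hw
    have := ha e _ _ _ he (by simpa) (by rw [← hx]; simpa) (k w k1) (k y k2) (by simpa) (by simpa)
    rw [OG.map_polar, k5, one_smul] at this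
    rw [← this, ← one_smul F v, ← k5, ← ha e v w y he v0 h k1 k2 k3 k4, ← cp_conj, ee_conj, ee_conj, hx, k5, one_smul]
  have h3 : ∀ v w, polar Q e v = 0 → polar Q e w = 0 → Q v = 0 → Q w = 0 → polar Q v w = 0 →
      a e (v + w) = a e v * a e w := fun v w k1 k2 v0 w0 k3 => by
    by_cases c : w ∈ span F {e, v}
    · obtain ⟨s, t, rfl⟩ := Submodule.mem_span_pair.1 c
      obtain ⟨w, l1, y, l2, l3, l4, l5⟩ := h0 e v
      have k : ∀ t : F, a e (s • e + t • v) = a e (t • v) := fun t => by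
        have m : ∀ w ∈ perp Q (span F {e, v}), w ∈ perp Q (span F {e, s • e + t • v}) ∧
          w ∈ perp Q (span F {e, t • v}) := fun w hw => by simp_all [mem_perp_pair]
        have n1 := ha e _ w y he (by simp [q_add, q_smul, *]) (by simp [*]) (m w l1).1 (m y l2).1 l3 l4
        have n2 := ha e _ w y he (by simp [q_smul, *]) (by simp [*]) (m w l1).2 (m y l2).2 l3 l4
        rw [mem_perp_pair] at l1 l2
        rw [l5, one_smul] at n1 n2
        rw [← n1, ← n2, H.ee_swap l3 (by simp [q_add, q_smul, *]) (by simp [polar_comm Q w, *]), neg_add_rev,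
          H.ee_add l3 (by simp [polar_comm Q w, *]) (by simp [polar_comm Q w, *]),
          ← H.ee_swap l3 (by simp [q_smul, *]) (by simp [polar_comm Q w, *]), ← neg_smul, ← H.ee_sw he l3 l1.1, cp_cm_l]
        exact H.cm_three hπ he (by simp [l1]) l2.1
      have k' : ∀ t : F, a e (t • v) = cp hπ (H.ee v w) (H.ee e (t • y)) := fun t => by
        rw [ha e v w _ he v0 k1 l1 (Submodule.smul_mem _ t l2) l3 (by simp [q_smul, l4])]; simp [l5]
      rw [show v + (s • e + t • v) = s • e + (1 + t) • v by module, k, k, k', k', add_smul,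
        H.k_add_r hπ he v0 k1 l1 (Submodule.smul_mem _ _ l2) (Submodule.smul_mem _ _ l2), ← k', one_smul]
    have l0 := mem_perp_pair.2 ⟨k2, k3⟩
    obtain ⟨y, l1, l2, l3⟩ := H.nd.exists_hyp_partner _ c w0 (mem_perp.1 l0)
    obtain ⟨x, hx⟩ := hπ.surj (H.ee v y)
    have l4 := ha e v y w he v0 k1 (mem_perp.2 l1) l0 l3 w0
    obtain ⟨l5, l6⟩ := mem_perp_pair.1 (mem_perp.2 l1)
    rw [← hx, ← h1 w w0 k2, cp_of, commutatorElement_def, h2 x w (hx ▸ eich_apply_of_orth v0 l6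
      (by rwa [polar_comm]) (by rwa [polar_comm])) w0 k2, hx, ee_coe, eich_apply v0 l6, mul_inv_eq_iff_eq_mul] at l4
    simpa [polar_comm Q y, l2, k3, add_comm] using l4
  let K := (QU (commutator (OG Q)) Q.polarBilin Q e).comap π
  letI : CommGroup K := { (inferInstance : Group K) with
    mul_comm := fun x y => by
      obtain ⟨v, k1, k2⟩ := H.form he x.2
      obtain ⟨w, k3, k4⟩ := H.form he y.2
      exact Subtype.ext (H.cm_three hπ he k1 k3 k2 k4) }
  let s : V → Additive K := fun v => if h : Q v = 0 ∧ polar Q e v = 0 then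
    .ofMul ⟨a e v, show π _ ∈ _ from h1 v h.1 h.2 ▸ H.mem e v⟩ else 0
  have h4 : ∀ v, Q v = 0 → polar Q e v = 0 → (s v).toMul.1 = a e v := fun v k k' => by simp [s, k, k']
  obtain ⟨e', f', k1, k2, k3, k4⟩ := (Rm.one (Q := Q) e).hyp H.nd (by have := H.seven; omega)
  obtain ⟨r, r', k5, -, k6, k7⟩ := ((Rm.one e).pair k4 (by simp [k1]) (by simp [k3])).hyp H.nd H.seven
  have k8 := mem_perp_singleton.2 (k4 e rfl).1
  have k9 := mem_perp_singleton.2 (k4 e rfl).2
  obtain ⟨Φ, l1, l2⟩ := exists_ext (Y := perp Q (span F {e})) (s := s) (fun v hv w hw v0 w0 h => by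
    rw [mem_perp_singleton] at hv hw
    refine Additive.toMul.injective (Subtype.ext ?_)
    rw [toMul_add, Subgroup.coe_mul, h4 v v0 hv, h4 w w0 hw, h4 _ (by simp [q_add, *]) (by simp [*]),
      h3 v w hv hw v0 w0 h]) k8 k9 (mem_perp_singleton.2 (k7 e (by simp)).1) (mem_perp_singleton.2 (k7 e (by simp)).2)
    k1 k2 k3 k5 (by simp [k6]) fun x hx => k7 x (by simp_all; tauto)
  let χ : Multiplicative (perp Q (span F {e})) →* E := .mk' (fun v => (Φ v.toAdd.1).toMul.1) fun v w => by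
    rw [toAdd_mul, Submodule.coe_add, l1 _ (Subtype.prop _) _ (Subtype.prop _)]; rfl
  have l3 : ∀ v ∈ perp Q (span F {e}), Q v = 0 → (Φ v).toMul.1 = a e v := fun v hv v0 => by
    rw [l2 v hv v0, h4 v v0 (mem_perp_singleton.1 hv)]
  have l4 : ∀ v ∈ perp Q (span F {e}), π (Φ v).toMul.1 = H.ee e v :=
    sing_ind k8 k9 k1 (by simp [k3]) (fun v hv v0 => by rw [l3 v hv v0, h1 v v0 (mem_perp_singleton.1 hv)])
      fun v hv w hw k k' => by
        rw [l1 v hv w hw, toMul_add, Subgroup.coe_mul, map_mul, k, k',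
          H.ee_add he (mem_perp_singleton.1 hv) (mem_perp_singleton.1 hw)]
  have l5 : ∀ x, (π x).1.1 e = e → ∀ v ∈ perp Q (span F {e}), x * (Φ v).toMul.1 * x⁻¹ ∈ χ.range := fun x hx =>
    sing_ind k8 k9 k1 (by simp [k3]) (fun v hv v0 => by
      have : (π x).1.1 v ∈ perp Q (span F {e}) := by rw [← hx]; simpa [mem_perp_singleton] using hv
      rw [l3 v hv v0, h2 x v hx v0 (mem_perp_singleton.1 hv), ← l3 _ this (by simpa)]
      exact ⟨.ofAdd ⟨_, this⟩, rfl⟩) fun v hv w hw k k' => by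
        convert mul_mem k k' using 1
        rw [l1 v hv w hw, toMul_add, Subgroup.coe_mul]; group
  refine ⟨χ.range, ?_, le_antisymm ?_ fun g hg => ?_, fun x hx => mem_norm ?_ ?_⟩
  · rintro _ ⟨v, rfl⟩ h
    obtain ⟨f, m1, -⟩ := H.nd.exists_hyp e0 he
    have m2 : (eich Q e v.toAdd.1).1 f = f := congrArg (fun g => g.1.1 f) ((l4 _ v.toAdd.2).symm.trans h)
    rw [eich_apply he (mem_perp_singleton.1 v.toAdd.2), m1, one_smul, add_sub_assoc, add_eq_left, sub_eq_zero] at m2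
    obtain ⟨w, n1, y, n2, n3, n4, n5⟩ := h0 e e
    have m3 := fun c : F => ha e e w (c • y) he he (by simp [he]) n1 (Submodule.smul_mem _ c n2) n3
      (by simp [q_smul, n4])
    simp only [polar_smul_right, n5, smul_eq_mul, mul_one] at m3
    refine (l3 _ v.toAdd.2 (by rw [← m2]; simp [q_smul, he])).trans ?_
    rw [← m2, ← m3, cp_one]
    exact H.cm_three hπ he (mem_perp_pair.1 n1).1 (by simp [(mem_perp_pair.1 n2).1])
  · rintro _ ⟨_, ⟨v, rfl⟩, rfl⟩
    exact (l4 _ v.toAdd.2).symm ▸ H.mem e _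
  · obtain ⟨v, h, rfl⟩ := H.form he hg
    exact ⟨_, ⟨.ofAdd ⟨v, mem_perp_singleton.2 h⟩, rfl⟩, l4 v (mem_perp_singleton.2 h)⟩
  · rintro _ ⟨v, rfl⟩
    exact l5 x hx _ v.toAdd.2
  · rintro _ ⟨v, rfl⟩
    have := l5 x⁻¹ (by rw [map_inv]; exact inv_smul_eq_iff.2 hx.symm) _ v.toAdd.2
    rwa [inv_inv] at this

omit hπ in
theorem card_mult : Nat.card (Mult (commutator (OG Q))) ∣ kk F := by
  have := Module.finite_of_finite F (M := V)
  obtain ⟨p, hp⟩ := CharP.exists F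
  have hp' := CharP.char_is_prime F p
  have k := ok hp' _ H.nd rfl (.inl (by have := H.seven; omega))
  refine PB.card_mult hp' (not_dvd_mult hp' fun E _ _ π hπ _ =>
    (pol (ι := Subgroup.subtype _) (fun _ _ => rfl) (ε := H.ee) fun _ _ => rfl).split hp' (fun _ => H.ic hπ)
      fun U hU R hR h => ?_) (fun K hK x _ => ?_) (ι := Subgroup.subtype _) (Subgroup.subtype_injective _)
    (by rw [range_subtype]; exact k.pb)
  swap
  · obtain ⟨y, h1, h2⟩ := k.pg (K.map (Subgroup.subtype _)) (fun x hx ⟨n, hn⟩ =>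
      ⟨⟨x, hx⟩, hK _ trivial ⟨n, Subtype.ext hn⟩, rfl⟩) x.2
    exact Subtype.ext h2 ▸ h1
  have h0 : U ⊓ perp Q U = ⊥ := eq_bot_iff.2 fun x hx => hU x hx.1 (mem_perp.1 hx.2)
  have h1 := H.nd.nd_perp h0
  have h2 := H.nd.finrank_perp_add U
  have h3 : ∀ r ∈ R, ∀ x ∈ perp Q U, r • x ∈ perp Q U := fun r hr x hx => mem_perp.2 fun u hu => by
    rw [← h r hr u hu]; exact (OG.map_polar r.1 u x).trans (mem_perp.1 hx u hu)
  by_cases c : 3 ≤ finrank F (perp Q U)
  · obtain ⟨e, k1, k2⟩ := exists_singular (Q.restrict (perp Q U)) c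
    obtain ⟨f, k3, k4⟩ := h1.exists_hyp k1 k2
    obtain ⟨i⟩ := h1.iso_hyp_perp k2 k4 k3
    have k5 := h1.finrank_perp_hyp k2 k4 k3
    obtain ⟨v, l1, l2, l3⟩ := exists_fixed hp' hR {x | x ∈ perp Q U ∧ Q x = 0} ⟨zero_mem _, map_zero _⟩
      (fun r hr x hx => ⟨h3 r hr x hx.1, (OG.map_Q r.1 x).trans hx.2⟩) (by
        have := dvd_card_submodule hp' (W := perp (Q.restrict (perp Q U)) (span F {e, f})) fun k => by
          rw [k, finrank_bot] at k5; omega
        have k6 : p ∣ Nat.card F := by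
          have := Fintype.ofFinite F
          rw [Nat.card_eq_fintype_card]; exact (CharP.cast_eq_zero_iff F p _).1 (FiniteField.cast_card_eq_zero F)
        rw [show Nat.card ↥{x | x ∈ perp Q U ∧ Q x = 0} = nv (Q.restrict (perp Q U)) 0 from Nat.card_congr
          (Equiv.subtypeSubtypeEquivSubtypeInter _ fun x => Q x = 0).symm, ← nv_iso i, nv_hyp_prod]
        exact dvd_add (this.mul_left _) (k6.mul_right _))
    obtain ⟨f, l4, l5, l6⟩ := H.nd.exists_hyp_partner U (fun k => l2 (hU v k (mem_perp.1 l1.1))) l1.2 (mem_perp.1 l1.1)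
    exact .inr ⟨v, l2, mem_perp.1 l1.1, l3, .inr ⟨l1.2, f, l6, l5, l4⟩⟩
  refine .inl (eq_bot_iff.2 fun r hr => ?_)
  have k1 := rk_add_finrank_fix r.1
  have k2 : U ≤ fix r.1 := fun u hu => mem_fix.2 (h r hr u hu)
  have k3 := ((H.nd.mem_commutator_iff H.good r.1).1 r.2).1
  have k4 : finrank F V ≤ finrank F (fix r.1) + 1 := by
    by_cases c' : perp Q U = ⊥
    · have := Submodule.finrank_mono k2
      rw [c', finrank_bot] at h2; omega
    obtain ⟨v, l1, l2, l3⟩ := exists_fixed hp' hR (perp Q U : Set V) (zero_mem _) h3 (dvd_card_submodule hp' c')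
    have := Submodule.finrank_lt_finrank_of_lt (k2.lt_of_ne fun k =>
      l2 (hU v (k ▸ mem_fix.2 (l3 r hr)) (mem_perp.1 l1)))
    omega
  have k5 : fix r.1 = ⊤ := Submodule.eq_top_of_finrank_eq (by obtain ⟨n, hn⟩ := k3; omega)
  exact Subtype.ext (OG.ext fun x => mem_fix.1 (k5.ge trivial))

end Big
end Cfsg.Agent.Mult.Om
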