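import Mathlib
import Cfsg.Agent.Mult.Om3

/-! The spin group and the multipliers of the simple orthogonal groups. -/

set_option autoImplicit false
set_option linter.unusedSectionVars false

namespace Cfsg.Agent.Mult.Om
open Subgroup MulAction Cfsg.Agent.H2.Schur Function Module Cfsg.Agent.Orth QuadraticMap CliffordAlgebra
open Submodule (span)
open scoped commutatorElement MatrixGroups

universe u

variable {F V : Type u} [Field F] [AddCommGroup V] [Module F V] {Q : QuadraticForm F V}
  [FiniteDimensional F V] [Finite F]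

variable (Q) in
/-- the spin group -/
def SpinG : Subgroup (commutator (OG Q) × (CliffordAlgebra Q)ˣ) where
  carrier := {a | involute a.2.1 = a.2.1 ∧ a.2.1 * reverse a.2.1 = 1 ∧ ∀ w, a.2.1 * ι Q w = ι Q (a.1.1.1 w) * a.2.1}
  one_mem' := by simp
  mul_mem' {a b} ha hb := ⟨by simp [ha.1, hb.1], by
    simp only [Prod.snd_mul, Units.val_mul, reverse.map_mul]
    rw [mul_assoc, ← mul_assoc b.2.1, hb.2.1, one_mul, ha.2.1], fun w => by
    simp only [Prod.snd_mul, Units.val_mul]
    rw [mul_assoc, hb.2.2, ← mul_assoc, ha.2.2, mul_assoc]; rfl⟩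
  inv_mem' {a} ha := by
    have h : (a⁻¹).2.1 = reverse a.2.1 := Units.inv_eq_of_mul_eq_one_right ha.2.1
    refine ⟨by rw [h, ← reverse_involute, ha.1], by rw [h, reverse_reverse, ← h]; simp, fun w => ?_⟩
    have := ha.2.2 ((a.1.1⁻¹).1 w)
    rw [OG.apply_inv_self] at this
    exact (Units.inv_mul_eq_iff_eq_mul _).2 (by rw [← mul_assoc]; erw [this]; simp)

variable (Q) in
/-- the spin cover -/
def rho : SpinG Q →* commutator (OG Q) := (MonoidHom.fst _ _).comp (SpinG Q).subtype

variable (Q) in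
/-- the element `-1` of the spin group -/
def zz : SpinG Q := ⟨(1, -1), by simp [SpinG]⟩

theorem exists_lift {l : List V} (hl : ∀ v ∈ l, Q v ≠ 0) (he : Even l.length) {c : F} (hc : (l.map Q).prod = c * c)
    (h : (l.map (refl Q)).prod ∈ commutator (OG Q)) :
    ∃ x : SpinG Q, (rho Q x).1 = (l.map (refl Q)).prod ∧ x.1.2.1 = c⁻¹ • (l.map (ι Q)).prod := by
  have c0 : c ≠ 0 := by simpa [hc] using list_prod_Q_ne_zero l hl
  have k : ∀ l : List V, (l.map Q).prod = c * c → c⁻¹ • (l.map (ι Q)).prod * reverse (c⁻¹ • (l.map (ι Q)).prod) = 1 :=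
    fun l h => by
      rw [map_smul, smul_mul_smul_comm, list_iota_mul_reverse, h, Algebra.smul_def, ← map_mul]; simp [c0, mul_assoc]
  have k' := k l.reverse (by rw [List.map_reverse, List.prod_reverse, hc])
  rw [List.map_reverse, ← reverse_prod_map_ι, ← map_smul, reverse_reverse] at k'
  have i : involute (l.map (ι Q)).prod = (l.map (ι Q)).prod := by rw [involute_prod_map_ι, he.neg_one_pow, one_smul]
  exact ⟨⟨(⟨_, h⟩, ⟨_, _, k l hc, k'⟩), by simp only [map_smul, i], k l hc, fun w => by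
    simp only [smul_mul_assoc, list_iota_mul l hl, i, mul_smul_comm]⟩, rfl, rfl⟩

theorem reverse_orth {l : List V} (hl : ∀ v ∈ l, Q v ≠ 0) (h : l.Pairwise fun u v => polar Q u v = 0) :
    reverse (l.map (ι Q)).prod = (-1 : F) ^ l.length.choose 2 • (l.map (ι Q)).prod := by
  induction l with
  | nil => simp
  | cons v l ih =>
    obtain ⟨h1, h2⟩ := List.pairwise_cons.1 h
    have hl' := fun x hx => hl x (List.mem_cons_of_mem _ hx)
    have : ((l.map (refl Q)).prod).1 v = v := by
      rw [prod_refl_orth_apply l h2, List.sum_eq_zero, sub_zero]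
      simp +contextual [polar_comm Q _ v, h1, eq_comm]
    simp only [List.map_cons, List.prod_cons, reverse.map_mul, reverse_ι, ih hl' h2, smul_mul_assoc,
      list_iota_mul l hl', this, involute_prod_map_ι, mul_smul_comm, smul_smul, List.length_cons,
      Nat.choose_succ_succ, Nat.choose_one_right, pow_add, mul_comm]

variable (H : Big Q) (h2 : (2 : F) ≠ 0)
include H h2

theorem ker_cases {x : SpinG Q} (h : rho Q x = 1) : x = 1 ∨ x = zz Q := by
  have := invertibleOfNonzero h2
  obtain ⟨⟨g, x⟩, h1, h3, h4⟩ := x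
  obtain rfl : g = 1 := h
  obtain ⟨c, hc⟩ := cliff_scalar_of_contract x.1 fun d => by
    obtain ⟨y, hy⟩ := H.nd.exists_polar_eq d
    rw [show d = Q.polarBilin y from LinearMap.ext fun z => (hy z).symm, ← cliff_comm, show involute x.1 = _ from h1,
      show x.1 * _ = _ from h4 y]
    exact sub_self _
  rw [show ((1, x) : commutator (OG Q) × _).2 = x from rfl, hc, reverse.commutes, ← map_mul, ← map_one (algebraMap F _)] at h3
  refine (mul_self_eq_one_iff.1 ((algebraMap F (CliffordAlgebra Q)).injective h3)).imp (fun e => ?_) fun e => ?_ <;>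
    exact Subtype.ext (Prod.ext rfl (Units.ext (by simp [hc, e, zz])))

theorem zz_ne : zz Q ≠ 1 := fun h => by
  have := invertibleOfNonzero h2
  have : (-1 : CliffordAlgebra Q) = 1 := congrArg (fun x : SpinG Q => x.1.2.1) h
  exact h2 ((algebraMap F (CliffordAlgebra Q)).injective (by
    rw [map_ofNat, map_zero, ← one_add_one_eq_two, ← neg_eq_iff_add_eq_zero, this]))

theorem cext_rho : CExt (rho Q) := ⟨fun g => by
    obtain ⟨l, h1, h3⟩ := H.nd.exists_list H.good g.1
    obtain ⟨h4, c, hc⟩ := (H.nd.list_mem_commutator_iff H.good l h1).1 (h3 ▸ g.2)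
    obtain ⟨x, hx, -⟩ := exists_lift h1 h4 hc (h3 ▸ g.2)
    exact ⟨x, Subtype.ext (hx.trans h3)⟩, fun x hx => by
    rcases ker_cases H h2 hx with rfl | rfl
    · exact one_mem _
    · exact mem_center_iff.2 fun y => Subtype.ext (Prod.ext (by simp [zz]) (by simp [zz]))⟩

theorem card_ker : Nat.card (rho Q).ker = 2 := by
  rw [Nat.card_eq_two_iff]
  exact ⟨1, ⟨zz Q, rfl⟩, fun h => zz_ne H h2 (congrArg Subtype.val h).symm, Set.eq_univ_of_forall fun x =>
    (ker_cases H h2 x.2).imp Subtype.ext Subtype.ext⟩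

theorem spin_perfect : Group.IsPerfect (SpinG Q) := by
  have := invertibleOfNonzero h2
  have h7 := H.seven
  obtain ⟨a, ha, -⟩ := (Rm.zero (Q := Q)).ns H.nd (by omega)
  obtain ⟨b, hb, k1⟩ := (Rm.one a).val H.nd (by omega) (Q a)
  obtain ⟨c, hc, k2⟩ := (Rm.two a b).val H.nd (by omega) (Q a)
  obtain ⟨x, -, hx⟩ := exists_lift (Q := Q) (l := [a, b]) (c := Q a) (by simp [*]) (by simp) (by simp [hb])
    (by simpa using H.nd.refl_mul_refl_mem_commutator ha hb.symm)
  obtain ⟨y, -, hy⟩ := exists_lift (Q := Q) (l := [b, c]) (c := Q a) (by simp [*]) (by simp) (by simp [hb, hc])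
    (by simpa using H.nd.refl_mul_refl_mem_commutator (hb ▸ ha) (hb.trans hc.symm))
  have o : ∀ u v, polar Q u v = 0 → ι Q v * ι Q u = -(ι Q u * ι Q v) := fun u v h => by
    rw [ι_mul_ι_comm, polar_comm, h]; simp
  have k3 : (⁅x, y⁆ : SpinG Q).1.2 = -1 := by
    change ⁅x.1.2, y.1.2⁆ = _
    rw [commutatorElement_def, mul_inv_eq_iff_eq_mul, mul_inv_eq_iff_eq_mul]
    refine Units.ext ?_
    simp only [Units.val_mul, hx, hy, Units.val_neg, Units.val_one, List.map, List.prod_cons, List.prod_nil, mul_one,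
      smul_mul_smul_comm, neg_one_mul, neg_mul, one_mul, ← smul_neg]
    rw [mul_assoc (ι Q b), ← mul_assoc (ι Q c), o a c (k2 a (by simp)), neg_mul, mul_assoc _ (ι Q c),
      o b c (k2 b (by simp)), mul_neg, mul_neg, neg_neg, mul_neg, ← mul_assoc (ι Q b) (ι Q a), o a b (k1 a rfl)]
    simp [mul_assoc]
  have k4 : ⁅x, y⁆ = zz Q := Subtype.ext (Prod.ext (Subtype.ext (OG.ext fun w => by
    have := (⁅x, y⁆ : SpinG Q).2.2.2 w
    simp only [k3, Units.val_neg, Units.val_one, neg_mul, mul_neg, one_mul, mul_one, neg_inj] at this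
    refine sub_eq_zero.1 (H.nd _ fun v => (algebraMap F (CliffordAlgebra Q)).injective ?_)
    rw [← ι_mul_ι_add_swap, map_sub, ← this]; simp [zz])) k3)
  refine ⟨eq_top_iff.2 fun g _ => ?_⟩
  obtain ⟨z, h3, h4⟩ : rho Q g ∈ (commutator _).map (rho Q) := by
    rw [_root_.map_commutator_eq, MonoidHom.range_eq_top.2 (cext_rho H h2).surj]
    exact (H.nd.commutator_perfect (by omega)).ge trivial
  rcases ker_cases H h2 (x := z⁻¹ * g) (by simp [h4]) with e | e <;> rw [inv_mul_eq_iff_eq_mul.1 e]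
  · simpa using h3
  · exact mul_mem h3 (k4 ▸ commutator_mem_commutator trivial trivial)

theorem has_of_ker {A : Type*} [CommGroup A] (h : ∀ K : Subgroup (SpinG Q), (∀ x, x ∈ K ↔ rho Q x ∈ center _) →
    Nat.card K = Nat.card (center (commutator (OG Q))) * 2 → Nonempty (K ≃* A)) :
    HasSchurMultiplier (commutator (OG Q) ⧸ center _) A := by
  have := Module.finite_of_finite F (M := V)
  have := spin_perfect H h2
  have k0 := cext_rho H h2
  have : Group.IsPerfect (commutator (OG Q)) := ⟨H.nd.commutator_perfect (by have := H.seven; omega)⟩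
  have : Finite (SpinG Q) := Nat.finite_of_card_ne_zero (by
    rw [card_eq_of_surjective k0.surj, card_ker H h2]; simp [Nat.card_pos.ne'])
  have k1 := card_mult_of_perfect k0
  have k2 := H.card_mult
  rw [kk, if_neg h2, k1, card_ker H h2] at k2
  have k3 : Nat.card (Mult (SpinG Q)) ∣ 1 := Nat.dvd_of_mul_dvd_mul_left two_pos k2
  have k4 := card_mult_of_perfect (cext_comp k0 cext_center)
  rw [card_mult_of_perfect cext_center, k1, card_ker H h2, Nat.dvd_one.1 k3, QuotientGroup.ker_mk', mul_one,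
    mul_one] at k4
  obtain ⟨e⟩ := h _ (fun x => QuotientGroup.eq_one_iff _) k4.symm
  exact has_of_trivial (stem_of_perfect (cext_comp k0 cext_center)) (has_of_card_mult_one k3) e

theorem has_two (h : negOne Q ∉ commutator (OG Q)) : HasCyclicSchurMultiplier (commutator (OG Q) ⧸ center _) 2 := by
  classical
  refine has_of_ker H h2 fun K _ k => ?_
  rw [H.nd.card_center_commutator H.good (by have := H.seven; omega), if_neg (by simp [h]), one_mul] at k
  exact ⟨k ▸ (zmodCyclicMulEquiv (isCyclic_of_card_dvd_prime k.dvd)).symm⟩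

theorem exists_neg (h : negOne Q ∈ commutator (OG Q)) {l : ℕ} (hl : finrank F V = 2 * l) :
    ∃ x : SpinG Q, (rho Q x).1 = negOne Q ∧ x * x = zz Q ^ l := by
  obtain ⟨b, h3, h4⟩ := H.nd.exists_orth_basis h2
  have k1 : ∀ v ∈ List.ofFn b, Q v ≠ 0 := by simpa [List.mem_ofFn] using h4
  rw [negOne_eq_prod b h3 h4] at h ⊢
  obtain ⟨k2, c, hc⟩ := (H.nd.list_mem_commutator_iff H.good _ k1).1 h
  obtain ⟨x, k3, k4⟩ := exists_lift k1 k2 hc h
  refine ⟨x, k3, Subtype.ext (Prod.ext (Subtype.ext ?_) (Units.ext ?_))⟩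
  · change (rho Q x).1 * (rho Q x).1 = _
    rw [k3, ← negOne_eq_prod b h3 h4, negOne_mul_self]; simp [zz]
  have k5 : reverse x.1.2.1 = (-1 : F) ^ l • x.1.2.1 := by
    rw [k4, map_smul, smul_comm, reverse_orth k1 (List.pairwise_ofFn.2 fun i j h => h3 i j h.ne), List.length_ofFn]
    congr 2
    rw [hl, Nat.choose_two_right, mul_assoc, Nat.mul_div_cancel_left _ two_pos, mul_comm, pow_mul,
      (show Odd (2 * l - 1) from ⟨l - 1, by have := H.seven; omega⟩).neg_one_pow]
  have k6 := x.2.2.1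
  rw [k5, mul_smul_comm] at k6
  change x.1.2.1 * x.1.2.1 = _
  rcases Nat.even_or_odd l with e | e <;> simpa [zz, e.neg_one_pow, neg_eq_iff_eq_neg] using k6

theorem has_four (h : negOne Q ∈ commutator (OG Q)) {l : ℕ} (hl : finrank F V = 2 * l) (ho : Odd l) :
    HasCyclicSchurMultiplier (commutator (OG Q) ⧸ center _) 4 := by
  classical
  have h3 : 3 ≤ finrank F V := by have := H.seven; omega
  refine has_of_ker H h2 fun K k1 k => ?_
  rw [H.nd.card_center_commutator H.good h3, if_pos ⟨h2, h⟩] at k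
  obtain ⟨x, k2, k3⟩ := exists_neg H h2 h hl
  have z2 : zz Q ^ 2 = 1 := Subtype.ext (by simp [zz])
  obtain ⟨m, rfl⟩ := ho
  rw [pow_succ, pow_mul, z2, one_pow, one_mul, ← pow_two] at k3
  have k4 : orderOf x = 2 ^ 2 := orderOf_eq_prime_pow (by rw [pow_one, k3]; exact zz_ne H h2)
    (by rw [pow_succ 2, pow_one, pow_mul, k3, z2])
  have := Nat.finite_of_card_ne_zero (α := K) (by omega)
  exact ⟨(show Nat.card K = 4 from k) ▸ (zmodCyclicMulEquiv (isCyclic_of_orderOf_eq_card
    ⟨x, (k1 x).2 ((H.nd.mem_center_commutator_iff H.good h3 _).2 (.inr k2))⟩ (by rw [← orderOf_coe, k4, k]; rfl))).symm⟩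

theorem has_klein (h : negOne Q ∈ commutator (OG Q)) {l : ℕ} (hl : finrank F V = 2 * l) (he : Even l) :
    HasSchurMultiplier (commutator (OG Q) ⧸ center _) (Multiplicative (ZMod 2 × ZMod 2)) := by
  classical
  have h3 : 3 ≤ finrank F V := by have := H.seven; omega
  refine has_of_ker H h2 fun K k1 k => ?_
  rw [H.nd.card_center_commutator H.good h3, if_pos ⟨h2, h⟩] at k
  obtain ⟨x, k2, k3⟩ := exists_neg H h2 h hl
  have z2 : zz Q ^ 2 = 1 := Subtype.ext (by simp [zz])
  obtain ⟨m, rfl⟩ := he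
  rw [← two_mul, pow_mul, z2, one_pow, ← pow_two] at k3
  have k4 : ∀ y, rho Q y = 1 → y ^ 2 = 1 := fun y h => by rcases ker_cases H h2 h with rfl | rfl <;> simp [z2]
  have := Nat.finite_of_card_ne_zero (α := K) (by omega)
  have := Finite.one_lt_card_iff_nontrivial.1 (show 1 < Nat.card K by omega)
  have k5 : ∀ y ∈ K, y ^ 2 = 1 := fun y hy => by
    rcases (H.nd.mem_center_commutator_iff H.good h3 _).1 ((k1 y).1 hy) with e | e
    · exact k4 _ (Subtype.ext e)
    have e' : rho Q (x⁻¹ * y) = 1 := by rw [map_mul, map_inv, Subtype.ext (k2.trans e.symm), inv_mul_cancel]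
    have c : Commute x (x⁻¹ * y) := mem_center_iff.1 ((cext_rho H h2).cent e') x
    rw [← mul_inv_cancel_left x y, c.mul_pow, k3, k4 _ e', mul_one]
  have : IsKleinFour K := ⟨k, (Monoid.exponent_eq_prime_iff Nat.prime_two).2 fun y hy => orderOf_eq_prime
    (Subtype.ext (k5 y y.2)) hy⟩
  exact IsKleinFour.nonempty_mulEquiv

omit h2 in
theorem has_one (h2 : (2 : F) = 0) : HasCyclicSchurMultiplier (commutator (OG Q) ⧸ center _) 1 := by
  classical
  have := Module.finite_of_finite F (M := V)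
  have : Group.IsPerfect (commutator (OG Q)) := ⟨H.nd.commutator_perfect (by have := H.seven; omega)⟩
  have k := H.nd.card_center_commutator H.good (by have := H.seven; omega)
  rw [if_neg (by simp [h2])] at k
  have := isCyclic_of_card_dvd_prime (p := 2) (k ▸ one_dvd 2)
  exact has_center (has_of_card_mult_one (by simpa [kk, h2] using H.card_mult)) k

omit H h2 in
theorem card_le_three (h : ∀ a : F, a ≠ 0 → a ^ 2 = 1) : Nat.card F ≤ 3 := by
  obtain ⟨c, hc⟩ := IsCyclic.exists_ofOrder_eq_natCard (α := Fˣ)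
  have := Nat.le_of_dvd two_pos (hc ▸ orderOf_dvd_of_pow_eq_one (Units.ext (h c c.ne_zero)))
  rw [Nat.card_units] at this
  omega

omit H h2 in
theorem card_le_two (h : ∀ a : F, a ≠ 0 → a = 1) : Nat.card F ≤ 2 := by
  by_contra k
  obtain ⟨a, h0, h1⟩ := exists_ne_one (F := F) (by omega)
  exact h1 (h a h0)

omit H h2 [Finite F] in
theorem even_card [Fintype F] (h : (2 : F) = 0) {l : ℕ} (hl : l ≠ 0) : Fintype.card F ^ l % 2 = 0 := by
  have : ¬ Odd (Fintype.card F) := fun k => two_ne_zero_of_odd k h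
  exact Nat.even_iff.1 ((Nat.not_odd_iff_even.1 this).pow_of_ne_zero hl)

end Cfsg.Agent.Mult.Om
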