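import Mathlib
import Cfsg.Agent.Mult.Tw3
import Cfsg.Agent.Chev.TwF4

/-! The prime two does not divide the order of the Schur multiplier of `²F₄(q)`, `q > 2`. -/

set_option autoImplicit false
set_option linter.unusedSectionVars false

namespace Cfsg.Agent.Mult
open Subgroup Function Cfsg.Lie Cfsg.Agent.Chev Cfsg.Agent.BN StSys Tw Cfsg.Agent.H2.Schur
open scoped commutatorElement

section
variable {D : ChevalleyDatum} [g : Good2 D] {F : Type*} [Field F] {G : Type*} [Group G] {S : StSys D F G}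
  {σ : Sym D} {T : Tw S σ} {R R' : Set (Rt D)} {r : Rt D}

theorem commute_XS (h : ∀ r ∈ R, ∀ s ∈ R', ∀ t u, Commute (S.x r t) (S.x s u)) {a b : G} (ha : a ∈ S.XS R)
    (hb : b ∈ S.XS R') : Commute a b :=
  mem_centralizer_singleton_iff.1 (S.XS_le.2 (fun r hr t => mem_centralizer_singleton_iff.2 (mem_centralizer_singleton_iff.1
    (S.XS_le.2 (fun s hs u => mem_centralizer_singleton_iff.2 (h r hr s hs t u).symm) hb)).symm) ha)

theorem Low.of {c : Ix D → ℤ} (hr : r ∈ R) (h : ∀ s ∈ R, ph c r < 2 * ph c s) : Low R r := by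
  have := h r hr
  exact ⟨c, (ph c r / 2 + 1).toNat, by omega, fun s hs => by have := h s hs; omega⟩

theorem Low.wd (h : Low R r) (l : List (ℕ × F)) (hl : ∀ q ∈ l, ∃ s ∈ R, q.1 = s) :
    wd S.x l ∈ S.XS R ∧ crd S r (wd S.x l) = ((l.filter fun v => v.1 = (r : ℕ)).map (·.2)).sum := by
  induction l with
  | nil => exact ⟨one_mem _, by simpa using h.mul (S := S) (one_mem _) (one_mem _)⟩
  | cons q l ih =>
    obtain ⟨n, t⟩ := q
    obtain ⟨s, hs, rfl⟩ := hl _ (.head _)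
    obtain ⟨h1, h2⟩ := ih fun q hq => hl q (.tail _ hq)
    rw [wd_cons, h.mul (S.x_mem hs t) h1, h2, crd_x]
    refine ⟨mul_mem (S.x_mem hs t) h1, ?_⟩
    split_ifs with e <;> simp [List.filter_cons, Fin.val_inj, e]

theorem exists_kill [Finite G] (L : List (Rt D)) (h1 : R' ⊆ R) (h2 : ∀ s ∈ R, s ∈ R' ∨ s ∈ L) (hl : ∀ s ∈ R, Low R s)
    (hc : ∀ a ∈ S.XS R, ∀ b ∈ S.XS R, Commute a b) {z : G} (hz : z ∈ T.Fx) {χ : Rt D → F}
    (hχ : ∀ r t, z * S.x r t * z⁻¹ = S.x r (χ r * t)) (h3 : ∀ s ∈ L, s ∈ R ∧ s ∉ R' ∧ χ s ≠ 1) (hr : r ∈ R) (h4 : χ r = 1)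
    {y : G} (hy : y ∈ T.Fx ⊓ S.XS R) :
    ∃ x ∈ T.Fx ⊓ S.XS R, y * ⁅z, x⁆ ∈ T.Fx ⊓ S.XS R' ∧ crd S r (y * ⁅z, x⁆) = crd S r y := by
  have k0 : ∀ R, ∀ u ∈ T.Fx ⊓ S.XS R, z * u * z⁻¹ ∈ T.Fx ⊓ S.XS R := fun R u hu => mem_inf.2
    ⟨mul_mem (mul_mem hz hu.1) (inv_mem hz), S.conj_mem_XS (fun r hr t => hχ r t ▸ S.x_mem hr _) hu.2⟩
  have k1 : ∀ s ∈ R, ∀ u ∈ T.Fx ⊓ S.XS R, crd S s ⁅z, u⁆ = (χ s - 1) * crd S s u := fun s hs u hu => by
    have := (hl s hs).mul (comm_mem_of (k0 R) hu).2 hu.2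
    rw [commutatorElement_def, inv_mul_cancel_right, ((hl s hs).conj hχ hu.2).2] at this
    rw [commutatorElement_def]; linear_combination -this
  have k2 : ∀ a ∈ S.XS R, ∀ b ∈ S.XS R, ⁅a, b⁆ ∈ S.XS R' := fun a ha b hb => (hc a ha b hb).commutator_eq ▸ one_mem _
  obtain ⟨x, hx, e⟩ := FP.surj (h := z) (A := T.Fx ⊓ S.XS R) (A' := T.Fx ⊓ S.XS R') (fun u hu e => ⟨hu.1,
    mem_of_crd L h1 h2 (fun s hs => hl s (h3 s hs).1) k2 u hu.2 fun s hs => (mul_eq_zero.1 ((k1 s (h3 s hs).1 u hu).symm.trans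
      (((hl s (h3 s hs).1).mono h1).zero (h3 s hs).2.1 e.2))).resolve_left (sub_ne_zero.2 (h3 s hs).2.2)⟩) (k0 R) (k0 R')
    (fun a ha b hb => (hc a ha.2 b hb.2).commutator_eq ▸ one_mem _) (inv_mem hy)
  exact ⟨x, hx, inv_inv y ▸ e, by rw [(hl r hr).mul hy.2 (comm_mem_of (k0 R) hx).2, k1 r hr x hx, h4]; simp⟩

end

namespace F4
attribute [local instance] good2F4

/-- the index of the orbit of a root -/
def I (r : Rt chevF4) : ℕ := byte 1853606132206490053001396734216423806967100887352538731736449451462802974175857985980995045579724997105992666710016 r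
/-- representatives of the orbits -/
def ρ (n : ℕ) : Rt chevF4 := (Fin.ofNat 48 (byte 13665882340797408081100806433 n) : Fin 48)
/-- cocharacters -/
def ν (j k : ℕ) (i : Ix chevF4) : ℤ := nib 1995788593439220273766459596015701063801939242077016591816948714838709152945336375202048986064047398832287179849158749771078512484540815772969074153157289063024297963646061297398669951155205459993720462517416810241622507750555346438228661101810319468037613165732409897817372832983853901619505723144886695475382182309713595372116295322473993292100352095894581333774136671547767789921106127666227966220309686079408305268697664030524805644629006446839486558070737929826019215557898893349914371215405136334017271564967996975410519495995636557190904592944990680947605043112110781926306955075133510438267736533853083982166260745170291497971641968741075650587682603731679528887975113510118396501919864 4 (j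 * 12 + k) i
/-- the exponents -/
noncomputable abbrev χ : (Ix chevF4 → ℤ) → Rt chevF4 → ℤ × ℤ := mn symF4 (![2, 2, 1, 1] : Fin 4 → ℕ)

theorem flt : Flt symF4 (![5, 5, 7, 7] : Fin 4 → ℤ) I ρ 12 :=
  ⟨by decide +kernel, by decide +kernel, by decide +kernel, by decide +kernel, by decide +kernel⟩

theorem cmm : ∀ r s, 0 < I r → 0 < I s → s ≠ ng r ∧
    ∀ c ∈ chevF4.commTerms r s, ((2 : ℕ) : ℤ) ∣ c.2.1 ∨ ∀ h : c.1 < chevF4.nroots, I s < I ⟨c.1, h⟩ := by decide +kernel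

set_option synthInstance.maxSize 2000 in
theorem pair : ∀ k < 12, ∀ j ≤ k, χ (ν j k) (ρ j) = 0 ∧ Sm 1 2 (χ (ν j k) (ρ k)) ∨
    j = k ∧ χ (ν k k) (ρ k) = (1, 0) ∨ (j, k) ∈ [(1, 3), (2, 7), (4, 10), (5, 11)] := by decide +kernel

variable {K : Type*} [Field K] [Fintype K] {q : ℕ} (C : CF4 K q)

theorem φφ (r : Rt chevF4) (t : K) : C.T.φ (symF4.p r) (C.T.φ r t) = t := by
  rcases (by revert r; decide +kernel : byte gLF4 r = 1 ∧ byte gLF4 (symF4.p r) = 2 ∨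
    byte gLF4 r = 2 ∧ byte gLF4 (symF4.p r) = 1) with h | h
  · rw [C.φ1 h.1, C.φ2 h.2, C.inv]
  · rw [C.φ2 h.1, C.φ1 h.2, C.inv']

theorem spec (hz : ∀ ν, ∃ z ∈ C.T.Fx, ∃ c : Rt chevF4 → K, (∀ r t, z * (glSys chevF4 K).x r t * z⁻¹ =
      (glSys chevF4 K).x r (c r * t)) ∧ (∀ r, χ ν r = 0 → c r = 1) ∧ ∀ r, Sm 1 2 (χ ν r) → c r ≠ 1)
    {j k : ℕ} {a d e e' : Rt chevF4} {C₁ C₂ : ℤ} {L : List (Rt chevF4)} {W : List (ℕ × ℤ × ℕ × ℕ)} {ν w : Fin 4 → ℤ}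
    (h : (symF4.p a = ρ j ∧ symF4.p (ρ j) = a ∧ symF4.p (ρ k) = d ∧ symF4.p d = ρ k ∧ byte gLF4 a = 2 ∧ byte gLF4 (ρ j) = 1 ∧
      byte gLF4 (ρ k) = 2 ∧ byte gLF4 d = 1 ∧ (ρ j ≠ a ∧ ρ j ≠ ng a ∧
        chevF4.commTerms a (ρ j) = [((ρ k : ℕ), C₁, 1, 1), ((d : ℕ), C₂, 2, 1)]) ∧ C₁ % 2 = 1 ∧ C₂ % 2 = 1) ∧
      (I (ρ j) = j + 1 ∧ j < I a ∧ j < k ∧ k < I (ρ k) ∧ k < I d) ∧
      (symF4.p (symF4.p e) = e ∧ symF4.p (symF4.p e') = e' ∧ commP chevF4 2 e (symF4.p e) = true ∧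
        commP chevF4 2 e' (symF4.p e') = true) ∧
      (∀ r ∈ [a, ρ j, ρ k, d], χ ν r = 0 ∧ ∀ s ∈ [e, symF4.p e, e', symF4.p e'] ++ (L ++ [ρ k, d]), commP chevF4 2 r s = true) ∧
      (∀ r ∈ L ++ [ρ k, d], ∀ s ∈ L ++ [ρ k, d], commP chevF4 2 r s = true ∧ ph w r < 2 * ph w s) ∧
      (∀ r ∈ L, r ∉ [ρ k, d] ∧ Sm 1 2 (χ ν r)) ∧ (∀ v ∈ W, ∃ s ∈ L ++ [ρ k, d], v.1 = s) ∧
      W.filter (fun v => v.1 = (ρ k : ℕ)) = [((ρ k : ℕ), 1, 1, 0)] ∧
      certF4.wordsEqP chevF4 2 [(e, 1, 1, 0), (symF4.p e, 1, 0, 1), (e', 1, 0, 0), (symF4.p e', 1, 0, 0),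
        (symF4.p e, -1, 0, 1), (e, -1, 1, 0), (symF4.p e', -1, 0, 0), (e', -1, 0, 0)] W = true) :
    Spec C.T I ρ j k := fun t u _ _ => by
  have := C.char
  obtain ⟨⟨b1, b2, b3, b4, b5, b6, b7, b8, b9, b10⟩, ⟨i1, i2, i3, i4, i5⟩, ⟨e1, e2, e3, e4⟩, h1, h2, h3, h4, h5, h6⟩ := h
  let S := glSys chevF4 K
  obtain ⟨z, z1, c, z2, z3, z4⟩ := hz ν
  have hB : IsB2 C.T C.θ C.θ' a (ρ j) (ρ k) d := ⟨b1, b2, b3, b4, C.φ2 b5, C.φ1 b6, C.φ2 b7, C.φ1 b8, b2_comm _ b9 b10,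
    S.commuteP 2 ((h1 _ (by simp)).2 _ (by simp))⟩
  have hl := flt.low' i1
  obtain ⟨k1, k2⟩ := hl.wd (S := S) [(a, C.θ t), (ρ j, t), (ρ k, C.θ t * t + 0), (d, C.θ' 0)] (by
    simp only [List.forall_mem_cons]
    exact ⟨⟨a, i2, rfl⟩, ⟨_, i1.ge, rfl⟩, ⟨_, i3.trans i4, rfl⟩, ⟨d, i3.trans i5, rfl⟩, by simp⟩)
  have k3 : wd S.x _ ∈ S.XS {r | r ∈ [a, ρ j, ρ k, d]} := wd_mem (l := [(a, C.θ t), (ρ j, t), (ρ k, C.θ t * t + 0),
    (d, C.θ' 0)]) fun r t h => S.x_mem (by simp only [List.mem_cons, Prod.mk.injEq, Fin.val_inj] at h; simp; tauto) t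
  have k4 := hB.word_mem C.hθ' C.inv t 0
  rw [← wd_four] at k4
  rw [List.filter_cons_of_neg (by simpa [Fin.val_inj] using b9.1.symm), List.filter_cons_of_pos (by simp),
    List.filter_cons_of_neg (by simp only [Fin.val_inj, decide_eq_true_eq]; intro e; rw [e] at i4; omega),
    List.filter_cons_of_neg (by simp only [Fin.val_inj, decide_eq_true_eq]; rintro rfl; omega)] at k2
  generalize wd S.x _ = a' at k1 k2 k3 k4
  have k5 : ∀ y ∈ C.T.Fx, y ∈ S.XS {s | s ∈ [e, symF4.p e, e', symF4.p e'] ++ (L ++ [ρ k, d])} → y ∈ CT C.T a' :=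
    fun y h h' => mem_CT h (commute_XS (fun r hr s hs => S.commuteP 2 ((h1 r hr).2 s hs)) k3 h')
  have k6 := k5 _ (two_mem rfl e1 (S.commuteP 2 e3) (φφ C e u)) (mul_mem (S.x_mem (by simp) _) (S.x_mem (by simp) _))
  have k7 := k5 _ (two_mem rfl e2 (S.commuteP 2 e4) (φφ C e' 1)) (mul_mem (S.x_mem (by simp) _) (S.x_mem (by simp) _))
  have l1 : ∀ r ∈ {s | s ∈ L ++ [ρ k, d]}, Low {s | s ∈ L ++ [ρ k, d]} r := fun r hr => .of hr fun s hs => (h2 r hr s hs).2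
  obtain ⟨l2, l3⟩ := (l1 (ρ k) (by simp)).wd (S := S) (evW u (C.T.φ e u) W) (List.forall_mem_map.2 h4)
  have l4 := commutator_mem_commutator k6 k7
  rw [show ⁅_, _⁆ = wd S.x (evW u (C.T.φ e u) W) from Eq.trans (by
    simp [evW, commutatorElement_def, ← S.x_neg, C.hT, mul_assoc]; rfl) (wordsEqP_spec 2 _ _ h6)] at l4
  obtain ⟨x, x1, x2, x3⟩ := exists_kill (R := {s | s ∈ L ++ [ρ k, d]}) (R' := {s | s ∈ [ρ k, d]}) L (fun s hs => List.mem_append_right _ hs)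
    (fun s hs => (List.mem_append.1 hs).symm) l1 (fun _ ha _ => commute_XS (fun r hr s hs => S.commuteP 2 (h2 r hr s hs).1) ha)
    z1 z2 (fun s hs => ⟨List.mem_append_left _ hs, (h3 s hs).1, z4 s (h3 s hs).2⟩) (r := ρ k) (by simp)
    (z3 _ (h1 _ (by simp)).1) ⟨((commutator_le_sup _ _).trans (sup_idem _).le l4).1, l2⟩
  refine ⟨a', ⟨k4, k1⟩, _, ⟨x2.1, S.XS_mono (List.forall_mem_cons.2 ⟨i4, List.forall_mem_singleton.2 i5⟩) x2.2⟩, mul_mem l4
    (commutator_mem_commutator (mem_CT z1 ?_) (k5 x x1.1 (S.XS_mono (fun s hs => List.mem_append_right _ hs) x1.2))),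
    by simpa using k2, ?_⟩
  · exact mem_centralizer_singleton_iff.1 (S.XS_le.2 (fun r hr t => mem_centralizer_singleton_iff.2
      (eq_mul_of_mul_inv_eq (by rw [z2, z3 r (h1 r hr).1, one_mul])).symm) k3)
  · rw [x3, l3, evW, List.filter_map]; erw [h5]; simp

set_option synthInstance.maxSize 4000 in
theorem two {m : ℕ} (C : CF4 K (2 ^ m)) (hm : 1 ≤ m) (hK : Fintype.card K = 2 ^ (2 * m + 1)) :
    ¬ 2 ∣ Nat.card (Mult (twistedF4 K (2 ^ m))) := by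
  have := C.char
  obtain ⟨h6, h5⟩ := C.card_eq
  have h4 : 2 ∣ Fintype.card K := hK ▸ dvd_pow_self 2 (by omega)
  have h3 : 2 ≤ 2 ^ m := Nat.le_self_pow (by omega) 2
  have h7 : Fintype.card K = 2 * (2 ^ m * 2 ^ m) := by rw [hK]; ring
  generalize 2 ^ m = q at *
  rw [C.eq_Fx] at h5 h6 ⊢
  have key := exists_torT (T := C.T) gl_R3 (w := (![2, 2, 1, 1] : Fin 4 → ℕ)) C.φ_pow (by decide +kernel) fun i a => Units.ext (by
    rw [show q * _ * (q * _) = Fintype.card K by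
      rw [h7, mul_mul_mul_comm, mul_comm]; congr 1; revert i; decide +kernel]
    exact FiniteField.pow_card a.1)
  have hb : ∀ v, Sm 1 2 v → ¬ ((Nat.card K : ℤ) - 1) ∣ v.1 + q * v.2 := fun ⟨a, n⟩ ⟨h1, h2, h0⟩ e => by
    have h7' : (2 : ℤ) ≤ q := by exact_mod_cast h3
    simp only [abs_le, Nat.card_eq_fintype_card, h7, Nat.cast_mul] at h1 h2 e
    have h8 := Int.eq_zero_of_abs_lt_dvd e (abs_lt.2 ⟨by push_cast; nlinarith, by push_cast; nlinarith⟩)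
    obtain rfl : n = 0 := by
      by_contra k
      rcases (show n = 1 ∨ n = -1 ∨ n = 2 ∨ n = -2 by omega) with rfl | rfl | rfl | rfl <;> omega
    exact h0 (Prod.ext (by simpa using h8) rfl)
  obtain ⟨a, ha⟩ := exists_gen K
  have hz : ∀ ν, ∃ z ∈ C.T.Fx, ∃ c : Rt chevF4 → K, (∀ r t, z * (glSys chevF4 K).x r t * z⁻¹ =
      (glSys chevF4 K).x r (c r * t)) ∧ (∀ r, χ ν r = 0 → c r = 1) ∧ ∀ r, Sm 1 2 (χ ν r) → c r ≠ 1 := fun ν =>
    let ⟨z, _, h⟩ := key a ν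
    ⟨z, z.2, _, h, fun r e => by simp [e], fun r e => by simpa only [ne_eq, Units.val_eq_one, ha] using hb _ e⟩
  refine not_dvd_mult' Nat.prime_two (UI C.T I 0) (nd_index (a := 1) (by
    rw [card_UI (by decide +kernel), h6, h5, ← pow_one (Fintype.card K - 1)]; simp only [mul_assoc, one_mul]; rfl) (by
    simpa only [Nat.prime_two.dvd_mul, nd_sub Nat.prime_two h4 Fintype.card_pos, nd_add Nat.prime_two h4, or_false,
      pow_one, zero_add] using nd_sub (k := 0) Nat.prime_two h4 Fintype.card_pos)) fun E _ _ π hπ _ =>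
    Sp.comm hπ (sp_flt Nat.prime_two flt (cmm_of 2 (CharP.cast_eq_zero K 2) cmm) gl_R3 key
      (by rw [Nat.card_eq_fintype_card, h7]; nlinarith) hb ν _ (by decide +kernel) pair ?_ hπ)
  simp only [List.forall_mem_cons]
  exact ⟨spec C hz (a := rF4 27) (d := rF4 30) (e := rF4 44) (e' := rF4 5) (C₁ := -1) (C₂ := -1) (L := [rF4 32, rF4 37, rF4 40, rF4 46])
      (W := [(32, 1, 0, 1), (28, 1, 1, 0), (46, 1, 2, 0), (40, 1, 0, 1), (30, 1, 0, 1), (37, 1, 1, 0)]) (ν := ![-1, -1, -1, 0]) (w := ![-7, 5, 5, -7]) (by decide +kernel),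
    spec C hz (a := rF4 34) (d := rF4 42) (e := rF4 40) (e' := rF4 17) (C₁ := -1) (C₂ := 1) (L := [rF4 38, rF4 43, rF4 44, rF4 47])
      (W := [(43, 1, 0, 1), (36, 1, 1, 0), (47, 1, 2, 0), (44, 1, 0, 1), (42, 1, 0, 1), (38, 1, 1, 0)]) (ν := ![0, -1, -1, -1]) (w := ![1, 0, -1, 2]) (by decide +kernel),
    spec C hz (a := rF4 35) (d := rF4 46) (e := rF4 36) (e' := rF4 28) (C₁ := 1) (C₂ := 1) (L := [rF4 39, rF4 44, rF4 45, rF4 47])
      (W := [(44, 1, 0, 1), (46, 1, 0, 1), (39, 1, 1, 0), (45, 1, 0, 1), (40, 1, 1, 0), (47, 1, 2, 0)]) (ν := ![0, 0, -1, -1]) (w := ![-7, 4, 7, 0]) (by decide +kernel),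
    spec C hz (a := rF4 29) (d := rF4 47) (e := rF4 28) (e' := rF4 36) (C₁ := 1) (C₂ := 1) (L := [rF4 39, rF4 40, rF4 45, rF4 46])
      (W := [(40, 1, 0, 1), (47, 1, 0, 1), (39, 1, 1, 0), (45, 1, 0, 1), (44, 1, 1, 0), (46, 1, 2, 0)]) (ν := ![0, 0, -1, 0]) (w := ![-7, 4, 7, 0]) (by decide +kernel), by simp⟩

end F4

end Cfsg.Agent.Mult
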