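import Mathlib
import Cfsg.Agent.Mult.TwF
import Cfsg.Agent.Mult.Univ

/-! The Schur multiplier of `³D₄(q)`. -/

set_option autoImplicit false
set_option linter.unusedSectionVars false

namespace Cfsg.Agent.Mult
open Subgroup Function Cfsg.Lie Cfsg.Agent.Chev Cfsg.Agent.BN StSys Tw Cfsg.Agent.H2.Schur
open scoped commutatorElement

section
variable {E G : Type*} [Group E] [Group G] {π : E →* G} {h : G} {A A' A'' B B' : Subgroup G} {Hs : Set G} {β : G → G → E}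

theorem FP.trans (h1 : FP h A A') (h2 : FP h A' A'') (e : A'' ≤ A') : FP h A A'' := fun u hu k => h2 u (h1 u hu (e k)) k

theorem FP.mid [Finite G] (hf : FP h A A'') (h1 : A'' ≤ A') (h2 : A' ≤ A) (hA : ∀ u ∈ A, h * u * h⁻¹ ∈ A)
    (hA' : ∀ u ∈ A', h * u * h⁻¹ ∈ A') (hA'' : ∀ u ∈ A'', h * u * h⁻¹ ∈ A'') (hc : ∀ a ∈ A, ∀ b ∈ A, ⁅a, b⁆ ∈ A'') :
    FP h A A' := fun u hu k => by
  obtain ⟨d, hd, e⟩ := FP.surj (fun v hv => hf v (h2 hv)) hA' hA'' (fun a ha b hb => hc a (h2 ha) b (h2 hb)) k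
  have h3 := mul_mem (inv_mem hu) (h2 hd)
  rw [show (⁅h, u⁆)⁻¹ * ⁅h, d⁆ = ⁅u, ⁅h, u⁻¹ * d⁆⁆ * ⁅h, u⁻¹ * d⁆ by simp only [commutatorElement_def]; group,
    A''.mul_mem_cancel_left (hc _ hu _ (comm_mem_of hA h3))] at e
  simpa using mul_mem hd (inv_mem (h1 (hf _ h3 e)))

theorem SP.split (h : SP π Hs A A'' B B' β) (h1 : A' ≤ A) (k1 : SP π Hs A' A'' B B' β → ∀ a ∈ A', ∀ b ∈ B, β a b = 1)
    (k2 : SP π Hs A A' B B' β → ∀ a ∈ A, ∀ b ∈ B, β a b = 1) : ∀ a ∈ A, ∀ b ∈ B, β a b = 1 :=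
  k2 ⟨h.l, h.r, k1 ⟨fun a ha a' ha' => h.l a (h1 ha) a' (h1 ha'), fun a ha => h.r a (h1 ha), h.l0,
    fun a ha => h.r0 a (h1 ha), h.cm, fun g hg a ha => h.inv g hg a (h1 ha)⟩, h.r0, h.cm, h.inv⟩

theorem conj_mem_comm (hA : ∀ u ∈ A, h * u * h⁻¹ ∈ A) : ∀ d ∈ ⁅A, A⁆, h * d * h⁻¹ ∈ ⁅A, A⁆ := fun _ hd =>
  (commutator_le (H₃ := ⁅A, A⁆.comap (MulAut.conj h).toMonoidHom)).2 (fun a ha b hb => by
    simpa [conjugate_commutatorElement] using commutator_mem_commutator (hA a ha) (hA b hb)) hd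

theorem comm_step (hπ : CExt π) {M : Subgroup E} (hM : ∀ m ∈ M, π m = 1 → m = 1)
    (hn : ∀ x, π x ∈ A → x ∈ normalizer (M : Set E))
    (hc : ∀ u ∈ A, ∀ v ∈ A, ∃ a ∈ A, ∃ b ∈ A, a⁻¹ * u ∈ M.map π ∧ b⁻¹ * v ∈ M.map π ∧ CM π a b) :
    ∀ z ∈ ⁅A.comap π, A.comap π⁆, π z = 1 → z = 1 := fun z hz => hM z (commutator_le.2 (fun x hx y hy => by
  obtain ⟨a, ha, b, hb, ⟨m, hm, e⟩, ⟨n, hn', e'⟩, h⟩ := hc _ hx _ hy
  have k := h (x := x * m⁻¹) (y := y * n⁻¹) (by simp [e]) (by simp [e'])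
  have k1 := hn (x * m⁻¹) (by simpa [e])
  have k2 := hn (y * n⁻¹) (by simpa [e'])
  obtain ⟨a, rfl⟩ : ∃ a, x = a * m := ⟨x * m⁻¹, by simp⟩
  obtain ⟨b, rfl⟩ : ∃ b, y = b * n := ⟨y * n⁻¹, by simp⟩
  simp only [mul_inv_cancel_right] at k k1 k2
  convert mul_mem (mul_mem ((k1 m).1 hm) ((mul_mem k1 k2 _).1 (mul_mem hn' (inv_mem hm)))) ((k2 _).1 (inv_mem hn')) using 1
  rw [commutatorElement_def, show (a * b)⁻¹ = a⁻¹ * b⁻¹ by rw [k.eq, mul_inv_rev]]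
  group) hz)

end

section
variable {D : ChevalleyDatum} [g : Good2 D] {F : Type*} [Field F] {G : Type*} [Group G] {S : StSys D F G}
  {R : Set (Rt D)} {r v s₀ : Rt D}

/-- the root subgroup of `v` normalises the subgroup of `R` -/
abbrev Nm (R : Set (Rt D)) (v : Rt D) : Prop := ∀ s ∈ R, s ≠ v ∧ s ≠ ng v ∧ ∀ c ∈ D.commTerms v s, ∃ s' ∈ R, c.1 = s'

theorem Nm.conj_eq (h : Nm R v) (c : F) {s : Rt D} (hs : s ∈ R) (t : F) :
    S.x v c * S.x s t * (S.x v c)⁻¹ = wd S.x (((s : ℕ), t) :: D.commWord F v s (-c) t) := by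
  rw [wd_cons, ← S.x_neg, mul_assoc, S.comm v s (h s hs).1 (h s hs).2.1, S.x_neg, mul_assoc, mul_inv_cancel_left]

theorem Nm.mem (h : Nm R v) (c : F) {s : Rt D} (hs : s ∈ R) (t : F) :
    ∀ q ∈ ((s : ℕ), t) :: D.commWord F v s (-c) t, ∃ s ∈ R, q.1 = s :=
  List.forall_mem_cons.2 ⟨⟨s, hs, rfl⟩, List.forall_mem_map.2 (h s hs).2.2⟩

theorem Nm.conj (h : Nm R v) (c : F) {a : G} (ha : a ∈ S.XS R) : S.x v c * a * (S.x v c)⁻¹ ∈ S.XS R :=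
  S.conj_mem_XS (fun s hs t => h.conj_eq (S := S) c hs t ▸ wd_mem fun s' _ e =>
    let ⟨_, h1, e'⟩ := h.mem c hs t _ e; S.x_mem (Fin.ext e' ▸ h1) _) ha

theorem Nm.crd_conj (h : Nm R v) (h1 : Low R r) (h2 : Low R s₀) {C : ℤ} (h3 : ∀ s ∈ R, (D.commTerms v s).filter
    (fun c => c.1 = (r : ℕ)) = if s = s₀ ∧ C ≠ 0 then [((r : ℕ), C, 1, 1)] else []) (c : F) {a : G} (ha : a ∈ S.XS R) :
    crd S r (S.x v c * a * (S.x v c)⁻¹) = crd S r a + C * c * crd S s₀ a := by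
  refine add_ext (f := fun a => crd S r (S.x v c * a * (S.x v c)⁻¹)) (f' := fun a => crd S r a + C * c * crd S s₀ a)
    (fun a ha b hb => ?_) (fun a ha b hb => ?_) (fun s hs t => ?_) ha
  · rw [← h1.mul (h.conj c ha) (h.conj c hb)]; simp [mul_assoc]
  · rw [h1.mul ha hb, h2.mul ha hb]; ring
  · have := h3 s hs
    rw [h.conj_eq c hs, (h1.wd _ (h.mem c hs t)).2]
    simp only [crd_x, ChevalleyDatum.commWord, List.filter_cons, List.filter_map,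
      Function.comp_def, this, Fin.val_inj]
    split_ifs <;> simp_all

end

namespace D4
attribute [local instance] good2D4

/-- the index of the orbit of a root -/
def I (r : Rt chevD4) : ℕ := byte 147599979220501020115690536070695480320094563548281176064 r
/-- the level of a root -/
def J (r : Rt chevD4) : ℕ := byte 73847880093048073528448653011038658301182904604754444288 r
/-- the roots -/
abbrev rt (n : Fin 24) : Rt chevD4 := n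
/-- representatives of the orbits -/
def ρ (n : ℕ) : Rt chevD4 := rt ([14, 18, 19, 20, 22].getD n 23)

theorem flt : Flt symD4a (fun _ => 1) I ρ 6 :=
  ⟨by decide +kernel, by decide +kernel, by decide +kernel, by decide +kernel, by decide +kernel⟩

theorem cmm {K : Type*} [Field K] : Cmm (glSys chevD4 K) I ∧ Cmm (glSys chevD4 K) J :=
  ⟨cmm_of 0 (by simp) (by decide +kernel), cmm_of 0 (by simp) (by decide +kernel)⟩

instance (n : ℕ) (s : Rt chevD4) : Decidable (s ∈ RI I n) := Nat.decLt n (I s)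

/-- low roots -/
abbrev Lw (n : ℕ) (r : Rt chevD4) : Prop :=
  r ∈ RI I n ∧ ∀ s ∈ RI I n, ph (![1, 0, 1, 1] : Fin 4 → ℤ) r < 2 * ph (![1, 0, 1, 1] : Fin 4 → ℤ) s

/-- the action of a root element on a coordinate -/
abbrev Cj (n : ℕ) (v r s₀ : Rt chevD4) (C : ℤ) : Prop := Nm (RI I n) v ∧ Lw n r ∧ Lw n s₀ ∧ ∀ s ∈ RI I n,
  (chevD4.commTerms v s).filter (fun c => c.1 = (r : ℕ)) = if s = s₀ ∧ C ≠ 0 then [((r : ℕ), C, 1, 1)] else []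

theorem nm (k : ℕ) : ∀ v ∈ [rt 14, rt 9], Nm (RI J k) v := fun v hv s hs =>
  let ⟨h1, h2, h3⟩ := (by decide +kernel : ∀ v ∈ [rt 14, rt 9], ∀ s, 0 < J s → s ≠ v ∧ s ≠ ng v ∧
    ∀ c ∈ chevD4.commTerms v s, ∃ s' : Rt chevD4, J s ≤ J s' ∧ c.1 = s') v hv s (k.zero_le.trans_lt hs)
  ⟨h1, h2, fun c hc => (h3 c hc).imp fun _ h => ⟨hs.trans_le h.1, h.2⟩⟩

variable {K : Type*} [Field K] [Fintype K] {q : ℕ} (C : CD4 K q)

theorem tor {c : K} (hc : c ≠ 0) : ∃ z : C.T.Fx, z.1 ∈ (glSys chevD4 K).H ∧ ∃ χ : Rt chevD4 → K,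
    (∀ r t, z * (glSys chevD4 K).x r t * z.1⁻¹ = (glSys chevD4 K).x r (χ r * t)) ∧ (χ (rt 14) = 1 ∧ χ (rt 9) = 1) ∧
    (∀ j ∈ [1, 2], χ (ρ j) = c * C.ψ c / C.ψ (C.ψ c)) ∧ χ (ρ 3) = c ^ 2 ∧
    ∀ r ∈ [rt 22, rt 23], χ r = c * C.ψ c * C.ψ (C.ψ c) := by
  have h1 := (map_ne_zero C.ψ).2 hc
  have h2 := (map_ne_zero C.ψ).2 h1
  obtain ⟨d, hd⟩ : ∃ d : Fin 4 → Kˣ, ∀ i, (d i : K) =
      ![c * C.ψ c, c * C.ψ c * C.ψ (C.ψ c), C.ψ c * C.ψ (C.ψ c), C.ψ (C.ψ c) * c] i :=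
    ⟨fun i => .mk0 (![_, _, _, _] i) (by fin_cases i <;> simp [*]), fun _ => rfl⟩
  have := map_Tσ_le (T := C.T) gl_R3 C.φ_pow ⟨d, (mem_Tσ_D4 d).2 (by
    simp [hd, Units.ext_iff, ← C.hψ, C.ψψ, mul_comm, mul_left_comm, -mul_eq_mul_left_iff]), rfl⟩
  have e : ∀ r (v : Fin 4 → ℤ), (∀ i, ca (nD4 i) r = v i) → ((∏ i : Ix chevD4, d i ^ ca i r : Kˣ) : K) =
      d 0 ^ v 0 * d 1 ^ v 1 * d 2 ^ v 2 * d 3 ^ v 3 := fun r v h =>
    (congrArg Units.val (Finset.prod_congr (s₁ := .univ) (g := fun i : Fin 4 => d i ^ v i) rfl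
      fun i _ => congrArg _ (h i))).trans (by simp [Fin.prod_univ_four])
  have k := hT_conj' (gl_R3 (D := chevD4)) d
  generalize (gl_R3 (D := chevD4)).hT d = z at this k
  refine ⟨⟨z, this.1⟩, this.2, fun r => (∏ i : Ix chevD4, d i ^ ca i r : Kˣ), k, ?_⟩
  simp only [List.forall_mem_cons, e (rt 14) ![-1, 2, -1, -1] (by decide +kernel), e (rt 9) ![1, -2, 1, 1] (by decide +kernel),
    e (ρ 1) ![2, -1, 0, 0] (by decide +kernel), e (ρ 2) ![1, 1, -1, -1] (by decide +kernel), e (ρ 3) ![1, 0, -1, 1] (by decide +kernel),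
    e (rt 22) ![1, -1, 1, 1] (by decide +kernel), e (rt 23) ![0, 1, 0, 0] (by decide +kernel), hd]
  refine ⟨⟨?_, ?_⟩, ⟨?_, ?_, by simp⟩, ?_, ?_, ?_, by simp⟩ <;> simp [zpow_ofNat] <;> field_simp

theorem exists_tr (h : ∃ s, C.ψ s ≠ s) {t : K} (ht : C.ψ t = t) : ∃ s, s + C.ψ s + C.ψ (C.ψ s) = t := by
  obtain ⟨s, hs⟩ : ∃ s, s + C.ψ s + C.ψ (C.ψ s) ≠ 0 := by
    by_contra! k
    obtain ⟨s, hs⟩ := h
    have h1 := k 1
    have h2 := k (s * C.ψ s)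
    simp only [map_mul, map_one, C.ψψ] at h1 h2
    exact hs (sub_eq_zero.1 (pow_eq_zero_iff three_ne_zero |>.1 (by
      linear_combination (C.ψ s ^ 2 - s ^ 2) * k s - (C.ψ s - s) * h2 + (C.ψ s * s ^ 2 - C.ψ s ^ 2 * s) * h1)))
  refine ⟨t / (s + C.ψ s + C.ψ (C.ψ s)) * s, ?_⟩
  have e : C.ψ (s + C.ψ s + C.ψ (C.ψ s)) = s + C.ψ s + C.ψ (C.ψ s) := by simp only [map_add, C.ψψ]; ring
  simp only [map_mul, map_div₀, ht, e, ← mul_add, div_mul_cancel₀ _ hs]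

local notation "S" => glSys chevD4 K
local notation "U" => UI C.T I

theorem cj {n : ℕ} {v : Rt chevD4} (r s₀ : Rt chevD4) (c : ℤ) (h : Cj n v r s₀ c) {a : GL chevD4.Idx K} (ha : a ∈ (S).XS (RI I n)) :
    crd S r ((S).x v 1 * a * ((S).x v 1)⁻¹) = crd S r a + c * crd S s₀ a := by
  rw [h.1.crd_conj (.of h.2.1.1 h.2.1.2) (.of h.2.2.1.1 h.2.2.1.2) h.2.2.2 1 ha, mul_one]

theorem mU {I : Rt chevD4 → ℕ} {n : ℕ} {a : C.T.Fx} (h : a ∈ UI C.T I n) : a.1 ∈ (S).XS (RI I n) := h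

theorem cc {n : ℕ} {r : Rt chevD4} (h : Lw n r) {y u : C.T.Fx} (h1 : ⁅y, u⁆ ∈ U n) (hu : u ∈ U n) :
    crd S r (y.1 * u.1 * y.1⁻¹) = crd S r ⁅y, u⁆.1 + crd S r u.1 := by
  rw [← (Low.of h.1 h.2).mul (mU C h1) (mU C hu)]; simp [commutatorElement_def]

theorem eJ : UI C.T J 0 = U 1 ∧ UI C.T J 1 = U 3 ∧ UI C.T J 2 = U 4 ∧ UI C.T J 3 = U 6 := by
  refine ⟨?_, ?_, ?_, ?_⟩ <;> exact congrArg (fun R => ((S).XS R).subgroupOf C.T.Fx)
    (Set.ext (by simp only [RI, Set.mem_setOf_eq]; decide +kernel))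

theorem x_fx {r : Rt chevD4} (h : symD4a.p r = r) : (S).x r 1 ∈ C.T.Fx := (x_mem_Fx h).2 (by simp [C.φ_fix h])

/-- an element of the Levi subgroup -/
noncomputable def w : C.T.Fx := ⟨(S).x (rt 14) 1 * (S).x (rt 9) 1, mul_mem (x_fx C (by decide +kernel)) (x_fx C (by decide +kernel))⟩

theorem w_eq (u : C.T.Fx) : (w C).1 * u.1 * (w C).1⁻¹ =
    (S).x (rt 14) 1 * ((S).x (rt 9) 1 * u * ((S).x (rt 9) 1)⁻¹) * ((S).x (rt 14) 1)⁻¹ := by simp [w, mul_assoc]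

theorem w_conj (k : ℕ) : ∀ u ∈ UI C.T J k, w C * u * (w C)⁻¹ ∈ UI C.T J k := fun u hu =>
  show (w C).1 * u.1 * (w C).1⁻¹ ∈ (S).XS _ from w_eq C u ▸ (nm k _ (by simp)).conj 1 ((nm k _ (by simp)).conj 1 hu)

set_option synthInstance.maxSize 2000 in
theorem fp_w : ∀ n ∈ [1, 4], FP (w C) (U n) (U (n + 2)) := fun n hn u hu e => by
  obtain ⟨h0, h1, h2, h3, h4, h5⟩ := (by decide +kernel : ∀ n ∈ [1, 4], n < 5 ∧ (ρ n ∉ RI I (n + 2) ∧ ρ (n + 1) ∉ RI I (n + 2)) ∧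
    Cj n (rt 9) (ρ n) (ρ (n + 1)) 1 ∧ Cj n (rt 9) (ρ (n + 1)) (ρ n) 0 ∧ Cj n (rt 14) (ρ n) (ρ n) 0 ∧
    Cj n (rt 14) (ρ (n + 1)) (ρ n) 1) n hn
  have k : ∀ r, Lw n r → r ∉ RI I (n + 2) → crd S r ((w C).1 * u.1 * (w C).1⁻¹) = crd S r u.1 := fun r h h' => by
    rw [cc C h (UI_anti (by omega) e) hu, ((Low.of h.1 h.2).mono (RI_anti (n.le_add_right 2))).zero h' (mU C e), zero_add]
  have k1 := k _ h2.2.1 h1.1
  have k2 := k _ h3.2.1 h1.2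
  have hu' := h2.1.conj (1 : K) (mU C hu)
  rw [w_eq, cj _ _ _ h4 hu', cj _ _ _ h2 (mU C hu)] at k1
  rw [w_eq, cj _ _ _ h5 hu', cj _ _ _ h3 (mU C hu), cj _ _ _ h2 (mU C hu)] at k2
  have k3 : crd S (ρ (n + 1)) u.1 = 0 := by simpa using k1
  exact (flt.k2 cmm.1 (by omega) u ((flt.k2 cmm.1 (by omega) u hu).1 (by simpa [k3] using k2))).1 k3

set_option synthInstance.maxSize 2000 in
theorem triv_w : ∀ a ∈ U 3, a⁻¹ * (w C * a * (w C)⁻¹) ∈ U 4 := fun a ha => by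
  have h : Cj 3 (rt 9) (ρ 3) (ρ 3) 0 ∧ Cj 3 (rt 14) (ρ 3) (ρ 3) 0 := by decide +kernel
  refine flt.congr cmm.1 (by omega) ha ((eJ C).2.1 ▸ w_conj C 1 a ((eJ C).2.1 ▸ ha)) ((congrArg _ (w_eq C a)).trans ?_)
  rw [cj _ _ _ h.2 (h.1.1.conj 1 (mU C ha)), cj _ _ _ h.1 (mU C ha)]; simp

set_option synthInstance.maxSize 4000 in
theorem le_comm (h : ∃ s, C.ψ s ≠ s) : U 4 ≤ ⁅U 1, U 1⁆ := by
  have k : ∀ t, C.ψ t = t → ∃ d ∈ ⁅U 1, U 1⁆, d ∈ U 4 ∧ crd S (ρ 4) d.1 = t := fun t ht => by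
    obtain ⟨s, rfl⟩ := exists_tr C h ht
    obtain ⟨e1, e2, e3⟩ : sgn (bit gED4a (rt 20)) 1 = 1 ∧ sgn (bit gED4a (rt 21)) 1 = -1 ∧ sgn (bit gED4a (rt 17)) 1 = -1 := by
      decide +kernel
    have h1 := Tw.three_mem (T := C.T) (r := rt 20) (s := rt 21) (v := rt 17) (by decide +kernel) (by decide +kernel)
      (by decide +kernel) ((S).commute_nil (by decide +kernel)) ((S).commute_nil (by decide +kernel)) (t := s) (by
        rw [C.hT, C.hT, C.hT, e1, e2, e3]; simp [C.ψψ])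
    have h2 := (C.o0.1 _).2 ⟨1, rfl⟩
    simp only [map_one] at h2
    obtain ⟨c1, c2, c3, c4, c5, c6⟩ : Cj 3 (sim (nD4 0)) (ρ 4) (rt 17) (-1) ∧ Cj 3 (sim (nD4 2)) (ρ 4) (rt 20) 1 ∧
      Cj 3 (sim (nD4 3)) (ρ 4) (rt 21) 1 ∧ Cj 3 (sim (nD4 2)) (rt 17) (rt 17) 0 ∧ Cj 3 (sim (nD4 3)) (rt 17) (rt 17) 0 ∧
      Cj 3 (sim (nD4 3)) (rt 20) (rt 20) 0 := by decide +kernel
    have h3 : (⟨_, h1⟩ : C.T.Fx) ∈ U 3 := mul_mem ((S).x_mem c2.2.2.1.1 _)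
      (mul_mem ((S).x_mem c3.2.2.1.1 _) ((S).x_mem c1.2.2.1.1 _))
    have h4 : crd S (rt 20) (⟨_, h1⟩ : C.T.Fx).1 = s := by
      have l := Low.of c2.2.2.1.1 c2.2.2.1.2
      rw [l.mul ((S).x_mem c2.2.2.1.1 _) (mul_mem ((S).x_mem c3.2.2.1.1 _) ((S).x_mem c1.2.2.1.1 _)),
        l.mul ((S).x_mem c3.2.2.1.1 _) ((S).x_mem c1.2.2.1.1 _)]
      simp [-glSys_x, crd_x, show rt 21 ≠ rt 20 by decide, show rt 17 ≠ rt 20 by decide]
    have h5 : (⟨_, h2.1⟩ : C.T.Fx) ∈ U 1 := mul_mem ((S).x_mem (by decide +kernel) _)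
      (mul_mem ((S).x_mem (by decide +kernel) _) ((S).x_mem (by decide +kernel) _))
    generalize (⟨_, h1⟩ : C.T.Fx) = u at h3 h4
    have h6 : crd S (rt 21) u.1 = _ := flt.k0 (r := rt 20) (n := 3) (by decide +kernel) h3
    have h7 : crd S (rt 17) u.1 = _ := flt.k0 (r := rt 21) (n := 3) (by decide +kernel) h3
    have h8 := cmm.2.UI 1 _ ((eJ C).1 ▸ h5) u ((eJ C).2.1 ▸ h3)
    rw [(eJ C).2.2.1] at h8
    refine ⟨_, commutator_mem_commutator h5 (UI_anti (by omega) h3), h8, ?_⟩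
    have h9 := cc C c1.2.1 (UI_anti (by omega) h8) h3
    replace h3 := mU C h3
    have h3' := c3.1.conj (1 : K) h3
    rw [show ∀ a b c d : GL chevD4.Idx K, a * (b * c) * d * (a * (b * c))⁻¹ = a * (b * (c * d * c⁻¹) * b⁻¹) * a⁻¹ from
      fun a b c d => by group, cj _ _ _ c1 (c2.1.conj 1 h3'),
      cj _ _ _ c2 h3', cj _ _ _ c4 h3', cj _ _ _ c3 h3, cj _ _ _ c5 h3, cj _ _ _ c6 h3, h7, h6, h4, C.hT, C.hT, e1, e2] at h9
    simp only [Int.cast_one, Int.cast_neg, Int.cast_zero, one_mul] at h9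
    linear_combination -h9
  have fx : ∀ n ∈ [4, 5], ∀ a ∈ U n, C.ψ (crd S (ρ n) a.1) = crd S (ρ n) a.1 := fun n hn a ha => by
    obtain ⟨h1, h2⟩ := (by decide +kernel : ∀ n ∈ [4, 5], I (ρ n) = n + 1 ∧ symD4a.p (ρ n) = ρ n) n hn
    rw [← C.φ_fix h2, ← flt.k0 h1 ha, h2]
  have k5 : U 5 ≤ ⁅U 1, U 1⁆ := fun a ha => by
    obtain ⟨d, h1, h2, h3⟩ := k _ (fx 5 (by simp) a ha)
    obtain ⟨y, e⟩ : ∃ y : C.T.Fx, y.1 = (S).x (rt 14) 1 := ⟨⟨_, x_fx C (by decide +kernel)⟩, rfl⟩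
    have hy : y ∈ U 0 := show y.1 ∈ (S).XS _ from e ▸ (S).x_mem (by decide +kernel) _
    have c1 : Cj 4 (rt 14) (ρ 5) (ρ 4) 1 := by decide +kernel
    have h4 := cmm.1.UI 4 y hy d h2
    have h5 := cc C c1.2.1 (UI_anti (by omega) h4) h2
    rw [e, cj _ _ _ c1 (mU C h2)] at h5
    have h6 := flt.congr cmm.1 (by omega) ha h4 (by push_cast at h5; linear_combination h3 - h5)
    rw [flt.bot, mem_bot, inv_mul_eq_one] at h6
    exact h6 ▸ comm_mem_of (conj_mem_comm fun u hu => cmm.1.conj hy hu) h1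
  intro a ha
  obtain ⟨d, h1, h2, h3⟩ := k _ (fx 4 (by simp) a ha)
  simpa using mul_mem h1 (inv_mem (k5 (flt.congr cmm.1 (by omega) ha h2 h3)))

theorem tor' {c : K} (hc : c ≠ 0) : ∃ z : C.T.Fx, (z.1 ∈ (S).H ∧ Commute z (w C)) ∧
    (∀ j ∈ [1, 2], ∀ a ∈ U j, z * a * z⁻¹ ∈ U j ∧ crd S (ρ j) (z * a * z⁻¹).1 = c * C.ψ c / C.ψ (C.ψ c) * crd S (ρ j) a.1) ∧
    (∀ a ∈ U 3, z * a * z⁻¹ ∈ U 3 ∧ crd S (ρ 3) (z * a * z⁻¹).1 = c ^ 2 * crd S (ρ 3) a.1) ∧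
    (c * C.ψ c * C.ψ (C.ψ c) = 1 → ∀ a ∈ U 4, a⁻¹ * (z * a * z⁻¹) ∈ U 6) ∧
    (c ^ 2 ≠ 1 → FP z (U 1) (U 3) ∧ FP z (U 3) (U 4)) ∧ ∀ a ∈ U 0, ⁅a, z⁆ ∈ U 1 := by
  obtain ⟨z, h0, χ, h1, h2, h3, h4, h5⟩ := tor C hc
  have k : ∀ r t, χ r = 1 → Commute z.1 ((S).x r t) := fun r t h => eq_mul_of_mul_inv_eq (by rw [h1, h, one_mul])
  have k1 := fun j (hj : j < 6) => flt.k3 (flt.val j hj) h1
  have k2 := fun j (hj : j < 6) => fp_of_coord (flt.k1 (flt.val j hj)) (flt.k2 cmm.1 hj) (k1 j hj)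
  refine ⟨z, ⟨h0, Subtype.ext ((k _ _ h2.1).mul_right (k _ _ h2.2))⟩, fun j hj => h3 j hj ▸ k1 j (by simp at hj; omega),
    h4 ▸ k1 3 (by omega), fun e a ha => ?_, fun e => ?_, fun a ha => ?_⟩
  · have : a.1 * z = z * a := mem_centralizer_singleton_iff.1 ((S).XS_le.2 (fun r hr t => mem_centralizer_singleton_iff.2
      (k r t ((h5 r (by revert r; decide +kernel)).trans e)).symm) (mU C ha))
    rw [← show a * z = z * a from Subtype.ext this]; simp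
  · have e' : c * C.ψ c / C.ψ (C.ψ c) ≠ 1 := fun h => e (by
      have h6 := (div_eq_one_iff_eq (by simpa using hc)).1 h
      have h7 := congrArg (fun t => C.ψ (C.ψ t)) h6
      simp only [map_mul, C.ψψ] at h7
      exact mul_left_cancel₀ (a := C.ψ (C.ψ c)) (by simpa using hc) (by linear_combination c * h7 + h6))
    exact ⟨(k2 1 (by omega) (h3 1 (by simp) ▸ e')).trans (k2 2 (by omega) (h3 2 (by simp) ▸ e')) (UI_anti (by omega)),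
      k2 3 (by omega) (h4 ▸ e)⟩
  · have := flt.congr cmm.1 (by omega) ha (k1 0 (by omega) a ha).1 (by rw [(k1 0 (by omega) a ha).2, show χ (ρ 0) = 1 from h2.1, one_mul])
    have h6 : a * _ * a⁻¹ ∈ U 1 := cmm.1.conj ha (mU C (inv_mem this))
    simpa [commutatorElement_def, mul_assoc] using h6

include C in
theorem not_dvd {p : ℕ} (hq : IsPrimePow q) (hK : Fintype.card K = q ^ 3) (hp : p.Prime) [CharP K p] :
    ¬ p ∣ Nat.card (Mult (twistedD4 K q)) := by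
  have := Fact.mk hp
  have h2 := hq.two_le
  have h4 : p ∣ q := hp.dvd_of_dvd_pow (hK ▸ (CharP.cast_eq_zero_iff K p _).1 (FiniteField.cast_card_eq_zero K))
  have h5 := card_twD4 hq hK
  have h6 := card_U_twD4 hq hK
  rw [C.eq_Fx] at h5 h6 ⊢
  have : Finite C.T.Fx := C.eq_Fx ▸ inferInstance
  obtain ⟨a, ha⟩ := exists_gen K
  rw [Nat.card_eq_fintype_card, hK] at ha
  replace ha : ∀ n : ℕ, 0 < n → (a : K) ^ n = 1 → q ^ 3 - 1 ∣ n := fun n _ e => by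
    have := (ha n).1 (Units.ext (by simpa using e))
    rw [← Nat.cast_one, ← Nat.cast_sub (Nat.one_le_pow _ _ hq.pos)] at this
    exact_mod_cast this
  have h8 := Nat.pow_le_pow_left h2 3
  have nc : ∀ i : ℕ, ((a : K) ^ 2) ^ p ^ i * a ^ 2 ≠ 1 := nc_of fun i hi e => by
    obtain ⟨m, hm⟩ := ha (2 * p ^ i + 2) (by omega) (by rw [← e]; ring)
    rw [Nat.card_eq_fintype_card, hK] at hi
    have h9 := Nat.pow_le_pow_left (Nat.le_of_dvd hq.pos h4) 3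
    have h10 := h4.pow three_ne_zero
    generalize p ^ i = x, q ^ 3 = n at *
    rcases hp.two_le.eq_or_lt with rfl | h
    · obtain rfl : m = 1 := by rcases m with _ | _ | m <;> first | rfl | omega | nlinarith [Nat.sub_add_cancel (by omega : 1 ≤ n)]
      omega
    · have : 27 ≤ p ^ 3 := Nat.pow_le_pow_left h 3
      have := Nat.le_of_dvd (by omega) ⟨m, hm⟩
      have := Nat.mul_le_mul_right x h
      omega
  have a0 := a.ne_zero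
  have a1 := (map_ne_zero C.ψ).2 a0
  have a2 := (map_ne_zero C.ψ).2 a1
  have a3 : (C.ψ a / a) ^ 2 ≠ 1 := fun e => by
    have := Nat.le_of_dvd (by omega) (ha ((q - 1) * 2) (by omega) (by
      rw [pow_mul, ← e, C.hψ, pow_sub₀ _ a0 hq.pos, pow_one, div_eq_mul_inv]))
    have : q * 2 ^ 2 ≤ q ^ 3 := pow_succ' q 2 ▸ Nat.mul_le_mul_left q (Nat.pow_le_pow_left h2 2)
    omega
  have hD := le_comm C ⟨a, fun e => a3 (by simp [e])⟩
  obtain ⟨z₀, x0, x1, -⟩ := tor' C (mul_ne_zero a0 a2)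
  rw [show _ / _ = (a : K) ^ 2 by simp only [map_mul, C.ψψ]; field_simp] at x1
  obtain ⟨z₁, y0, -, y1, -, y2, y3⟩ := tor' C a0
  replace y2 := y2 fun e => nc 0 (by simp [e])
  obtain ⟨z₂, z0, -, -, z1, z2, -⟩ := tor' C (div_ne_zero a1 a0)
  replace z1 := z1 (by simp only [map_div₀, C.ψψ]; field_simp)
  obtain ⟨e0, e1, e2, e3⟩ := eJ C
  have w1 := e0 ▸ w_conj C 0
  have w3 := e1 ▸ w_conj C 1
  have w4 := e2 ▸ w_conj C 2
  have w6 := e3 ▸ w_conj C 3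
  have c1 : ∀ a ∈ U 1, ∀ b ∈ U 1, ⁅a, b⁆ ∈ U 3 := e0 ▸ e1 ▸ cmm.2.UI 0
  have c4 : ∀ a ∈ U 1, ∀ b ∈ U 4, ⁅a, b⁆ ∈ U 6 := e0 ▸ e2 ▸ e3 ▸ cmm.2.UI 2
  have hH : ∀ {z : C.T.Fx}, z.1 ∈ (S).H → ∀ n, ∀ u ∈ U n, z * u * z⁻¹ ∈ U n := fun h _ _ hu => H_conj_mem h hu
  have an : ∀ {m n}, m ≤ n → U n ≤ U m := UI_anti
  refine not_dvd_mult' hp (U 0) (nd_index (a := 1) (by
    rw [card_UI (by decide +kernel), h6, h5]; simp only [mul_assoc, one_mul]; rfl) (by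
    simpa only [hp.dvd_mul, nd_sub hp h4 hq.pos, false_or, Nat.dvd_add_right (h4.pow (by omega : 8 ≠ 0)), add_assoc] using
      nd_add hp h4)) fun E _ _ π hπ _ => ?_
  obtain ⟨M, k1, k2, -⟩ := sp_of_filt hπ (UI C.T J) (e3.trans flt.bot) (fun k => UI_anti k.le_succ) cmm.2.UI
    (Hs := {z | (z.1 ∈ (S).H ∨ z = w C) ∧ Commute z (w C)})
    (fun y hy z hz => hy.1.elim (fun h => hz.1.elim (fun h' => Subtype.ext (gl_R3.H_comm _ h _ h')) (· ▸ hy.2)) (· ▸ hz.2.symm))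
    (fun y hy k u hu => hy.1.elim (H_conj_mem · hu) (· ▸ w_conj C k u hu)) (fun k hk => by
      interval_cases k <;> simp only [e0, e1, e2, e3, zero_add, Nat.reduceAdd]
      exacts [⟨_, ⟨.inr rfl, rfl⟩, fp_w C 1 (by simp)⟩, ⟨_, ⟨.inl y0.1, y0.2⟩, y2.2⟩, ⟨_, ⟨.inr rfl, rfl⟩, fp_w C 4 (by simp)⟩])
    fun j k hj hk β hβ => by
      have P : ∀ j ∈ [1, 2], ∀ k ∈ [1, 2], SP π {z | (z.1 ∈ (S).H ∨ z = w C) ∧ Commute z (w C)} (U j) (U (j + 1)) (U k)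
          (U (k + 1)) β → ∀ a ∈ U j, ∀ b ∈ U k, β a b = 1 := fun j hj k hk h =>
        have hj' : j < 6 := by simp at hj; omega
        have hk' : k < 6 := by simp at hk; omega
        h.of_coord p (an j.le_succ) (an k.le_succ) (flt.k1 (flt.val j hj')) (fun a ha => (flt.k2 cmm.1 hj' a ha).1)
          (flt.k1 (flt.val k hk')) (fun a ha => (flt.k2 cmm.1 hk' a ha).1) ⟨.inl x0.1, x0.2⟩ (x1 j hj) (x1 k hk) (by simp) nc
      have P' : ∀ k ∈ [1, 2], SP π _ (U 1) (U 3) (U k) (U (k + 1)) β → ∀ b ∈ U k, ∀ a ∈ U 1, β a b = 1 :=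
        fun k hk h b hb a ha => h.split (an one_le_two) (P 2 (by simp) k hk) (P 1 (by simp) k hk) a ha b hb
      interval_cases k <;> interval_cases j <;> simp only [e0, e1, e2, e3, zero_add, Nat.reduceAdd] at hβ ⊢
      · exact fun a ha b hb => hβ.flip.split (an one_le_two) (fun h => P' 2 (by simp) h.flip) (fun h => P' 1 (by simp) h.flip) b hb a ha
      · exact fun a ha b hb => hβ.flip.of_fp (an (by omega)) (an (by omega)) ⟨.inr rfl, rfl⟩ (triv_w C) (fp_w C 1 (by simp))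
          w1 w3 c1 b hb a ha
      · exact hβ.of_coord p (an (by omega)) (an (by omega)) (flt.k1 (flt.val 3 (by omega)))
          (fun a ha => (flt.k2 cmm.1 (by omega) a ha).1) (flt.k1 (flt.val 3 (by omega)))
          (fun a ha => (flt.k2 cmm.1 (by omega) a ha).1) ⟨.inl y0.1, y0.2⟩ y1 y1 (by simp) nc
      · exact fun a ha b hb => hβ.flip.of_fp (an (by omega)) (an (by omega)) ⟨.inl z0.1, z0.2⟩ z1 (z2 a3).1 (hH z0.1 _)
          (hH z0.1 _) c1 b hb a ha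
      · exact hβ.of_fp (an (by omega)) (an (by omega)) ⟨.inr rfl, rfl⟩ (triv_w C) (fp_w C 4 (by simp)) w4 w6
          fun a ha => c4 a (an (by omega) ha)
      · have : ∀ a ∈ U 4, ∀ x ∈ U 1, Commute a x := fun a ha x hx =>
          (commutatorElement_eq_one_iff_commute.1 (mem_bot.1 (flt.bot.le (c4 x hx a ha)))).symm
        exact fun a ha b hb => hβ.cm a b ((commutator_le (H₃ := CM.sub hπ a)).2
          (fun x hx y hy => CM.comm hπ (this a ha x hx) (this a ha y hy)) (hD hb))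
  obtain ⟨M, k1, k2, k3⟩ := lemC hπ (Sp.comm hπ ⟨M, k1, k2.trans e0⟩) (mem_normalizer_fintype (hH y0.1 1))
    (y2.1.trans (y2.2.mid hD (commutator_le.2 c1) (hH y0.1 _) (conj_mem_comm (hH y0.1 _)) (hH y0.1 _)
      fun a ha => cmm.1.UI 3 a (an (by omega) ha)) (commutator_le.2 c1))
  refine comm_step hπ k1 (fun x hx => k3 x (mem_normalizer_fintype fun u hu => cmm.1.conj hx hu) (y3 _ hx)) fun u hu v hv => ?_
  obtain ⟨a', h1, b', h2, h3, h4, h5⟩ := spec_fix (T := C.T) (I := I) (ρ := ρ) (fun _ => C.φ_fix) (k := 0) (r := rt 23) (s := rt 1)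
    (C := 1) rfl (by decide +kernel) _ _ (fun e => (flt.k0 (flt.val 0 (by omega)) hu).symm.trans (by rw [e]))
    fun e => (flt.k0 (flt.val 0 (by omega)) hv).symm.trans (by rw [e])
  exact ⟨⟨a', h1.1⟩, h1.2, ⟨b', h2.1⟩, h2.2, k2 ▸ flt.congr cmm.1 (by omega) h1.2 hu h4.symm,
    k2 ▸ flt.congr cmm.1 (by omega) h2.2 hv h5.symm, cm_of_CT hπ h3⟩

omit C in
theorem has (hq : IsPrimePow q) (hK : Fintype.card K = q ^ 3) : HasCyclicSchurMultiplier (twistedD4 K q) 1 := by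
  obtain ⟨p, _, -, hp, -⟩ := FiniteField.card' K
  obtain ⟨C⟩ := exists_CD4 hq hK
  exact has_of_card_mult_one (card_mult_D4 hp C (not_dvd C hq hK hp)).dvd

end D4

end Cfsg.Agent.Mult
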